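import Mathlib.RingTheory.MvPolynomial.WeightedHomogeneous
import Mathlib.RingTheory.MvPolynomial.Ideal
import Mathlib.RingTheory.MvPolynomial.Basic
import Mathlib.LinearAlgebra.FiniteDimensional.Lemmas
import Mathlib.RingTheory.Ideal.Quotient.Operations

/-!
# Ideals generated by polynomials `X α ^ q + lower terms`
-/

set_option autoImplicit false

namespace Cfsg.Lib.Char.BF

open MvPolynomial Finsupp

variable {k : Type*} [Field k] {σ : Type*}

/-- Polynomials all of whose monomials have weight `< D`. -/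
noncomputable def Lt (k : Type*) [Field k] (w : σ → ℕ) (D : ℕ) : Submodule k (MvPolynomial σ k) :=
  restrictSupport k {d | weight w d < D}

variable {w : σ → ℕ}

theorem mem_Lt {D : ℕ} {F : MvPolynomial σ k} :
    F ∈ Lt k w D ↔ ∀ d ∈ F.support, weight w d < D := mem_restrictSupport_iff _

theorem Lt_mono {D D' : ℕ} (h : D ≤ D') : Lt k w D ≤ Lt k w D' := fun _ hF =>
  mem_Lt.2 fun d hd => (mem_Lt.1 hF d hd).trans_le h

theorem monomial_mem_Lt {D : ℕ} {d : σ →₀ ℕ} (h : weight w d < D) (c : k) :
    monomial d c ∈ Lt k w D := by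
  classical
  refine mem_Lt.2 fun e he => ?_
  rwa [Finset.mem_singleton.1 (support_monomial_subset he)]

theorem mul_mem_Lt {D D' : ℕ} {F F' : MvPolynomial σ k} (h : F ∈ Lt k w D)
    (h' : F' ∈ Lt k w (D' + 1)) : F * F' ∈ Lt k w (D + D') := by
  classical
  refine mem_Lt.2 fun e he => ?_
  obtain ⟨a, ha, b, hb, rfl⟩ := Finset.mem_add.1 (support_mul _ _ he)
  have h1 := mem_Lt.1 h a ha
  have h2 := mem_Lt.1 h' b hb
  rw [map_add]; omega

theorem exists_mem_Lt (w : σ → ℕ) (F : MvPolynomial σ k) : ∃ D, F ∈ Lt k w D :=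
  ⟨weightedTotalDegree w F + 1, mem_Lt.2 fun _ hd => Nat.lt_succ_of_le (le_weightedTotalDegree w hd)⟩

theorem eq_zero_of_mem_Lt_zero {F : MvPolynomial σ k} (h : F ∈ Lt k w 0) : F = 0 :=
  support_eq_empty.1 (Finset.eq_empty_of_forall_notMem fun d hd => by simpa using mem_Lt.1 h d hd)

theorem comp_eq_zero_of_mem_Lt {D : ℕ} {F : MvPolynomial σ k} (h : F ∈ Lt k w D) :
    weightedHomogeneousComponent w D F = 0 :=
  weightedHomogeneousComponent_eq_zero' D F fun d hd => (mem_Lt.1 h d hd).ne

theorem mem_Lt_of_comp_eq_zero {D : ℕ} {F : MvPolynomial σ k} (h : F ∈ Lt k w (D + 1))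
    (h0 : weightedHomogeneousComponent w D F = 0) : F ∈ Lt k w D := by
  refine mem_Lt.2 fun d hd => lt_of_le_of_ne (Nat.le_of_lt_succ (mem_Lt.1 h d hd)) fun h1 => ?_
  have := congrArg (coeff d) h0
  rw [coeff_weightedHomogeneousComponent, if_pos h1, coeff_zero] at this
  exact MvPolynomial.mem_support_iff.1 hd this

theorem Lt_induction {D : ℕ} {F : MvPolynomial σ k} (h : F ∈ Lt k w D)
    (U : Submodule k (MvPolynomial σ k)) (hU : ∀ d, weight w d < D → monomial d (1 : k) ∈ U) :
    F ∈ U := by
  rw [F.as_sum]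
  refine U.sum_mem fun d hd => ?_
  have := U.smul_mem (coeff d F) (hU d (mem_Lt.1 h d hd))
  rwa [smul_monomial, smul_eq_mul, mul_one] at this

/-- `F` is the monomial `e` plus terms of smaller weight. -/
def Lead (w : σ → ℕ) (e : σ →₀ ℕ) (F : MvPolynomial σ k) : Prop :=
  F - monomial e 1 ∈ Lt k w (weight w e)

theorem Lead.mem {e : σ →₀ ℕ} {F : MvPolynomial σ k} (h : Lead w e F) :
    F ∈ Lt k w (weight w e + 1) := by
  have := (Lt k w _).add_mem (Lt_mono (Nat.le_succ _) h) (monomial_mem_Lt (Nat.lt_succ_self _) 1)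
  rwa [sub_add_cancel] at this

theorem lead_monomial (e : σ →₀ ℕ) : Lead w e (monomial e (1 : k)) := by
  rw [Lead, sub_self]; exact Submodule.zero_mem _

theorem Lead.mul {e e' : σ →₀ ℕ} {F F' : MvPolynomial σ k} (h : Lead w e F) (h' : Lead w e' F') :
    Lead w (e + e') (F * F') := by
  have h1 : F * F' - monomial (e + e') 1 =
      (F - monomial e 1) * F' + (F' - monomial e' 1) * monomial e 1 := by
    rw [← one_mul (1 : k), ← monomial_mul, one_mul]; ring
  rw [Lead, h1, map_add]
  refine Submodule.add_mem _ (mul_mem_Lt h h'.mem) ?_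
  rw [add_comm]
  exact mul_mem_Lt h' (lead_monomial e).mem

theorem lead_prod {ι : Type*} (s : Finset ι) {e : ι → σ →₀ ℕ} {F : ι → MvPolynomial σ k}
    (h : ∀ i ∈ s, Lead w (e i) (F i)) : Lead w (∑ i ∈ s, e i) (∏ i ∈ s, F i) := by
  classical
  induction s using Finset.induction_on with
  | empty => simpa using lead_monomial (k := k) (w := w) 0
  | insert a s ha ih =>
    rw [Finset.sum_insert ha, Finset.prod_insert ha]
    exact (h a (Finset.mem_insert_self _ _)).mul (ih fun i hi => h i (Finset.mem_insert_of_mem hi))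

theorem Lead.pow {e : σ →₀ ℕ} {F : MvPolynomial σ k} (h : Lead w e F) (a : ℕ) :
    Lead w (a • e) (F ^ a) := by
  simpa using lead_prod (Finset.range a) (e := fun _ => e) (F := fun _ => F) fun _ _ => h

/-- The ideal generated by the `q`-th powers of the variables. -/
noncomputable def I0 (k : Type*) [Field k] (σ : Type*) (q : ℕ) : Ideal (MvPolynomial σ k) :=
  Ideal.span (Set.range fun α : σ => X α ^ q)

theorem mem_I0 {q : ℕ} {F : MvPolynomial σ k} :
    F ∈ I0 k σ q ↔ ∀ d ∈ F.support, ∃ α, q ≤ d α := by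
  have : (Set.range fun α : σ => (X α ^ q : MvPolynomial σ k)) =
      (fun s => monomial s (1 : k)) '' Set.range fun α => single α q := by
    rw [← Set.range_comp]
    simp only [X_pow_eq_monomial]
    rfl
  rw [I0, this, mem_ideal_span_monomial_image]
  simp [Finsupp.single_le_iff]

theorem comp_mem_I0 {q : ℕ} {F : MvPolynomial σ k} (h : F ∈ I0 k σ q) (D : ℕ) :
    weightedHomogeneousComponent w D F ∈ I0 k σ q := by
  refine mem_I0.2 fun d hd => mem_I0.1 h d ?_
  rw [MvPolynomial.mem_support_iff] at hd ⊢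
  rw [coeff_weightedHomogeneousComponent] at hd
  split_ifs at hd
  · exact hd
  · exact absurd rfl hd

section Psi

variable [Fintype σ] (q : ℕ) (N : σ → MvPolynomial σ k)

/-- The deformation of the monomial basis. -/
noncomputable def bb (d : σ →₀ ℕ) : MvPolynomial σ k :=
  ∏ α, X α ^ (d α % q) * N α ^ (d α / q)

/-- The linear map sending monomials to their deformations. -/
noncomputable def psi : MvPolynomial σ k →ₗ[k] MvPolynomial σ k :=
  (basisMonomials σ k).constr k (bb q N)

theorem psi_monomial (d : σ →₀ ℕ) : psi q N (monomial d 1) = bb q N d :=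
  (basisMonomials σ k).constr_basis k (bb q N) d

variable {q N}

theorem lead_bb (hN : ∀ α, Lead w (single α q) (N α)) (d : σ →₀ ℕ) : Lead w d (bb q N d) := by
  have h := lead_prod (w := w) Finset.univ
    (e := fun α => (d α % q) • single α 1 + (d α / q) • single α q)
    (F := fun α => X α ^ (d α % q) * N α ^ (d α / q))
    fun α _ => ((lead_monomial (single α 1)).pow _).mul ((hN α).pow _)
  have h1 : ∑ α, ((d α % q) • single α 1 + (d α / q) • single α q) = d := by
    simp only [smul_single, smul_eq_mul, mul_one, ← single_add, Nat.mod_add_div']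
    exact univ_sum_single d
  rwa [h1] at h

theorem psi_sub_mem (hN : ∀ α, Lead w (single α q) (N α)) {D : ℕ} {F : MvPolynomial σ k}
    (h : F ∈ Lt k w (D + 1)) : psi q N F - F ∈ Lt k w D := by
  have := Lt_induction h ((Lt k w D).comap (psi q N - LinearMap.id)) fun d hd => by
    rw [Submodule.mem_comap, LinearMap.sub_apply, LinearMap.id_apply, psi_monomial]
    exact Lt_mono (Nat.le_of_lt_succ hd) (lead_bb hN d)
  rwa [Submodule.mem_comap, LinearMap.sub_apply, LinearMap.id_apply] at this

theorem psi_surjective (hN : ∀ α, Lead w (single α q) (N α)) : Function.Surjective (psi q N) := by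
  have key : ∀ D, Lt k w D ≤ LinearMap.range (psi q N) := by
    intro D
    induction D with
    | zero => intro F hF; rw [eq_zero_of_mem_Lt_zero hF]; exact Submodule.zero_mem _
    | succ D ih =>
      intro F hF
      have := Submodule.sub_mem _ (LinearMap.mem_range_self (psi q N) F) (ih (psi_sub_mem hN hF))
      rwa [sub_sub_cancel] at this
  intro F
  obtain ⟨D, hD⟩ := exists_mem_Lt w F
  exact key D hD

theorem mem_Lt_of_psi (hN : ∀ α, Lead w (single α q) (N α)) {D : ℕ} {F : MvPolynomial σ k}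
    (h : psi q N F ∈ Lt k w D) : F ∈ Lt k w D := by
  obtain ⟨E, hE⟩ := exists_mem_Lt w F
  induction E with
  | zero => exact Lt_mono (Nat.zero_le _) hE
  | succ E ih =>
    by_cases hDE : E < D
    · exact Lt_mono hDE hE
    · have := Submodule.sub_mem _ (Lt_mono (not_lt.1 hDE) h) (psi_sub_mem hN hE)
      rw [sub_sub_cancel] at this
      exact ih this

theorem psi_X_pow_mul (hq : 0 < q) (α : σ) (F : MvPolynomial σ k) :
    psi q N (X α ^ q * F) = N α * psi q N F := by
  classical
  have : (psi q N).comp (LinearMap.mulLeft k (X α ^ q)) =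
      (LinearMap.mulLeft k (N α)).comp (psi q N) := by
    refine (basisMonomials σ k).ext fun d => ?_
    simp only [coe_basisMonomials, LinearMap.comp_apply, LinearMap.mulLeft_apply,
      X_pow_eq_monomial, monomial_mul, one_mul, psi_monomial, bb]
    rw [← Finset.mul_prod_erase _ _ (Finset.mem_univ α),
      ← Finset.mul_prod_erase _ _ (Finset.mem_univ α), ← mul_assoc]
    congr 1
    · simp only [Finsupp.add_apply, single_eq_same, Nat.add_mod_left, Nat.add_div_left _ hq,
        add_comm q, Nat.add_mod_right, Nat.add_div_right _ hq]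
      ring
    · refine Finset.prod_congr rfl fun β hβ => ?_
      simp [Finsupp.single_apply, (Finset.ne_of_mem_erase hβ).symm]
  exact LinearMap.congr_fun this F

theorem exists_psi_eq (hq : 0 < q) (hN : ∀ α, Lead w (single α q) (N α)) {F : MvPolynomial σ k}
    (h : F ∈ Ideal.span (Set.range N)) : ∃ F' ∈ I0 k σ q, psi q N F' = F := by
  obtain ⟨c, rfl⟩ := Ideal.mem_span_range_iff_exists_fun.1 h
  choose c' hc using fun α => psi_surjective hN (c α)
  refine ⟨∑ α, X α ^ q * c' α, Ideal.sum_mem _ fun α _ =>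
    Ideal.mul_mem_right _ _ (Ideal.subset_span ⟨α, rfl⟩), ?_⟩
  simp only [map_sum, psi_X_pow_mul hq, hc]
  simp only [mul_comm]

theorem comp_mem_I0_of_mem (hq : 0 < q) (hN : ∀ α, Lead w (single α q) (N α))
    {F : MvPolynomial σ k} (h : F ∈ Ideal.span (Set.range N)) {D : ℕ} (hD : F ∈ Lt k w (D + 1)) :
    weightedHomogeneousComponent w D F ∈ I0 k σ q := by
  obtain ⟨F', h1, rfl⟩ := exists_psi_eq hq hN h
  have h2 := comp_eq_zero_of_mem_Lt (psi_sub_mem hN (mem_Lt_of_psi hN hD))
  rw [map_sub, sub_eq_zero] at h2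
  rw [h2]
  exact comp_mem_I0 h1 D

theorem span_box_eq_top (hq : 0 < q) (hN : ∀ α, Lead w (single α q) (N α)) :
    Submodule.span k (Set.range fun a : σ → Fin q =>
      Ideal.Quotient.mk (Ideal.span (Set.range N)) (∏ α, X α ^ (a α).val)) = ⊤ := by
  classical
  rw [eq_top_iff]
  rintro x -
  obtain ⟨F, rfl⟩ := Ideal.Quotient.mk_surjective x
  obtain ⟨F, rfl⟩ := psi_surjective hN F
  obtain ⟨D, hD⟩ := exists_mem_Lt w F
  refine (Submodule.mem_comap (f := (Ideal.Quotient.mkₐ k
    (Ideal.span (Set.range N))).toLinearMap.comp (psi q N))).1 (Lt_induction hD _ fun d _ => ?_)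
  rw [Submodule.mem_comap]
  show Ideal.Quotient.mk _ (psi q N (monomial d 1)) ∈ _
  rw [psi_monomial]
  by_cases h : ∀ α, d α < q
  · refine Submodule.subset_span ⟨fun α => ⟨d α, h α⟩, ?_⟩
    simp [bb, Nat.mod_eq_of_lt (h _), Nat.div_eq_of_lt (h _)]
  · push Not at h
    obtain ⟨α, hα⟩ := h
    rw [Ideal.Quotient.eq_zero_iff_mem.2]
    · exact Submodule.zero_mem _
    · refine Ideal.mem_of_dvd _ (dvd_trans ?_ (Finset.dvd_prod_of_mem _ (Finset.mem_univ α)))
        (Ideal.subset_span ⟨α, rfl⟩)
      exact Dvd.dvd.mul_left (dvd_pow_self _ (Nat.div_pos hα hq).ne') _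

/-- A graded complement of `I0` is a complement of every deformation of `I0`. -/
theorem bijective_mk_comp (hq : 0 < q) (hN : ∀ α, Lead w (single α q) (N α)) {W : Type*}
    [AddCommGroup W] [Module k W] (res : W →ₗ[k] MvPolynomial σ k)
    (h0 : ∀ x, res x ∈ I0 k σ q → x = 0)
    (hgr : ∀ x D, ∃ y, res y = weightedHomogeneousComponent w D (res x))
    {ι : Type*} [Fintype ι] (hι : q ^ Fintype.card σ ≤ Fintype.card ι) {v : ι → W}
    (hv : LinearIndependent k v) :
    Function.Bijective (fun x => Ideal.Quotient.mk (Ideal.span (Set.range N)) (res x)) ∧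
      Module.Finite k W ∧ Module.finrank k W ≤ q ^ Fintype.card σ := by
  classical
  let β : W →ₗ[k] MvPolynomial σ k ⧸ Ideal.span (Set.range N) :=
    (Ideal.Quotient.mkₐ k _).toLinearMap.comp res
  have hinj : Function.Injective β := by
    rw [injective_iff_map_eq_zero]
    intro x hx
    have hx' : res x ∈ Ideal.span (Set.range N) := Ideal.Quotient.eq_zero_iff_mem.1 hx
    obtain ⟨D, hD⟩ := exists_mem_Lt w (res x)
    induction D with
    | zero => exact h0 x (by rw [eq_zero_of_mem_Lt_zero hD]; exact Ideal.zero_mem _)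
    | succ D ih =>
      obtain ⟨y, hy⟩ := hgr x D
      have h1 := h0 y (hy ▸ comp_mem_I0_of_mem hq hN hx' hD)
      rw [h1, map_zero] at hy
      exact ih (mem_Lt_of_comp_eq_zero hD hy.symm)
  have hsp := span_box_eq_top hq hN
  have hfin : Module.Finite k (MvPolynomial σ k ⧸ Ideal.span (Set.range N)) :=
    ⟨hsp ▸ Submodule.fg_span (Set.finite_range _)⟩
  have h1 : Module.finrank k (MvPolynomial σ k ⧸ Ideal.span (Set.range N)) ≤
      q ^ Fintype.card σ := by
    simpa using finrank_le_of_span_eq_top hsp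
  have hW : Module.Finite k W := Module.Finite.of_injective β hinj
  have h2 := LinearMap.finrank_le_finrank_of_injective hinj
  have h3 := hv.fintype_card_le_finrank
  exact ⟨⟨hinj, (LinearMap.injective_iff_surjective_of_finrank_eq_finrank (by omega)).1 hinj⟩,
    hW, h2.trans h1⟩

end Psi

end Cfsg.Lib.Char.BF
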