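import Cfsg.Agent.Block.IdemLift
import Cfsg.Agent.Block.ModSimple
import Cfsg.Agent.Block.MinDim
import Cfsg.Agent.Char.Kernel
import Mathlib.LinearAlgebra.Matrix.Rank
import Mathlib.RingTheory.Jacobson.Ring
import Mathlib.Algebra.Algebra.ZMod
import Cfsg.Agent.Char.IndTransport

/-!
# Lifting projective modules to characteristic zero; specialisation and triangularisation
-/

set_option autoImplicit false

namespace Cfsg.Lib.Char.BF

open Matrix Cfsg Cfsg.Lib.Block Cfsg.Lib.Char

theorem rank_residue_le {M : Ideal AlgInt} {ι : Type*} [Fintype ι] (X : Matrix ι ι (OM M)) :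
    (X.map (IsLocalRing.residue (OM M))).rank ≤ (X.map ((↑) : OM M → ℂ)).rank := by
  obtain ⟨κ, a, ha, h3, h4⟩ :=
    exists_linearIndependent' (kM M) (X.map (IsLocalRing.residue (OM M))).row
  have := Finite.of_injective a ha
  have := Fintype.ofFinite κ
  have h6 : LinearIndependent ℂ fun j => (X.map ((↑) : OM M → ℂ)).row (a j) := by
    refine Mod.linearIndependent_of_redM (M := M) _ (fun j x => vM_coe_le_one _) ?_
    simp only [Matrix.row, Matrix.map_apply, redM_coe]
    exact h4
  rw [rank_eq_finrank_span_row, rank_eq_finrank_span_row, ← h3, finrank_span_eq_card h4,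
    ← finrank_span_eq_card h6]
  exact Submodule.finrank_mono (Submodule.span_mono (by rintro _ ⟨j, rfl⟩; exact ⟨a j, rfl⟩))

theorem card_le_rank_add {K ι : Type*} [Field K] [Fintype ι] [DecidableEq ι] (E : Matrix ι ι K) :
    Fintype.card ι ≤ E.rank + (1 - E).rank := by
  have h : LinearMap.range E.mulVecLin ⊔ LinearMap.range (1 - E).mulVecLin = ⊤ := by
    rw [eq_top_iff]
    intro v _
    exact Submodule.mem_sup.2 ⟨_, ⟨v, rfl⟩, _, ⟨v, rfl⟩, by simp [Matrix.sub_mulVec]⟩
  have := Submodule.finrank_add_le_finrank_add_finrank (LinearMap.range E.mulVecLin)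
    (LinearMap.range (1 - E).mulVecLin)
  rwa [h, finrank_top, Module.finrank_fintype_fun_eq_card] at this

/-- A projective matrix representation lifts to characteristic zero. -/
theorem exists_character_of_higman_matrix {M : Ideal AlgInt} {G : Type*} [Group G] [Fintype G]
    {d : ℕ} (r : G →* Matrix (Fin d) (Fin d) (kM M)) (T : Matrix (Fin d) (Fin d) (kM M))
    (h : ∑ g, r g * T * r g⁻¹ = 1) :
    ∃ χ : G → ℂ, IsCharacter G χ ∧ charDegree χ ≤ d ∧ ∀ g, χ g = χ 1 → r g = 1 := by
  classical
  let E : Matrix (G × Fin d) (G × Fin d) (kM M) :=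
    Matrix.of fun x y => (T * r (x.1⁻¹ * y.1)) x.2 y.2
  have hE : E * E = E := by
    ext x z
    have : T * r (x.1⁻¹ * z.1) = ∑ y, T * r (x.1⁻¹ * y) * (T * r (y⁻¹ * z.1)) := by
      rw [map_mul, ← Matrix.mul_one (r x.1⁻¹), ← h]
      simp only [Finset.mul_sum, Finset.sum_mul, map_mul, Matrix.mul_assoc]
    simp only [E, Matrix.mul_apply (M := Matrix.of _), Matrix.of_apply, Fintype.sum_prod_type]
    rw [this, Matrix.sum_apply]
    rfl
  have hrk : E.rank ≤ d := by
    have : E = (Matrix.of fun (x : G × Fin d) j => (T * r x.1⁻¹) x.2 j) *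
        Matrix.of fun j (y : G × Fin d) => r y.1 j y.2 := by
      ext x y
      simp only [E, Matrix.of_apply, map_mul, ← Matrix.mul_assoc]
      rfl
    rw [this]
    exact (rank_mul_le_left _ _).trans ((rank_le_card_width _).trans (Fintype.card_fin d).le)
  let a : Matrix (G × Fin d) (G × Fin d) (OM M) :=
    E.map (Function.surjInv IsLocalRing.residue_surjective)
  have ha : (IsLocalRing.residue (OM M)).mapMatrix a = E := by
    ext x y
    exact Function.surjInv_eq IsLocalRing.residue_surjective _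
  obtain ⟨q, h1, h2⟩ := Idem.exists_idem_lift (O := OM M) exists_root_OM
    (IsLocalRing.residue (OM M)).mapMatrix (fun c hc => by
      ext x y
      rw [RingHom.mapMatrix_apply, Matrix.map_apply, Matrix.algebraMap_matrix_apply]
      split_ifs
      · exact (IsLocalRing.residue_eq_zero_iff c).2 hc
      · exact map_zero _)
    (a := a) (IsIntegral.of_finite _ _) (by rw [ha]; exact hE)
  let σ : G → G × Fin d ≃ G × Fin d := fun g => (Equiv.mulLeft g).prodCongr (Equiv.refl _)
  have hσ : ∀ g, reindexAlgEquiv (OM M) (OM M) (σ g) (Polynomial.aeval a q * a) =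
      Polynomial.aeval a q * a := fun g => by
    have : reindexAlgEquiv (OM M) (OM M) (σ g) a = a := by
      ext x y
      simp [a, E, σ, -map_mul, mul_assoc]
    rw [map_mul, ← Polynomial.aeval_algHom_apply, this]
  rw [ha] at h2
  generalize Polynomial.aeval a q * a = F at h1 h2 hσ
  have hσ' : ∀ g x y, F (g⁻¹ * x.1, x.2) (g⁻¹ * y.1, y.2) = F x y := fun g x y =>
    congrFun (congrFun (hσ g) x) y
  let Fc : Matrix (G × Fin d) (G × Fin d) ℂ := F.map (↑)
  have hrk' : Fc.rank ≤ d := by
    have e1 : Fc * (1 - F).map ((↑) : OM M → ℂ) = 0 := by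
      have := Matrix.map_mul (L := F) (M := 1 - F) (f := (OM M).subtype)
      rw [mul_sub, mul_one, h1.eq, sub_self, Matrix.map_zero _ (map_zero _)] at this
      exact this.symm
    have e2 := rank_add_rank_le_card_of_mul_eq_zero e1
    have e3 := rank_residue_le (1 - F)
    have e4 := card_le_rank_add E
    rw [← RingHom.mapMatrix_apply, map_sub, map_one, h2] at e3
    omega
  let π : Representation ℂ G (G × Fin d → ℂ) :=
    { toFun := fun g => LinearMap.funLeft ℂ ℂ fun x => (g⁻¹ * x.1, x.2)
      map_one' := by ext; simp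
      map_mul' := fun g g' => by ext; simp [mul_assoc] }
  have hπ : ∀ g v, π g (Fc *ᵥ v) = Fc *ᵥ π g v := fun g v => by
    funext x
    show ∑ y, Fc (g⁻¹ * x.1, x.2) y * v y = ∑ y, Fc x y * v (g⁻¹ * y.1, y.2)
    rw [← Equiv.sum_comp (σ g⁻¹)]
    exact Finset.sum_congr rfl fun y _ => congrArg (fun z : OM M => (z : ℂ) * _) (hσ' g x y)
  let π' := π.subrepresentation (LinearMap.range Fc.mulVecLin) (by
    rintro g _ ⟨v, rfl⟩
    exact ⟨π g v, (hπ g v).symm⟩)
  refine ⟨π'.character, isCharacter_rep π', ?_, fun g hg => ?_⟩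
  · simpa [charDegree, Matrix.rank] using hrk'
  · have h3 : π' g = 1 := (mem_charKer_rep π').1 ((isCharacter_rep π').mem_charKer_iff.2 hg)
    have h4 : ∀ x y, F (g⁻¹ * x.1, x.2) y = F x y := fun x y => by
      have := congrFun (congrArg Subtype.val
        (LinearMap.congr_fun h3 ⟨_, ⟨Pi.single y 1, rfl⟩⟩)) x
      apply Subtype.ext
      simpa [π', π, Fc] using this
    have h5 : ∀ x, T * r (x⁻¹ * g) = T * r x⁻¹ := fun x => by
      ext i j
      have := congrArg (IsLocalRing.residue (OM M)) (h4 (x, i) (1, j))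
      have h6 : ∀ x y, IsLocalRing.residue (OM M) (F x y) = E x y := fun x y =>
        congrFun (congrFun h2 x) y
      simpa [h6, E] using this
    rw [← h, ← Matrix.one_mul (r g), ← h, Finset.sum_mul]
    simp only [Matrix.mul_assoc, ← map_mul, h5]

/-- A projective representation lifts to characteristic zero. -/
theorem exists_character_of_higman {M : Ideal AlgInt} {G : Type*} [Group G] [Fintype G]
    {V : Type*} [AddCommGroup V] [Module (kM M) V] [Module.Finite (kM M) V]
    (ρ : G →* Module.End (kM M) V) (t : Module.End (kM M) V) (h : ∑ g, ρ g * t * ρ g⁻¹ = 1) :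
    ∃ χ : G → ℂ, IsCharacter G χ ∧ charDegree χ ≤ Module.finrank (kM M) V ∧
      ∀ g, χ g = χ 1 → ρ g = 1 := by
  let e := LinearMap.toMatrixAlgEquiv (Module.finBasis (kM M) V)
  obtain ⟨χ, h1, h2, h3⟩ := exists_character_of_higman_matrix
    ((e : Module.End (kM M) V →* _).comp ρ) (e t) (by
      have := congrArg e h
      simpa using this)
  exact ⟨χ, h1, h2, fun g hg => e.injective ((h3 g hg).trans (map_one e).symm)⟩

/-- Higman's criterion passes from a Sylow subgroup to the whole group. -/
theorem higman_of_subgroup {k G V : Type*} [Field k] [Group G] [Fintype G] [AddCommGroup V]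
    [Module k V] (ρ : G →* Module.End k V) (P : Subgroup G) [Fintype P] (hP : (P.index : k) ≠ 0)
    {t : Module.End k V} (h : ∑ g : P, ρ g * t * ρ (g⁻¹ : P) = 1) :
    ∃ t', ∑ g, ρ g * t' * ρ g⁻¹ = 1 := by
  classical
  have := Fintype.ofFinite (G ⧸ P)
  refine ⟨(P.index : k)⁻¹ • t, ?_⟩
  have : ∑ g, ρ g * t * ρ g⁻¹ = (P.index : k) • 1 := by
    rw [sum_eq_sum_leftCosets P, Subgroup.index_eq_card, Nat.card_eq_fintype_card,
      Nat.cast_smul_eq_nsmul, ← Finset.card_univ, ← Finset.sum_const]
    refine Finset.sum_congr rfl fun x _ => ?_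
    have h2 : ρ x.out * (∑ g : P, ρ g * t * ρ (g⁻¹ : P)) * ρ x.out⁻¹ = 1 := by
      rw [h, mul_one, ← map_mul, mul_inv_cancel, map_one]
    rw [← h2, Finset.mul_sum, Finset.sum_mul]
    simp only [_root_.mul_inv_rev, map_mul, mul_assoc, Subgroup.coe_inv]
  simp only [mul_smul_comm, smul_mul_assoc, ← Finset.smul_sum, this, inv_smul_smul₀ hP]

/-- Specialisation of a faithful representation of a finite group. -/
theorem exists_specialization {p : ℕ} [Fact p.Prime] {F k G ι : Type*} [Field F] [CharP F p]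
    [Field k] [CharP k p] [IsAlgClosed k] [Group G] [Finite G] [Fintype ι] [DecidableEq ι]
    (r : G →* Matrix ι ι F) (hr : Function.Injective r) :
    ∃ r' : G →* Matrix ι ι k, Function.Injective r' := by
  classical
  let := ZMod.algebra F p
  let := ZMod.algebra k p
  let s : Set F := (Set.range fun x : G × ι × ι => r x.1 x.2.1 x.2.2) ∪
    Set.range fun x : G × ι × ι => ((r x.1 - 1) x.2.1 x.2.2)⁻¹
  let R := Algebra.adjoin (ZMod p) s
  have : Algebra.FiniteType (ZMod p) R := Algebra.FiniteType.adjoin_of_finite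
    ((Set.finite_range _).union (Set.finite_range _))
  obtain ⟨m, hm⟩ := Ideal.exists_maximal R
  let := Ideal.Quotient.field m
  have := finite_of_finite_type_of_isJacobsonRing (ZMod p) (R ⧸ m)
  let φ : R →+* k := (IsAlgClosed.lift : (R ⧸ m) →ₐ[ZMod p] k).toRingHom.comp (Ideal.Quotient.mk m)
  let r₀ : G → Matrix ι ι R :=
    fun g => Matrix.of fun i j => ⟨r g i j, Algebra.subset_adjoin (Or.inl ⟨(g, i, j), rfl⟩)⟩
  have hr₀ : ∀ g, (r₀ g).map R.val = r g := fun _ => rfl
  have hinj : Function.Injective fun X : Matrix ι ι R => X.map R.val :=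
    Matrix.map_injective Subtype.val_injective
  let r₁ : G →* Matrix ι ι R :=
    { toFun := r₀
      map_one' := hinj (by simp only [hr₀, map_one, Matrix.map_one _ (map_zero _) (map_one _)])
      map_mul' := fun g h => hinj (by simp only [hr₀, map_mul, Matrix.map_mul]) }
  refine ⟨(φ.mapMatrix (m := ι)).toMonoidHom.comp r₁, ?_⟩
  rw [injective_iff_map_eq_one]
  intro g hg
  apply hr
  rw [map_one]
  ext i j
  by_contra hne
  have h1 : φ ((r₁ g - 1) i j) = 0 := by
    have h0 : φ.mapMatrix (r₁ g - 1) = 0 := by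
      rw [map_sub, map_one]; exact sub_eq_zero.2 hg
    exact congrFun (congrFun h0 i) j
  have h2 : ((r₁ g - 1) i j : R) * ⟨((r g - 1) i j)⁻¹,
      Algebra.subset_adjoin (Or.inr ⟨(g, i, j), rfl⟩)⟩ = 1 := by
    apply Subtype.ext
    have : (((r₁ g - 1) i j : R) : F) = (r g - 1) i j := by
      simp only [Matrix.sub_apply, Matrix.one_apply]
      split_ifs <;> rfl
    rw [MulMemClass.coe_mul, this]
    exact mul_inv_cancel₀ (sub_ne_zero.2 hne)
  have h3 := congrArg φ h2
  rw [map_mul, h1, zero_mul, map_one] at h3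
  exact zero_ne_one h3

/-- A `p`-group in characteristic `p` is unitriangular. -/
theorem exists_basis_uni {p : ℕ} [Fact p.Prime] {k P : Type*} [Field k] [CharP k p] [Group P]
    [Finite P] (hP : IsPGroup p P) (n : ℕ) : ∀ (V : Type) [AddCommGroup V] [Module k V]
      [Module.Finite k V], Module.finrank k V = n → ∀ ρ : Representation k P V,
      ∃ b : Module.Basis (Fin n) k V, ∀ g j, ρ g (b j) - b j ∈ Submodule.span k (b '' Set.Ioi j) := by
  induction n with
  | zero =>
    intro V _ _ _ hV ρ
    exact ⟨Module.finBasisOfFinrankEq k V hV, fun _ j => j.elim0⟩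
  | succ n ih =>
    intro V _ _ _ hV ρ
    have : Nontrivial V := Module.nontrivial_of_finrank_eq_succ hV
    obtain ⟨f₀, hf₀⟩ := exists_ne (0 : Module.Dual k V)
    let : DistribMulAction P (Module.Dual k V) := DistribMulAction.compHom _ ρ.dual
    obtain ⟨f, -, hf, hfix⟩ := MinDim.exists_fixed_vec hP (V := Module.Dual k V) (fun v => by
      rw [← Nat.cast_smul_eq_nsmul k, CharP.cast_eq_zero, zero_smul]) ⊤ (fun _ _ _ => trivial)
      (w := f₀) trivial hf₀
    have hfix' : ∀ g v, f (ρ g v) = f v := fun g v => by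
      have := LinearMap.congr_fun (hfix g⁻¹) v
      change f (ρ g⁻¹⁻¹ v) = f v at this
      rwa [inv_inv] at this
    have hN : Module.finrank k (LinearMap.ker f) = n := by
      have := Module.Dual.finrank_ker_add_one_of_ne_zero hf
      omega
    obtain ⟨b, hb⟩ := ih (LinearMap.ker f) hN (ρ.subrepresentation _ fun g v hv => by
      simpa [hfix'] using hv)
    obtain ⟨y, hy⟩ : ∃ y, f y = 1 := LinearMap.surjective hf 1
    let b' := Module.Basis.mkFinCons (N := LinearMap.ker f) y b
      (fun c x hx h => by simpa [hy, LinearMap.mem_ker.1 hx] using congrArg f h)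
      fun z => ⟨-f z, by simp [hy]⟩
    have hb' : ⇑b' = Fin.cons y ((↑) ∘ b) := Module.Basis.coe_mkFinCons _ _ _ _
    have key : ∀ (s : Set (Fin n)) (x : LinearMap.ker f), x ∈ Submodule.span k (b '' s) →
        ∀ t : Set (Fin (n + 1)), (∀ i ∈ s, i.succ ∈ t) → x.1 ∈ Submodule.span k (b' '' t) := by
      intro s x hx t hst
      have := Submodule.mem_map_of_mem (f := (LinearMap.ker f).subtype) hx
      rw [Submodule.map_span] at this
      refine Submodule.span_mono ?_ this
      rintro _ ⟨_, ⟨i, hi, rfl⟩, rfl⟩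
      exact ⟨i.succ, hst i hi, by simp [hb']⟩
    refine ⟨b', fun g j => ?_⟩
    refine Fin.cases ?_ (fun j => ?_) j
    · exact key Set.univ ⟨ρ g (b' 0) - b' 0, by simp [hfix']⟩ (by simp) _
        fun i _ => Fin.succ_pos i
    · have := key _ _ (hb g j) (Set.Ioi j.succ) fun i hi => Fin.succ_lt_succ_iff.2 hi
      simpa [hb'] using this

end Cfsg.Lib.Char.BF
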