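import Mathlib.LinearAlgebra.Matrix.Transvection
import Mathlib.LinearAlgebra.Matrix.MvPolynomial
import Mathlib.LinearAlgebra.Matrix.Block
import Mathlib.Algebra.MvPolynomial.Funext
import Mathlib.Algebra.CharP.Lemmas
import Mathlib.Algebra.CharP.Algebra
import Mathlib.RingTheory.AdjoinRoot
import Mathlib.RingTheory.MvPolynomial.Ideal

/-!
# A Steinberg module for `GL_n` in characteristic `p`

`St q` is the space of polynomial functions `f` on `n × n` matrices which are semi-invariant under
right multiplication by upper triangular matrices, and of degree `< q` along the simple lower root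
subgroups.  We show that such an `f` is determined by its restriction to the Frobenius kernel of
the group of lower unitriangular matrices.
-/

set_option autoImplicit false

namespace Cfsg.Lib.Char.BF

open Matrix

variable {k : Type} [Field k] {n : ℕ}

/-- Polynomial functions on matrices. -/
abbrev Pol (k : Type) [Field k] (n : ℕ) : Type := MvPolynomial (Fin n × Fin n) k

section Ev

variable {S S' : Type} [CommRing S] [Algebra k S] [CommRing S'] [Algebra k S']

/-- Evaluation at a matrix with entries in a `k`-algebra. -/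
noncomputable def ev (g : Matrix (Fin n) (Fin n) S) : Pol k n →ₐ[k] S :=
  MvPolynomial.aeval fun ij => g ij.1 ij.2

theorem ev_X (g : Matrix (Fin n) (Fin n) S) (i j : Fin n) :
    ev (k := k) g (MvPolynomial.X (i, j)) = g i j := MvPolynomial.aeval_X _ _

theorem map_ev (φ : S →ₐ[k] S') (g : Matrix (Fin n) (Fin n) S) (f : Pol k n) :
    φ (ev g f) = ev (g.map φ) f := by
  have : φ.comp (ev g) = ev (g.map φ) :=
    MvPolynomial.algHom_ext fun ij => by simp [ev]
  exact DFunLike.congr_fun this f

theorem map_map_algebraMap (φ : S →ₐ[k] S') (g : Matrix (Fin n) (Fin n) k) :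
    (g.map (algebraMap k S)).map φ = g.map (algebraMap k S') := by
  ext i j; simp

theorem mvX_map_ev (g : Matrix (Fin n) (Fin n) S) :
    (mvPolynomialX (Fin n) (Fin n) k).map (ev (k := k) g) = g := by
  ext i j; simp [ev]

/-- Left translation. -/
noncomputable def lt (g : Matrix (Fin n) (Fin n) k) : Pol k n →ₐ[k] Pol k n :=
  ev (g.map (algebraMap k (Pol k n)) * mvPolynomialX (Fin n) (Fin n) k)

theorem ev_lt (g : Matrix (Fin n) (Fin n) k) (h : Matrix (Fin n) (Fin n) S) (f : Pol k n) :
    ev h (lt g f) = ev (g.map (algebraMap k S) * h) f := by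
  rw [lt, map_ev, Matrix.map_mul, map_map_algebraMap, mvX_map_ev]

theorem ev_mvX (f : Pol k n) : ev (mvPolynomialX (Fin n) (Fin n) k) f = f := by
  have : ev (mvPolynomialX (Fin n) (Fin n) k) = AlgHom.id k (Pol k n) :=
    MvPolynomial.algHom_ext fun ij => by simp [ev]
  rw [this]; rfl

theorem lt_lt (g h : Matrix (Fin n) (Fin n) k) (f : Pol k n) : lt g (lt h f) = lt (h * g) f := by
  rw [lt, ev_lt, lt, Matrix.map_mul, Matrix.mul_assoc]

theorem lt_one (f : Pol k n) : lt 1 f = f := by
  rw [lt, Matrix.map_one _ (map_zero _) (map_one _), Matrix.one_mul, ev_mvX]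

/-- The first `i` indices. -/
def cl (i : Fin n) : Fin i → Fin n := fun j => ⟨j, j.2.trans i.2⟩

/-- The multiplier for upper triangular matrices. -/
noncomputable def chi (q : ℕ) (b : Matrix (Fin n) (Fin n) S) : S :=
  ∏ i : Fin n, (b.submatrix (cl i) (cl i)).det ^ (q - 1)

theorem map_chi (q : ℕ) (φ : S →+* S') (b : Matrix (Fin n) (Fin n) S) :
    φ (chi q b) = chi q (b.map φ) := by
  simp only [chi, map_prod, map_pow, RingHom.map_det]
  rfl

theorem cl_injective (i : Fin n) : Function.Injective (cl i) := fun a b h =>
  Fin.ext (congrArg Fin.val h :)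

theorem chi_one (q : ℕ) : chi q (1 : Matrix (Fin n) (Fin n) S) = 1 := by
  simp [chi, Matrix.submatrix_one _ (cl_injective _)]

end Ev

variable (k n) in
/-- The Steinberg module. -/
noncomputable def St (q : ℕ) : Submodule k (Pol k n) where
  carrier := {f | (∀ (S : Type) [CommRing S] [Algebra k S] (g b : Matrix (Fin n) (Fin n) S),
      b.BlockTriangular id → ev (g * b) f = chi q b * ev g f) ∧
    ∀ (S : Type) [CommRing S] [Algebra k S] (g : Matrix (Fin n) (Fin n) S) (s s' : Fin n),
      s'.val = s.val + 1 →
        (ev (g.map Polynomial.C * transvection s' s Polynomial.X) f).natDegree ≤ q - 1}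
  zero_mem' := ⟨fun _ _ _ _ _ _ => by simp, fun _ _ _ _ _ _ _ => by simp⟩
  add_mem' {f f'} hf hf' := ⟨fun S _ _ g b hb => by
      rw [map_add, map_add, hf.1 S g b hb, hf'.1 S g b hb, mul_add],
    fun S _ _ g s s' h => by
      rw [map_add]
      exact (Polynomial.natDegree_add_le _ _).trans (max_le (hf.2 S g s s' h) (hf'.2 S g s s' h))⟩
  smul_mem' c f hf := ⟨fun S _ _ g b hb => by
      rw [map_smul, map_smul, hf.1 S g b hb, mul_smul_comm],
    fun S _ _ g s s' h => by
      rw [map_smul]
      exact (Polynomial.natDegree_smul_le _ _).trans (hf.2 S g s s' h)⟩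

theorem lt_mem_St {q : ℕ} {f : Pol k n} (hf : f ∈ St k n q) (g : Matrix (Fin n) (Fin n) k) :
    lt g f ∈ St k n q := by
  refine ⟨fun S _ _ h b hb => ?_, fun S _ _ h s s' hs => ?_⟩
  · rw [ev_lt, ev_lt, ← Matrix.mul_assoc, hf.1 S _ b hb]
  · rw [ev_lt, ← Matrix.mul_assoc]
    have : g.map (algebraMap k (Polynomial S)) = (g.map (algebraMap k S)).map Polynomial.C := by
      ext i j; simp [Polynomial.algebraMap_apply]
    rw [this, ← Matrix.map_mul]
    exact hf.2 S _ s s' hs

/-- Lower unitriangular matrices. -/
def IsUni {S : Type} [CommRing S] (u : Matrix (Fin n) (Fin n) S) : Prop :=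
  (∀ i, u i i = 1) ∧ ∀ i j, i < j → u i j = 0

section Frob

variable (p : ℕ) [hp : Fact p.Prime] [CharP k p] (m : ℕ)

variable (k) in
/-- The Frobenius endomorphism of a commutative `k`-algebra. -/
noncomputable def frob (S : Type) [CommRing S] [Algebra k S] : S →+* S where
  toFun x := x ^ p ^ m
  map_one' := one_pow _
  map_mul' x y := mul_pow x y _
  map_zero' := zero_pow (pow_pos hp.out.pos m).ne'
  map_add' x y := by
    obtain ⟨r, hr⟩ := exists_add_pow_prime_pow_eq hp.out x y m
    have : (p : S) = 0 := by rw [← map_natCast (algebraMap k S), CharP.cast_eq_zero, map_zero]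
    rw [hr, this]; simp

variable {S S' : Type} [CommRing S] [Algebra k S] [CommRing S'] [Algebra k S']

theorem frob_apply (x : S) : frob k p m S x = x ^ p ^ m := rfl

variable (k) in
/-- Membership in the Frobenius kernel. -/
def Fr (g : Matrix (Fin n) (Fin n) S) : Prop := g.map (frob k p m S) = 1

variable {p m}

theorem Fr.mul {g h : Matrix (Fin n) (Fin n) S} (hg : Fr k p m g) (hh : Fr k p m h) :
    Fr k p m (g * h) := by
  rw [Fr, Matrix.map_mul, hg, hh, Matrix.one_mul]

theorem Fr.map {g : Matrix (Fin n) (Fin n) S} (hg : Fr k p m g) (φ : S →+* S') :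
    Fr k p m (g.map φ) := by
  ext i j
  have := congrArg φ (congrFun (congrFun hg i) j)
  rw [Matrix.map_apply, frob_apply, map_pow] at this
  rw [Matrix.map_apply, Matrix.map_apply, frob_apply, this, Matrix.one_apply, Matrix.one_apply]
  split_ifs <;> simp

theorem Fr.conj {g : Matrix (Fin n) (Fin n) S} (hg : Fr k p m g) {a b : Matrix (Fin n) (Fin n) S}
    (h : a * b = 1) : Fr k p m (a * g * b) := by
  rw [Fr, Matrix.map_mul, Matrix.map_mul, hg, Matrix.mul_one, ← Matrix.map_mul, h,
    Matrix.map_one _ (map_zero _) (map_one _)]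

theorem Fr.isUnit_chi {b : Matrix (Fin n) (Fin n) S} (hb : Fr k p m b) (q : ℕ) :
    IsUnit (chi q b) := by
  have h := map_chi q (frob k p m S) b
  rw [hb, chi_one, frob_apply] at h
  exact IsUnit.of_pow_eq_one h (pow_pos hp.out.pos m).ne'

/-- Gaussian elimination inside the Frobenius kernel. -/
theorem ev_eq_zero_of_Fr {f : Pol k n} (hf : f ∈ St k n (p ^ m))
    (h0 : ∀ u : Matrix (Fin n) (Fin n) S, IsUni u → Fr k p m u → ev u f = 0)
    {g : Matrix (Fin n) (Fin n) S} (hg : Fr k p m g) : ev g f = 0 := by
  have key : ∀ d : ℕ, ∀ g : Matrix (Fin n) (Fin n) S, Fr k p m g →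
      (∀ i : Fin n, i.val + d < n → g i i = 1 ∧ ∀ j, i < j → g i j = 0) → ev g f = 0 := by
    intro d
    induction d with
    | zero => exact fun g hg h => h0 g ⟨fun i => (h i i.2).1, fun i j => (h i i.2).2 j⟩ hg
    | succ d ih =>
      intro g hg h
      by_cases hd : n ≤ d
      · exact ih g hg fun i hi => by omega
      let r : Fin n := ⟨n - 1 - d, by omega⟩
      have hrr : g r r ^ p ^ m = 1 := by
        simpa [frob_apply] using congrFun (congrFun hg r) r
      have hq : 0 < p ^ m := pow_pos hp.out.pos m
      let c : S := g r r ^ (p ^ m - 1)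
      have hc : g r r * c = 1 := by rw [← pow_succ', Nat.sub_add_cancel hq, hrr]
      let b : Matrix (Fin n) (Fin n) S := (1 : Matrix (Fin n) (Fin n) S).updateRow r
        fun j => if j = r then c else if r < j then -(g r j * c) else 0
      have hb : b.BlockTriangular id := by
        intro i j hij
        have hij' : j < i := hij
        simp only [b, updateRow_apply]
        split_ifs with h1 h2 h3
        · exact absurd (h2.trans h1.symm) hij'.ne
        · exact absurd (h1 ▸ h3) hij'.le.not_gt
        · rfl
        · exact Matrix.one_apply_ne hij'.ne'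
      have hbF : Fr k p m b := by
        ext i j
        simp only [b, Matrix.map_apply, updateRow_apply]
        split_ifs with h1 h2 h3
        · rw [h1, h2, Matrix.one_apply_eq, frob_apply, ← pow_mul, mul_comm, pow_mul, hrr, one_pow]
        · have := congrFun (congrFun hg r) j
          rw [Matrix.map_apply, Matrix.one_apply_ne h3.ne] at this
          rw [map_neg, map_mul, this, h1, Matrix.one_apply_ne h3.ne]; simp
        · rw [h1, Matrix.one_apply_ne (Ne.symm h2), map_zero]
        · rw [Matrix.one_apply]; split_ifs <;> simp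
      have hmul : ∀ i j, (g * b) i j =
          g i j + g i r * ((if j = r then c else if r < j then -(g r j * c) else 0) -
            if r = j then 1 else 0) := by
        intro i j
        have : b = 1 + Matrix.of fun i' j => if i' = r then
            ((if j = r then c else if r < j then -(g r j * c) else 0) - if r = j then 1 else 0)
            else 0 := by
          ext i' j'
          simp only [b, updateRow_apply, Matrix.add_apply, Matrix.of_apply]
          by_cases h1 : i' = r
          · simp [h1, Matrix.one_apply]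
          · simp [h1]
        rw [this, Matrix.mul_add, Matrix.mul_one, Matrix.add_apply, Matrix.mul_apply]
        simp
      have h1 := ih (g * b) (hg.mul hbF) fun i hi => by
        by_cases hir : i = r
        · subst hir
          refine ⟨?_, fun j hj => ?_⟩
          · rw [hmul]; simp only [if_true]; linear_combination hc
          · rw [hmul, if_neg hj.ne', if_pos hj, if_neg hj.ne]
            linear_combination (-g r j) * hc
        · have hlt : i < r := by
            have : i.val ≠ n - 1 - d := fun h => hir (Fin.ext h)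
            show i.val < n - 1 - d
            omega
          have h2 := h i (by have : i.val < n - 1 - d := hlt; omega)
          refine ⟨?_, fun j hj => ?_⟩
          · rw [hmul, h2.1, h2.2 r hlt]; simp
          · rw [hmul, h2.2 j hj, h2.2 r hlt]; simp
      rw [hf.1 S g b hb] at h1
      exact (hbF.isUnit_chi _).mul_right_eq_zero.1 h1
  exact key n g hg fun i hi => by omega

variable (p m) in
/-- `f` vanishes on the coset of `g` of the Frobenius kernel. -/
def Van (f : Pol k n) (g : Matrix (Fin n) (Fin n) k) : Prop :=
  ∀ (S : Type) [CommRing S] [Algebra k S] (γ : Matrix (Fin n) (Fin n) S), Fr k p m γ →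
    ev (γ * g.map (algebraMap k S)) f = 0

theorem Van.mul_upper {f : Pol k n} (hf : f ∈ St k n (p ^ m)) {g b : Matrix (Fin n) (Fin n) k}
    (h : Van p m f g) (hb : b.BlockTriangular id) : Van p m f (g * b) := by
  intro S _ _ γ hγ
  rw [Matrix.map_mul, ← Matrix.mul_assoc, hf.1 S _ _ (hb.map _), h S γ hγ, mul_zero]

theorem transvection_map {S S' F : Type} [CommRing S] [CommRing S'] [FunLike F S S']
    [RingHomClass F S S'] (φ : F) (i j : Fin n) (c : S) : (transvection i j c).map φ = transvection i j (φ c) := by
  ext a b
  simp only [transvection, Matrix.map_apply, Matrix.add_apply, Matrix.one_apply, map_add,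
    Matrix.single_apply]
  split_ifs <;> simp

theorem Van.mul_simple {f : Pol k n} (hf : f ∈ St k n (p ^ m)) {g : Matrix (Fin n) (Fin n) k}
    (hg : g.det ≠ 0) (h : Van p m f g) {s s' : Fin n} (hs : s'.val = s.val + 1) (t : k) :
    Van p m f (g * transvection s' s t) := by
  intro S _ _ γ hγ
  have hq : 0 < p ^ m := pow_pos hp.out.pos m
  set Φ := ev ((γ * g.map (algebraMap k S)).map Polynomial.C * transvection s' s Polynomial.X) f
    with hΦ
  have hdeg : Φ.natDegree ≤ p ^ m - 1 := hf.2 S _ s s' hs
  let T := AdjoinRoot (Polynomial.X ^ p ^ m : Polynomial S)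
  let π : Polynomial S →ₐ[k] T := (AdjoinRoot.mkₐ _).restrictScalars k
  have hπ : ∀ x, π x = AdjoinRoot.mk _ x := fun _ => rfl
  have hε : Fr k p m (transvection s' s (π Polynomial.X)) := by
    rw [Fr, transvection_map, frob_apply, ← map_pow, hπ, AdjoinRoot.mk_self, transvection_zero]
  have hgg : g.map (algebraMap k T) * g⁻¹.map (algebraMap k T) = 1 := by
    rw [← Matrix.map_mul, Matrix.mul_nonsing_inv _ (Ne.isUnit hg),
      Matrix.map_one _ (map_zero _) (map_one _)]
  have hgg' : g⁻¹.map (algebraMap k T) * g.map (algebraMap k T) = 1 := mul_eq_one_comm.1 hgg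
  have h1 : π Φ = 0 := by
    have h2 := h T _ ((hγ.map ((π : Polynomial S →+* T).comp Polynomial.C)).mul (hε.conj hgg))
    rw [hΦ, map_ev, ← h2]
    congr 2
    have e1 : ((γ * g.map (algebraMap k S)).map Polynomial.C).map π =
        γ.map ((π : Polynomial S →+* T).comp Polynomial.C) * g.map (algebraMap k T) := by
      rw [Matrix.map_map, ← map_map_algebraMap
        (π.comp ((Polynomial.CAlgHom (R := S) (A := S)).restrictScalars k)) g]
      exact Matrix.map_mul (f := (π : Polynomial S →+* T).comp Polynomial.C)
    rw [Matrix.map_mul, e1, transvection_map]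
    simp only [Matrix.mul_assoc, hgg', Matrix.mul_one]
  have h3 : Φ = 0 := by
    rw [hπ, AdjoinRoot.mk_eq_zero, Polynomial.X_pow_dvd_iff] at h1
    ext d
    by_cases hd : d < p ^ m
    · exact h1 d hd
    · exact Polynomial.coeff_eq_zero_of_natDegree_lt (by omega)
  let e : Polynomial S →ₐ[k] S := (Polynomial.aeval (algebraMap k S t)).restrictScalars k
  have h4 := congrArg e h3
  rw [hΦ, map_ev, map_zero, Matrix.map_mul] at h4
  rw [← h4, Matrix.map_mul, transvection_map, ← Matrix.mul_assoc]
  congr 3
  · ext i j; simp [e, -Matrix.map_mul]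
  · rw [transvection_map]; simp [e]

theorem transvection_eq_comm {S : Type} [CommRing S] {i j l : Fin n} (hij : i ≠ j) (hjl : j ≠ l)
    (hil : i ≠ l) (c : S) : transvection i l c =
      transvection i j c * transvection j l 1 * transvection i j (-c) * transvection j l (-1) := by
  simp only [transvection, mul_add, add_mul, Matrix.one_mul, Matrix.mul_one, single_mul_single_same,
    single_mul_single_of_ne _ _ _ _ hij.symm, single_mul_single_of_ne _ _ _ _ hjl.symm,
    single_mul_single_of_ne _ _ _ _ hil.symm]
  simp only [← single_neg, mul_one, mul_neg, neg_mul, neg_neg, add_zero, zero_add,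
    Matrix.zero_mul]
  abel

theorem Van.mul_lower {f : Pol k n} (hf : f ∈ St k n (p ^ m)) (d : ℕ) :
    ∀ {g : Matrix (Fin n) (Fin n) k}, g.det ≠ 0 → Van p m f g → ∀ {s s' : Fin n},
      s'.val = s.val + d + 1 → ∀ t : k, Van p m f (g * transvection s' s t) := by
  induction d with
  | zero => exact fun hg h s s' hs t => h.mul_simple hf hg hs t
  | succ d ih =>
    intro g hg h s s' hs t
    let j : Fin n := ⟨s.val + 1, by omega⟩
    have h1 : s' ≠ j := fun h => by have := congrArg Fin.val h; simp only [j] at this; omega
    have h2 : j ≠ s := fun h => by have := congrArg Fin.val h; simp only [j] at this; omega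
    have h3 : s' ≠ s := fun h => by have := congrArg Fin.val h; omega
    have hj : s'.val = j.val + d + 1 := by simp only [j]; omega
    rw [transvection_eq_comm h1 h2 h3]
    simp only [← Matrix.mul_assoc]
    refine Van.mul_simple hf ?_ (ih ?_ (Van.mul_simple hf ?_ (ih hg h hj t) rfl 1) hj _) rfl _ <;>
      simpa [det_transvection_of_ne _ _ h1, det_transvection_of_ne _ _ h2] using hg

theorem eq_zero_of_van_one [Infinite k] {f : Pol k n} (hf : f ∈ St k n (p ^ m))
    (h : Van p m f 1) : f = 0 := by
  have key : ∀ a : Matrix (Fin n) (Fin n) k, a.det ≠ 0 →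
      ∀ g : Matrix (Fin n) (Fin n) k, g.det ≠ 0 → Van p m f g → Van p m f (g * a) := by
    intro a ha
    refine diagonal_transvection_induction_of_det_ne_zero
      (fun a => ∀ g : Matrix (Fin n) (Fin n) k, g.det ≠ 0 → Van p m f g → Van p m f (g * a)) a ha
      (fun D _ g _ hg => hg.mul_upper hf (blockTriangular_diagonal D)) (fun t g hg hv => ?_)
      fun A B hA hB h1 h2 g hg hv => ?_
    · rcases lt_or_gt_of_ne t.hij with h1 | h1
      · exact hv.mul_upper hf (blockTriangular_transvection h1.le t.c)
      · exact Van.mul_lower hf (t.i.val - t.j.val - 1) hg hv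
          (by have : t.j.val < t.i.val := h1; omega) t.c
    · rw [← Matrix.mul_assoc]
      exact h2 _ (by simpa using ⟨hg, hA⟩) (h1 g hg hv)
  have h1 : f * (mvPolynomialX (Fin n) (Fin n) k).det = 0 := by
    refine MvPolynomial.funext fun x => ?_
    rw [map_mul, map_zero, eval_det_mvPolynomialX]
    by_cases ha : (Matrix.of fun i j => x (i, j)).det = 0
    · rw [ha, mul_zero]
    · have h2 := key _ ha 1 (by simp) h k 1 (Matrix.map_one _ (map_zero _) (map_one _))
      have h3 : MvPolynomial.eval x f = 0 := by
        rw [← h2]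
        simp [ev, MvPolynomial.aeval_eq_eval]
      rw [h3, zero_mul]
  exact (mul_eq_zero.1 h1).resolve_right (det_mvPolynomialX_ne_zero _ _)

/-- An element of the Steinberg module is determined by its values on the Frobenius kernel of the
unitriangular group. -/
theorem eq_zero_of_uni [Infinite k] {f : Pol k n} (hf : f ∈ St k n (p ^ m))
    (h0 : ∀ (S : Type) [CommRing S] [Algebra k S] (u : Matrix (Fin n) (Fin n) S),
      IsUni u → Fr k p m u → ev u f = 0) : f = 0 :=
  eq_zero_of_van_one hf fun S _ _ γ hγ => by
    rw [Matrix.map_one _ (map_zero _) (map_one _), Matrix.mul_one]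
    exact ev_eq_zero_of_Fr hf (h0 S) hγ

end Frob

end Cfsg.Lib.Char.BF
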