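import Cfsg.Agent.Char.BFStein
import Cfsg.Agent.Char.BFGrob
import Cfsg.Agent.Block.MinDim
import Mathlib.LinearAlgebra.Dual.Lemmas
import Mathlib.FieldTheory.Finite.Basic

/-!
# The Steinberg module: restriction to the unitriangular group
-/

set_option autoImplicit false

namespace Cfsg.Lib.Char.BF

open Matrix

variable {k : Type} [Field k] {n : ℕ}

/-- Positions below the diagonal. -/
abbrev Low (n : ℕ) : Type := {x : Fin n × Fin n // x.2 < x.1}

section Uni

variable {S S' : Type} [CommRing S] [CommRing S']

/-- The unitriangular matrix with given entries. -/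
def uni (c : Low n → S) : Matrix (Fin n) (Fin n) S :=
  Matrix.of fun i j => if h : j < i then c ⟨(i, j), h⟩ else if i = j then 1 else 0

theorem uni_low (c : Low n → S) (α : Low n) : uni c α.1.1 α.1.2 = c α := by
  simp [uni, α.2]

theorem isUni_uni (c : Low n → S) : IsUni (uni c) :=
  ⟨fun i => by simp [uni], fun i j h => by simp [uni, h.not_gt, h.ne]⟩

theorem IsUni.ext {u v : Matrix (Fin n) (Fin n) S} (hu : IsUni u) (hv : IsUni v)
    (h : ∀ α : Low n, u α.1.1 α.1.2 = v α.1.1 α.1.2) : u = v := by
  ext i j
  rcases lt_trichotomy i j with h1 | rfl | h1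
  · rw [hu.2 i j h1, hv.2 i j h1]
  · rw [hu.1, hv.1]
  · exact h ⟨(i, j), h1⟩

theorem IsUni.eq_uni {u : Matrix (Fin n) (Fin n) S} (hu : IsUni u) :
    uni (fun α => u α.1.1 α.1.2) = u := (isUni_uni _).ext hu (uni_low _)

theorem IsUni.map {F : Type} [FunLike F S S'] [RingHomClass F S S'] {u : Matrix (Fin n) (Fin n) S}
    (hu : IsUni u) (φ : F) : IsUni (u.map φ) :=
  ⟨fun i => by simp [hu.1], fun i j h => by simp [hu.2 i j h]⟩

theorem uni_map {F : Type} [FunLike F S S'] [RingHomClass F S S'] (φ : F) (c : Low n → S) :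
    (uni c).map φ = uni fun α => φ (c α) :=
  ((isUni_uni c).map φ).ext (isUni_uni _) fun α => by rw [Matrix.map_apply, uni_low, uni_low]

theorem isUni_one : IsUni (1 : Matrix (Fin n) (Fin n) S) :=
  ⟨fun i => Matrix.one_apply_eq i, fun _ _ h => Matrix.one_apply_ne h.ne⟩

theorem IsUni.mul {u v : Matrix (Fin n) (Fin n) S} (hu : IsUni u) (hv : IsUni v) :
    IsUni (u * v) := by
  refine ⟨fun i => ?_, fun i j h => ?_⟩
  · rw [Matrix.mul_apply, Finset.sum_eq_single i (fun l _ hl => ?_) (by simp), hu.1, hv.1, mul_one]
    rcases lt_or_gt_of_ne hl with h1 | h1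
    · rw [hv.2 _ _ h1, mul_zero]
    · rw [hu.2 _ _ h1, zero_mul]
  · rw [Matrix.mul_apply]
    refine Finset.sum_eq_zero fun l _ => ?_
    by_cases h1 : i < l
    · rw [hu.2 _ _ h1, zero_mul]
    · rw [hv.2 _ _ ((not_lt.1 h1).trans_lt h), mul_zero]

theorem IsUni.det {u : Matrix (Fin n) (Fin n) S} (hu : IsUni u) : u.det = 1 := by
  rw [det_of_isLowerTriangular u fun i j h => hu.2 i j h]
  simp [hu.1]

end Uni

variable (k n) in
/-- Restriction to the unitriangular group. -/
noncomputable def res : Pol k n →ₐ[k] MvPolynomial (Low n) k := ev (uni MvPolynomial.X)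

theorem ev_uni {S : Type} [CommRing S] [Algebra k S] (c : Low n → S) (f : Pol k n) :
    ev (uni c) f = MvPolynomial.aeval c (res k n f) := by
  rw [res, map_ev, uni_map]
  simp

theorem aeval_eq_zero_of_mem_I0 {σ S : Type} [CommRing S] [Algebra k S] {q : ℕ} {c : σ → S}
    (hc : ∀ α, c α ^ q = 0) {F : MvPolynomial σ k} (hF : F ∈ I0 k σ q) :
    MvPolynomial.aeval c F = 0 := by
  refine (Ideal.span_le.2 ?_ : I0 k σ q ≤ RingHom.ker (MvPolynomial.aeval c)) hF
  rintro _ ⟨α, rfl⟩
  simp [RingHom.mem_ker, hc]

theorem eq_zero_of_res_mem_I0 {p m : ℕ} [Fact p.Prime] [CharP k p] [Infinite k] {f : Pol k n}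
    (hf : f ∈ St k n (p ^ m)) (h : res k n f ∈ I0 k (Low n) (p ^ m)) : f = 0 := by
  refine eq_zero_of_uni hf fun S _ _ u hu hF => ?_
  rw [← hu.eq_uni, ev_uni]
  refine aeval_eq_zero_of_mem_I0 (fun α => ?_) h
  have := congrFun (congrFun hF α.1.1) α.1.2
  rwa [Matrix.map_apply, Matrix.one_apply_ne α.2.ne'] at this

/-- The height of a position. -/
def wt (α : Low n) : ℕ := α.1.1.val - α.1.2.val

theorem comp_mem_of_scale [Infinite k] {σ : Type} (w : σ → ℕ) (U : Submodule k (MvPolynomial σ k))
    {F : MvPolynomial σ k}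
    (h : ∀ t : k, t ≠ 0 → MvPolynomial.aeval (fun α => t ^ w α • MvPolynomial.X α) F ∈ U) (D : ℕ) :
    MvPolynomial.weightedHomogeneousComponent w D F ∈ U := by
  classical
  rw [← Subspace.forall_mem_dualAnnihilator_apply_eq_zero_iff]
  intro φ hφ
  let Q : Polynomial k := ∑ d ∈ F.support,
    Polynomial.monomial (Finsupp.weight w d) (φ (MvPolynomial.monomial d (F.coeff d)))
  have hQ : Q = 0 := by
    refine Polynomial.eq_zero_of_infinite_isRoot Q ((Set.finite_singleton (0 : k)).infinite_compl.mono
      fun t ht => ?_)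
    have h1 := (Submodule.mem_dualAnnihilator φ).1 hφ _ (h t ht)
    rw [Set.mem_ofPred_eq, Polynomial.IsRoot, ← h1]
    conv_rhs => rw [F.as_sum]
    simp only [Q, Polynomial.eval_finsetSum, Polynomial.eval_monomial, map_sum]
    refine Finset.sum_congr rfl fun d _ => ?_
    rw [mul_comm, ← smul_eq_mul, ← map_smul]
    congr 1
    rw [MvPolynomial.aeval_monomial, MvPolynomial.monomial_eq, Finsupp.weight_apply, Finsupp.sum,
      Finsupp.prod, Finsupp.prod]
    simp only [smul_pow, Finset.prod_smul, ← pow_mul, Finset.prod_pow_eq_pow_sum, smul_eq_mul,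
      MvPolynomial.algebraMap_eq, mul_smul_comm, mul_comm]
  have h2 := congrArg (Polynomial.coeff · D) hQ
  simp only [Q, Polynomial.finsetSum_coeff, Polynomial.coeff_monomial, Polynomial.coeff_zero] at h2
  rw [MvPolynomial.weightedHomogeneousComponent_apply, map_sum, Finset.sum_filter, h2]

theorem exists_res_eq_comp [Infinite k] {q : ℕ} {f : Pol k n} (hf : f ∈ St k n q) (D : ℕ) :
    ∃ f' ∈ St k n q, res k n f' = MvPolynomial.weightedHomogeneousComponent wt D (res k n f) := by
  refine comp_mem_of_scale wt ((St k n q).map (res k n).toLinearMap) (fun t ht => ?_) D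
  let d : Matrix (Fin n) (Fin n) k := diagonal fun i => t ^ i.val
  have hd : chi q d ≠ 0 := by
    refine Finset.prod_ne_zero_iff.2 fun i _ => pow_ne_zero _ ?_
    rw [submatrix_diagonal _ _ (cl_injective i), det_diagonal]
    exact Finset.prod_ne_zero_iff.2 fun j _ => pow_ne_zero _ ht
  have h1 : d.map (algebraMap k (MvPolynomial (Low n) k)) * uni MvPolynomial.X =
      uni (fun α => t ^ wt α • MvPolynomial.X α) * d.map (algebraMap k (MvPolynomial (Low n) k)) := by
    rw [diagonal_map (map_zero _)]
    refine Matrix.ext fun i j => ?_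
    rw [diagonal_mul, mul_diagonal]
    simp only [uni, Matrix.of_apply]
    split_ifs with h1 h2
    · have : i.val = wt ⟨(i, j), h1⟩ + j.val := by
        have : j.val < i.val := h1
        simp only [wt]; omega
      rw [this, pow_add, map_mul, Algebra.smul_def]
      ring
    · rw [h2, mul_comm]
    · simp
  refine ⟨(chi q d)⁻¹ • lt d f, Submodule.smul_mem _ _ (lt_mem_St hf d), ?_⟩
  rw [AlgHom.toLinearMap_apply, map_smul, res, ev_lt, h1,
    hf.1 _ _ _ ((blockTriangular_diagonal _).map _), ← map_chi, ev_uni, ← Algebra.smul_def,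
    inv_smul_smul₀ hd, res]

/-- The last `i` indices. -/
def rw' (i : Fin n) : Fin i → Fin n := fun j => ⟨n - i + j, by omega⟩

variable (k n) in
/-- The product of the corner minors. -/
noncomputable def f0 (q : ℕ) : Pol k n :=
  ∏ i : Fin n, ((mvPolynomialX (Fin n) (Fin n) k).submatrix (rw' i) (cl i)).det ^ (q - 1)

theorem ev_f0 {S : Type} [CommRing S] [Algebra k S] (g : Matrix (Fin n) (Fin n) S) (q : ℕ) :
    ev g (f0 k n q) = ∏ i : Fin n, (g.submatrix (rw' i) (cl i)).det ^ (q - 1) := by
  simp only [f0, map_prod, map_pow, AlgHom.map_det]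
  refine Finset.prod_congr rfl fun i _ => ?_
  congr 2
  ext a b
  simp [ev]

theorem submatrix_mul_cl {S : Type} [CommRing S] (g b : Matrix (Fin n) (Fin n) S) (i : Fin n)
    (h : ∀ l c, c < i → i ≤ l → b l c = 0) (r : Fin i → Fin n) :
    (g * b).submatrix r (cl i) = g.submatrix r (cl i) * b.submatrix (cl i) (cl i) := by
  ext a c
  simp only [submatrix_apply, Matrix.mul_apply]
  refine (Fintype.sum_of_injective (cl i) (cl_injective i) _ _ (fun l hl => ?_) fun _ => rfl).symm
  rw [h l (cl i c) c.2 (not_lt.1 fun h1 => hl ⟨⟨l, h1⟩, rfl⟩), mul_zero]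

theorem f0_mem (q : ℕ) : f0 k n q ∈ St k n q := by
  refine ⟨fun S _ _ g b hb => ?_, fun S _ _ g s s' hs => ?_⟩
  · rw [ev_f0, ev_f0, chi, ← Finset.prod_mul_distrib]
    refine Finset.prod_congr rfl fun i _ => ?_
    rw [submatrix_mul_cl g b i (fun l c h1 h2 => hb (h1.trans_le h2)), det_mul, mul_pow, mul_comm]
  · have hss : s < s' := by show s.val < s'.val; omega
    have key : ∀ i : Fin n, ((g.map Polynomial.C * transvection s' s Polynomial.X).submatrix
        (rw' i) (cl i)).det.natDegree ≤ if i = s' then 1 else 0 := by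
      intro i
      split_ifs with hi
      · rw [det_apply]
        refine Polynomial.natDegree_sum_le_of_forall_le _ _ fun π _ =>
          (Polynomial.natDegree_smul_le _ _).trans ((Polynomial.natDegree_prod_le _ _).trans ?_)
        refine (Finset.sum_le_sum (g := fun c => if cl i c = s then 1 else 0) fun c _ => ?_).trans ?_
        · rw [submatrix_apply]
          split_ifs with hc
          · rw [hc, mul_transvection_apply_same]
            refine (Polynomial.natDegree_add_le _ _).trans (max_le (by simp) ?_)
            rw [mul_comm]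
            exact (Polynomial.natDegree_C_mul_le _ _).trans Polynomial.natDegree_X_le
          · rw [mul_transvection_apply_of_ne _ _ _ _ hc]
            simp
        · rw [← Finset.card_filter]
          exact Finset.card_le_one.2 fun a ha b hb => cl_injective i
            ((Finset.mem_filter.1 ha).2.trans (Finset.mem_filter.1 hb).2.symm)
      · rw [submatrix_mul_cl _ _ i fun l c h1 h2 => ?_, det_mul]
        · have h1 : IsUni ((transvection s' s (Polynomial.X : Polynomial S)).submatrix
              (cl i) (cl i)) := by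
            refine ⟨fun a => ?_, fun a b hab => ?_⟩
            · have : ¬(s' = cl i a ∧ s = cl i a) := fun h => hss.ne (h.2.trans h.1.symm)
              simp [transvection, single_apply, this]
            · have hab' : cl i a < cl i b := hab
              have : ¬(s' = cl i a ∧ s = cl i b) := fun h => (h.1 ▸ h.2 ▸ hab').not_gt hss
              simp [transvection, single_apply, this, Matrix.one_apply_ne hab'.ne]
          rw [h1.det, mul_one, submatrix_map, ← RingHom.mapMatrix_apply, ← RingHom.map_det]
          simp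
        · have : ¬(s' = l ∧ s = c) := by
            rintro ⟨rfl, rfl⟩
            have h3 : s.val < i.val := h1
            have h4 : i.val ≤ s'.val := h2
            exact hi (Fin.ext (by omega))
          simp [transvection, single_apply, this, Matrix.one_apply_ne (h1.trans_le h2).ne']
    rw [ev_f0]
    refine (Polynomial.natDegree_prod_le _ _).trans ((Finset.sum_le_sum
      (g := fun i => if i = s' then q - 1 else 0) fun i _ => ?_).trans (by simp))
    refine Polynomial.natDegree_pow_le.trans ((Nat.mul_le_mul_left _ (key i)).trans ?_)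
    split_ifs <;> simp

theorem prod_minor_eq {S : Type} [CommRing S] {q : ℕ} (hq : 0 < q) (c : Low n → S)
    (hc : ∀ α, c α ^ q = 0) :
    ∏ i : Fin n, ((uni c).submatrix (rw' i) (cl i)).det ^ (q - 1) = ∏ α, c α ^ (q - 1) := by
  have key : ∀ j ≤ n, ∏ i : Fin n with i.val < j, ((uni c).submatrix (rw' i) (cl i)).det ^ (q - 1) =
      ∏ α with n - wt α < j, c α ^ (q - 1) := by
    intro j hj
    induction j with
    | zero => simp
    | succ j ih =>
      let i : Fin n := ⟨j, hj⟩
      have e1 : (Finset.univ.filter fun i : Fin n => i.val < j + 1) =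
          insert i (Finset.univ.filter fun i : Fin n => i.val < j) := by
        ext a
        simp only [Finset.mem_filter, Finset.mem_univ, true_and, Finset.mem_insert, Fin.ext_iff, i]
        omega
      have e2 : ∏ α with n - wt α < j + 1, c α ^ (q - 1) =
          (∏ α with n - wt α = j, c α) ^ (q - 1) * ∏ α with n - wt α < j, c α ^ (q - 1) := by
        rw [← Finset.prod_pow, ← Finset.prod_union (Finset.disjoint_filter.2 fun _ _ h => h.ge.not_gt)]
        congr 1
        ext α
        simp only [Finset.mem_filter, Finset.mem_univ, true_and, Finset.mem_union]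
        omega
      have hlt : ∀ a : Fin i, cl i a < rw' i a := fun a => by
        show a.val < n - j + a.val
        omega
      have e3 : ∏ α with n - wt α = j, c α = ∏ a, (uni c).submatrix (rw' i) (cl i) a a := by
        symm
        refine Finset.prod_bij (fun a _ => (⟨(rw' i a, cl i a), hlt a⟩ : Low n)) (fun a _ => ?_)
          (fun a _ b _ h => cl_injective i (congrArg (fun α : Low n => α.1.2) h)) (fun α hα => ?_)
          fun a _ => uni_low c ⟨(rw' i a, cl i a), hlt a⟩
        · exact Finset.mem_filter.2 ⟨Finset.mem_univ _,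
            show n - (n - j + a.val - a.val) = j by omega⟩
        · replace hα : n - (α.1.1.val - α.1.2.val) = j := (Finset.mem_filter.1 hα).2
          have h1 : α.1.2.val < α.1.1.val := α.2
          have h2 := α.1.1.2
          refine ⟨⟨α.1.2, show α.1.2.val < j by omega⟩, Finset.mem_univ _,
            Subtype.ext (Prod.ext (Fin.ext ?_) rfl)⟩
          show n - j + α.1.2.val = α.1.1.val
          omega
      rw [e1, Finset.prod_insert (by simp [i]), ih (Nat.le_of_succ_le hj), e2, e3]
      set τ := ∏ α with n - wt α < j, c α ^ (q - 1) with hτ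
      let J : Ideal S := LinearMap.ker (LinearMap.mulRight S τ)
      have h1 : Ideal.Quotient.mk J ((uni c).submatrix (rw' i) (cl i)).det =
          Ideal.Quotient.mk J (∏ a, (uni c).submatrix (rw' i) (cl i) a a) := by
        rw [RingHom.map_det, det_of_isUpperTriangular, map_prod]
        · rfl
        · intro a b (hab : b < a)
          have hab' : b.val < a.val := hab
          have h2 : cl i b < rw' i a := by
            show b.val < n - j + a.val
            omega
          refine Ideal.Quotient.eq_zero_iff_mem.2 ?_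
          show uni c (rw' i a) (cl i b) * τ = 0
          rw [uni_low c ⟨(rw' i a, cl i b), h2⟩, hτ, ← Finset.mul_prod_erase _ _
            (show (⟨(rw' i a, cl i b), h2⟩ : Low n) ∈ _ from Finset.mem_filter.2
              ⟨Finset.mem_univ _, show n - (n - j + a.val - b.val) < j by
                have : a.val < j := a.2
                omega⟩), ← mul_assoc, ← pow_succ', Nat.sub_add_cancel hq, hc, zero_mul]
      have h2 := congrArg (· ^ (q - 1)) h1
      simp only [← map_pow] at h2
      have h3 : _ * τ = 0 := Ideal.Quotient.eq.1 h2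
      rwa [sub_mul, sub_eq_zero] at h3
  have := key n le_rfl
  rwa [Finset.filter_true_of_mem fun i _ => i.2, Finset.filter_true_of_mem fun α _ => by
    have h1 : α.1.2.val < α.1.1.val := α.2
    have h2 := α.1.1.2
    simp only [wt]; omega] at this

/-- The top monomial. -/
noncomputable def top (σ : Type) [Fintype σ] (q : ℕ) : σ →₀ ℕ :=
  Finsupp.equivFunOnFinite.symm fun _ => q - 1

theorem coeff_top_res_f0 {q : ℕ} (hq : 0 < q) : (res k n (f0 k n q)).coeff (top (Low n) q) = 1 := by
  have h1 : res k n (f0 k n q) - MvPolynomial.monomial (top (Low n) q) 1 ∈ I0 k (Low n) q := by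
    refine Ideal.Quotient.eq.1 ?_
    have h2 := map_ev (Ideal.Quotient.mkₐ k (I0 k (Low n) q)) (uni MvPolynomial.X) (f0 k n q)
    rw [uni_map, ev_f0 (uni fun α => Ideal.Quotient.mkₐ k (I0 k (Low n) q) (MvPolynomial.X α)),
      prod_minor_eq hq _ fun α => by
        rw [← map_pow]
        exact Ideal.Quotient.eq_zero_iff_mem.2 (Ideal.subset_span ⟨α, rfl⟩)] at h2
    refine h2.trans ?_
    rw [MvPolynomial.monomial_eq, Finsupp.prod_fintype _ _ (by simp)]
    simp [top]
  by_contra h
  obtain ⟨α, hα⟩ := mem_I0.1 h1 (top (Low n) q) (by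
    rw [MvPolynomial.mem_support_iff, MvPolynomial.coeff_sub, MvPolynomial.coeff_monomial,
      if_pos rfl]
    exact sub_ne_zero.2 h)
  simp only [top, Finsupp.equivFunOnFinite_symm_apply_apply] at hα
  omega

theorem sum_aeval_ne_zero {σ : Type} [Fintype σ] [DecidableEq σ] {w : σ → ℕ} (hw : ∀ α, w α ≠ 0)
    {K : Type} [Field K] [Fintype K] (ι : K →+* k) {F : MvPolynomial σ k}
    (hF : MvPolynomial.IsWeightedHomogeneous w F (Finsupp.weight w (top σ (Fintype.card K))))
    (h1 : F.coeff (top σ (Fintype.card K)) = 1) :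
    ∑ c : σ → K, MvPolynomial.aeval (fun α => ι (c α)) F ≠ 0 := by
  classical
  have key : ∀ (d : σ →₀ ℕ) (r : k), ∑ c : σ → K,
      MvPolynomial.aeval (fun α => ι (c α)) (MvPolynomial.monomial d r) =
        r * ∏ α, ι (∑ x : K, x ^ d α) := by
    intro d r
    simp only [MvPolynomial.aeval_monomial, Finsupp.prod_fintype _ _ fun _ => pow_zero _, map_sum,
      map_pow, Finset.prod_univ_sum, Fintype.piFinset_univ, Finset.mul_sum]
    rfl
  rw [F.as_sum]
  simp only [map_sum]
  rw [Finset.sum_comm]
  simp only [key]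
  rw [Finset.sum_eq_single (top σ (Fintype.card K)) (fun d hd hne => ?_)
    fun h => absurd (MvPolynomial.mem_support_iff.2 (h1 ▸ one_ne_zero)) h, h1, one_mul]
  · refine Finset.prod_ne_zero_iff.2 fun α _ => (map_ne_zero ι).2 ?_
    have h2 : ∑ x : K, x ^ (Fintype.card K - 1) = ∑ x : K, (1 - if x = 0 then 1 else 0) :=
      Finset.sum_congr rfl fun x _ => by
        split_ifs with hx
        · rw [hx, zero_pow (Nat.sub_ne_zero_of_lt Fintype.one_lt_card), sub_self]
        · rw [FiniteField.pow_card_sub_one_eq_one x hx, sub_zero]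
    simp only [top, Finsupp.equivFunOnFinite_symm_apply_apply, h2]
    simp [FiniteField.cast_card_eq_zero]
  · by_cases h : ∃ α, d α < Fintype.card K - 1
    · obtain ⟨α, hα⟩ := h
      rw [Finset.prod_eq_zero (Finset.mem_univ α)
        (by rw [FiniteField.sum_pow_lt_card_sub_one _ _ hα, map_zero]), mul_zero]
    · push Not at h
      obtain ⟨e, rfl⟩ := exists_add_of_le (show top σ (Fintype.card K) ≤ d from fun α => by
        simpa [top] using h α)
      have h3 := hF (MvPolynomial.mem_support_iff.1 hd)
      rw [map_add, add_eq_left] at h3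
      have : e = 0 := by
        ext α
        have := Finsupp.le_weight w (hw α) e
        rw [h3] at this
        simpa using this
      simp [this] at hne

theorem linearIndependent_of_sum_ne_zero {p : ℕ} [Fact p.Prime] [CharP k p] {Q : Type*} [Group Q]
    [Fintype Q] (hQ : IsPGroup p Q) {V : Type*} [AddCommGroup V] [Module k V]
    (ρ : Q →* Module.End k V) {v : V} (h : ∑ u, ρ u v ≠ 0) :
    LinearIndependent k fun u => ρ u v := by
  rw [Fintype.linearIndependent_iff]
  intro a ha
  by_contra hne
  obtain ⟨b, hb, hb0, hinv⟩ := Block.MinDim.exists_inv_fun (R := Q) (X := Q) hQ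
    (LinearMap.ker (Fintype.linearCombination k fun u => ρ u v)).toAddSubgroup
    (fun r b hb => by
      have h1 : ∑ u, b u • ρ u v = 0 := hb
      have h2 := congrArg (ρ r⁻¹) h1
      rw [map_sum, map_zero, ← Equiv.sum_comp (Equiv.mulLeft r)] at h2
      show ∑ u, b (r * u) • ρ u v = 0
      simpa [← Module.End.mul_apply, ← map_mul] using h2)
    (w := a) ha fun h0 => hne fun u => congrFun h0 u
  have h1 : ∀ u, b u = b 1 := fun u => by simpa using hinv u 1
  have h2 : ∑ u, b u • ρ u v = 0 := hb
  simp only [h1, ← Finset.smul_sum] at h2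
  rcases smul_eq_zero.1 h2 with h3 | h3
  · exact hb0 (funext fun u => (h1 u).trans h3)
  · exact h h3

end Cfsg.Lib.Char.BF
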