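import Cfsg.Agent.Char.BFStein2
import Mathlib.RingTheory.Invariant.Basic
import Mathlib.FieldTheory.Finite.GaloisField
import Mathlib.FieldTheory.IsAlgClosed.Basic

/-!
# The Steinberg module is projective for every small unipotent group
-/

set_option autoImplicit false

namespace Cfsg.Lib.Char.BF

open Matrix

/-- A finite group acting freely on a commutative ring has an element of trace one. -/
theorem exists_trace_one {B P : Type*} [CommRing B] [Group P] [Fintype P] [MulSemiringAction P B]
    (h : ∀ M : Ideal B, M.IsMaximal → ∀ g g' : P, (∀ b, g • b - g' • b ∈ M) → g = g') :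
    ∃ e : B, ∑ g : P, g • e = 1 := by
  let A := FixedPoints.subring B P
  have : Algebra.IsInvariant A B P := ⟨fun b hb => ⟨⟨b, hb⟩, rfl⟩⟩
  have hint := Algebra.IsInvariant.isIntegral A B P
  let T : Ideal A :=
    { carrier := {a | ∃ e : B, ∑ g : P, g • e = a}
      zero_mem' := ⟨0, by simp⟩
      add_mem' := by
        rintro a b ⟨e, he⟩ ⟨e', he'⟩
        exact ⟨e + e', by simp [Finset.sum_add_distrib, he, he']⟩
      smul_mem' := by
        rintro c a ⟨e, he⟩
        refine ⟨c * e, ?_⟩
        have : ∀ g : P, g • (c : B) = c := c.2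
        simp [smul_mul', this, ← Finset.mul_sum, he] }
  have hT : T.map (algebraMap A B) = ⊤ := by
    by_contra hne
    obtain ⟨M, hM, hle⟩ := Ideal.exists_le_maximal _ hne
    have := Ideal.Quotient.field M
    let φ : P → B →* B ⧸ M := fun g =>
      ((Ideal.Quotient.mk M).comp (MulSemiringAction.toRingHom P B g) : B →+* B ⧸ M)
    have hφ : Function.Injective φ := fun g g' hg => h M hM g g' fun b =>
      Ideal.Quotient.eq.1 (DFunLike.congr_fun hg b)
    have hli := Fintype.linearIndependent_iff.1
      ((linearIndependent_monoidHom B (B ⧸ M)).comp φ hφ) (fun _ => 1) (funext fun b => by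
        have h1 : (∑ g : P, g • b) ∈ A := fun g' => by
          rw [Finset.smul_sum, ← Equiv.sum_comp (Equiv.mulLeft g') fun g => g • b]
          simp [mul_smul]
        have h2 : (∑ g : P, g • b) ∈ M :=
          hle (Ideal.mem_map_of_mem (algebraMap A B) (show (⟨_, h1⟩ : A) ∈ T from ⟨b, rfl⟩))
        have h3 := Ideal.Quotient.eq_zero_iff_mem.2 h2
        rw [map_sum] at h3
        simpa [φ] using h3) 1
    exact one_ne_zero hli
  have h1 := (Ideal.map_eq_top_iff (algebraMap A B) Subtype.val_injective hint.isIntegral).1 hT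
  exact (Ideal.eq_top_iff_one T).1 h1

variable {k : Type} [Field k] {n : ℕ}

variable (k n) in
/-- The action of `GL_n(k)` on the Steinberg module. -/
noncomputable def stRep (q : ℕ) : GL (Fin n) k →* Module.End k (St k n q) where
  toFun g := (lt (g⁻¹ : GL (Fin n) k).val).toLinearMap.restrict fun _ hf => lt_mem_St hf _
  map_one' := LinearMap.ext fun f => Subtype.ext (by simpa using lt_one f.1)
  map_mul' g h := LinearMap.ext fun f => Subtype.ext (by simpa using (lt_lt _ _ f.1).symm)

theorem stRep_apply (q : ℕ) (g : GL (Fin n) k) (f : St k n q) :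
    (stRep k n q g f : Pol k n) = lt (g⁻¹ : GL (Fin n) k).val f := rfl

variable (n) in
/-- The lower unitriangular group over a finite field. -/
def uniGrp (K : Type) [Field K] [Finite K] : Subgroup (GL (Fin n) K) where
  carrier := {g | IsUni g.val}
  one_mem' := isUni_one
  mul_mem' h h' := h.mul h'
  inv_mem' {g} h := by
    have h1 : ∀ a : ℕ, IsUni (g ^ a).val := fun a => by
      induction a with
      | zero => exact isUni_one
      | succ a ih => rw [pow_succ]; exact ih.mul h
    have h2 : g⁻¹ = g ^ (orderOf g - 1) := by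
      rw [inv_eq_iff_mul_eq_one, ← pow_succ', Nat.sub_add_cancel (orderOf_pos g), pow_orderOf_eq_one]
    exact h2 ▸ h1 _

/-- Coordinates on the unitriangular group. -/
noncomputable def uniEquiv (K : Type) [Field K] [Finite K] : uniGrp n K ≃ (Low n → K) where
  toFun g α := g.1.val α.1.1 α.1.2
  invFun c := ⟨GeneralLinearGroup.mkOfDetNeZero (uni c) (by rw [(isUni_uni c).det]; exact one_ne_zero),
    isUni_uni c⟩
  left_inv g := Subtype.ext (Units.ext (IsUni.eq_uni g.2))
  right_inv c := funext (uni_low c)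

theorem wt_ne_zero (α : Low n) : wt α ≠ 0 := by
  have : α.1.2.val < α.1.1.val := α.2
  simp only [wt]; omega

theorem exists_linearIndependent_St {p m : ℕ} [Fact p.Prime] [CharP k p] [IsAlgClosed k]
    (hm : m ≠ 0) : ∃ v : (Low n → Fin (p ^ m)) → St k n (p ^ m), LinearIndependent k v := by
  classical
  let K := GaloisField p m
  have := Fintype.ofFinite K
  have hK : Fintype.card K = p ^ m := by rw [← Nat.card_eq_fintype_card, GaloisField.card p m hm]
  let := ZMod.algebra k p
  let ι : K →+* k := (IsAlgClosed.lift : K →ₐ[ZMod p] k)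
  have := Fintype.ofFinite (uniGrp n K)
  have hc : Fintype.card (uniGrp n K) = Fintype.card (Low n → Fin (p ^ m)) := by
    rw [Fintype.card_congr (uniEquiv K)]
    simp [hK]
  have hP : IsPGroup p (uniGrp n K) := IsPGroup.of_card (n := m * Fintype.card (Low n)) (by
    rw [Nat.card_eq_fintype_card, hc, pow_mul]; simp)
  obtain ⟨f, hf, hres⟩ := exists_res_eq_comp (f0_mem (k := k) (n := n) (p ^ m))
    (Finsupp.weight wt (top (Low n) (p ^ m)))
  let ρ := (stRep k n (p ^ m)).comp ((GeneralLinearGroup.map ι).comp (uniGrp n K).subtype)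
  have h1 : ∑ u, ρ u ⟨f, hf⟩ ≠ 0 := by
    intro h0
    have h2 := congrArg (fun x : St k n (p ^ m) => ev (1 : Matrix (Fin n) (Fin n) k) x.1) h0
    simp only [Submodule.coe_sum, map_sum, Submodule.coe_zero, map_zero] at h2
    refine sum_aeval_ne_zero wt_ne_zero ι (F := res k n f) ?_ ?_ ?_
    · rw [hres, hK]
      exact MvPolynomial.weightedHomogeneousComponent_isWeightedHomogeneous _ _
    · rw [hres, hK, MvPolynomial.coeff_weightedHomogeneousComponent, if_pos rfl,
        coeff_top_res_f0 (pow_pos (Fact.out : p.Prime).pos m)]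
    · rw [← h2, ← Equiv.sum_comp ((Equiv.inv _).trans (uniEquiv K))]
      refine Finset.sum_congr rfl fun u _ => ?_
      rw [← ev_uni, ← uni_map, show (ρ u ⟨f, hf⟩).1 = _ from stRep_apply _ _ _, ev_lt,
        Matrix.mul_one, ← map_inv]
      congr 2
      exact congrArg (Matrix.map · ι) (IsUni.eq_uni (u⁻¹).2)
  exact ⟨_, (linearIndependent_of_sum_ne_zero hP ρ h1).comp _
    (Fintype.equivOfCardEq hc).symm.injective⟩

section Act

variable {P : Type*} [Group P] (ρ : P →* GL (Fin n) k)

/-- The action on the coordinate ring of the unitriangular group. -/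
noncomputable def tau (g : P) : MvPolynomial (Low n) k →ₐ[k] MvPolynomial (Low n) k :=
  MvPolynomial.aeval fun α => ((ρ g⁻¹).val.map (algebraMap k (MvPolynomial (Low n) k)) *
    uni MvPolynomial.X : Matrix (Fin n) (Fin n) (MvPolynomial (Low n) k)) α.1.1 α.1.2

variable {ρ} (hρ : ∀ g, IsUni (ρ g).val)
include hρ

theorem uni_map_tau (g : P) : (uni MvPolynomial.X).map (tau ρ g) =
    (ρ g⁻¹).val.map (algebraMap k (MvPolynomial (Low n) k)) * uni MvPolynomial.X := by
  rw [uni_map]
  simp only [tau, MvPolynomial.aeval_X]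
  exact (((hρ _).map _).mul (isUni_uni _)).eq_uni

theorem res_stRep (q : ℕ) (g : P) (f : St k n q) :
    res k n (stRep k n q (ρ g) f) = tau ρ g (res k n f) := by
  rw [stRep_apply, res, ev_lt, map_ev, uni_map_tau hρ, map_inv]

theorem tau_mul (g h : P) (F : MvPolynomial (Low n) k) :
    tau ρ (g * h) F = tau ρ g (tau ρ h F) := by
  have : tau ρ (g * h) = (tau ρ g).comp (tau ρ h) := by
    refine MvPolynomial.algHom_ext fun α => ?_
    have h1 : (uni MvPolynomial.X).map (tau ρ (g * h)) =
        ((uni MvPolynomial.X).map (tau ρ h)).map (tau ρ g) := by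
      rw [uni_map_tau hρ, uni_map_tau hρ, Matrix.map_mul, map_map_algebraMap, uni_map_tau hρ,
        _root_.mul_inv_rev, map_mul, Units.val_mul, Matrix.map_mul, Matrix.mul_assoc]
    simpa [uni_low] using congrFun (congrFun h1 α.1.1) α.1.2
  rw [this]; rfl

theorem tau_one (F : MvPolynomial (Low n) k) : tau ρ 1 F = F := by
  have : tau ρ 1 = AlgHom.id k _ := by
    refine MvPolynomial.algHom_ext fun α => ?_
    have h1 := uni_map_tau hρ 1
    rw [inv_one, map_one, Units.val_one, Matrix.map_one _ (map_zero _) (map_one _),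
      Matrix.one_mul] at h1
    simpa [uni_low] using congrFun (congrFun h1 α.1.1) α.1.2
  rw [this]; rfl

theorem lead_tau (g : P) (α : Low n) :
    Lead wt (Finsupp.single α 1) (tau ρ g (MvPolynomial.X α)) := by
  classical
  obtain ⟨⟨i, j⟩, hij⟩ := α
  rw [tau, MvPolynomial.aeval_X, Matrix.mul_apply, Lead, ← Finset.add_sum_erase _ _
    (Finset.mem_univ i), Matrix.map_apply, (hρ _).1, map_one, one_mul,
    uni_low MvPolynomial.X ⟨(i, j), hij⟩, MvPolynomial.X, add_sub_cancel_left,
    Finsupp.weight_single, one_smul]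
  refine Submodule.sum_mem _ fun l hl => ?_
  rcases lt_or_gt_of_ne (Finset.ne_of_mem_erase hl) with h1 | h1
  · rw [Matrix.map_apply, ← Algebra.smul_def]
    refine Submodule.smul_mem _ _ ?_
    have h2 : l.val < i.val := h1
    simp only [uni, Matrix.of_apply]
    split_ifs with h3 h4
    · refine monomial_mem_Lt ?_ 1
      have h4 : j.val < l.val := h3
      rw [Finsupp.weight_single, one_smul]
      simp only [wt]; omega
    · exact monomial_mem_Lt (d := 0) (by rw [map_zero]; exact Nat.pos_of_ne_zero (wt_ne_zero _)) 1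
    · exact Submodule.zero_mem _
  · rw [Matrix.map_apply, (hρ _).2 _ _ h1, map_zero, zero_mul]
    exact Submodule.zero_mem _

theorem exists_sum_tau_eq_one [Fintype P] (hinj : Function.Injective ρ) :
    ∃ e, ∑ g, tau ρ g e = 1 := by
  let : MulSemiringAction P (MvPolynomial (Low n) k) :=
    { smul := fun g F => tau ρ g F
      one_smul := tau_one hρ
      mul_smul := tau_mul hρ
      smul_zero := fun g => map_zero (tau ρ g)
      smul_add := fun g => map_add (tau ρ g)
      smul_one := fun g => map_one (tau ρ g)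
      smul_mul := fun g => map_mul (tau ρ g) }
  refine exists_trace_one fun M hM g g' h => ?_
  have := Ideal.Quotient.field M
  let π := Ideal.Quotient.mkₐ k M
  have h1 : ((uni MvPolynomial.X).map (tau ρ g)).map π =
      ((uni MvPolynomial.X).map (tau ρ g')).map π :=
    Matrix.ext fun i j => Ideal.Quotient.eq.2 (h _)
  rw [uni_map_tau hρ, uni_map_tau hρ, Matrix.map_mul, Matrix.map_mul, map_map_algebraMap,
    map_map_algebraMap] at h1
  have h2 : IsUnit ((uni MvPolynomial.X).map π) :=
    (Matrix.isUnit_iff_isUnit_det _).2 (by rw [((isUni_uni _).map π).det]; exact isUnit_one)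
  exact inv_injective (hinj (Units.ext (Matrix.map_injective
    (algebraMap k (MvPolynomial (Low n) k ⧸ M)).injective (h2.mul_right_cancel h1))))

/-- Higman's criterion holds for the Steinberg module. -/
theorem exists_higman {p m : ℕ} [hp : Fact p.Prime] [CharP k p] [IsAlgClosed k] [Fintype P]
    (hinj : Function.Injective ρ) (hP : Fintype.card P = p ^ m) :
    (∃ t : Module.End k (St k n (p ^ (m + 1))),
      ∑ g, stRep k n _ (ρ g) * t * stRep k n _ (ρ g⁻¹) = 1) ∧
      Module.Finite k (St k n (p ^ (m + 1))) ∧ Nontrivial (St k n (p ^ (m + 1))) ∧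
      Module.finrank k (St k n (p ^ (m + 1))) ≤ (p ^ (m + 1)) ^ (n * n) := by
  classical
  let N : Low n → MvPolynomial (Low n) k := fun α => (∏ g, tau ρ g (MvPolynomial.X α)) ^ p
  have hN : ∀ α, Lead wt (Finsupp.single α (p ^ (m + 1))) (N α) := fun α => by
    simpa [hP, pow_succ'] using (lead_prod Finset.univ fun g _ => lead_tau hρ g α).pow p
  have hNτ : ∀ h α, tau ρ h (N α) = N α := fun h α => by
    simp only [N, map_pow, map_prod, ← tau_mul hρ]
    rw [← Equiv.prod_comp (Equiv.mulLeft h) fun g => tau ρ g (MvPolynomial.X α)]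
    rfl
  have hI : ∀ g, ∀ F ∈ Ideal.span (Set.range N), tau ρ g F ∈ Ideal.span (Set.range N) := by
    intro g F hF
    refine (Ideal.span_le.2 ?_ : _ ≤ (Ideal.span (Set.range N)).comap (tau ρ g)) hF
    rintro _ ⟨α, rfl⟩
    exact Ideal.mem_comap.2 (by rw [hNτ]; exact Ideal.subset_span ⟨α, rfl⟩)
  have hq : 0 < p ^ (m + 1) := pow_pos hp.out.pos _
  obtain ⟨v, hv⟩ := exists_linearIndependent_St (k := k) (n := n) (p := p) (Nat.succ_ne_zero m)
  obtain ⟨hbij, hfin, hrk⟩ := bijective_mk_comp hq hN
    ((res k n).toLinearMap.comp (St k n (p ^ (m + 1))).subtype)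
    (fun x hx => Subtype.ext (eq_zero_of_res_mem_I0 x.2 hx))
    (fun x D => by
      obtain ⟨f, hf, h⟩ := exists_res_eq_comp x.2 D
      exact ⟨⟨f, hf⟩, h⟩) (by simp) hv
  refine ⟨?_, hfin, ⟨⟨_, _, hv.ne_zero fun _ => ⟨0, hq⟩⟩⟩, hrk.trans
    (Nat.pow_le_pow_right hq ((Fintype.card_subtype_le _).trans (by simp)))⟩
  obtain ⟨e, he⟩ := exists_sum_tau_eq_one hρ hinj
  let β := LinearEquiv.ofBijective ((Ideal.Quotient.mkₐ k (Ideal.span (Set.range N))).toLinearMap.comp
    ((res k n).toLinearMap.comp (St k n (p ^ (m + 1))).subtype)) hbij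
  have hβ : ∀ x, β x = Ideal.Quotient.mk _ (res k n x.1) := fun _ => rfl
  let t : Module.End k (St k n (p ^ (m + 1))) := β.symm.toLinearMap.comp
    ((LinearMap.mulLeft k (Ideal.Quotient.mk _ e)).comp β.toLinearMap)
  have ht : ∀ x, res k n (t x).1 - e * res k n x.1 ∈ Ideal.span (Set.range N) := fun x => by
    rw [← Ideal.Quotient.eq, ← hβ, map_mul, ← hβ]
    exact β.apply_symm_apply _
  refine ⟨t, LinearMap.ext fun x => β.injective ?_⟩
  rw [LinearMap.sum_apply, map_sum, Module.End.one_apply, hβ x, ← one_mul (res k n x.1), ← he,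
    Finset.sum_mul, map_sum]
  refine Finset.sum_congr rfl fun g _ => ?_
  rw [hβ, Module.End.mul_apply, Module.End.mul_apply, res_stRep hρ, Ideal.Quotient.eq]
  have := hI g _ (ht (stRep k n _ (ρ g⁻¹) x))
  rwa [map_sub, map_mul, res_stRep hρ, ← tau_mul hρ, mul_inv_cancel, tau_one hρ] at this

end Act

end Cfsg.Lib.Char.BF
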