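import Cfsg.Agent.Char.TriplePrim
import Cfsg.Agent.Char.Degree
import Cfsg.Agent.S0587

/-!
# Berger's theorem: quasi-primitive characters of solvable groups are primitive
-/

set_option autoImplicit false

open scoped ComplexConjugate commutatorElement
open Cfsg

namespace Cfsg.Lib.Char

universe u

/-- Structure of a solvable quotient `G / N` with a maximal subgroup `H / N` of trivial core. -/
theorem exists_chief_of_isCoatom {G : Type*} [Group G] [Finite G] {N H : Subgroup G} [N.Normal]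
    [Group.IsSolvable (G ⧸ N)] (hH : IsCoatom H) (hNH : N ≤ H) (hcore : H.normalCore ≤ N) :
    ∃ (K : Subgroup G) (p : ℕ), K.Normal ∧ p.Prime ∧ N ≤ K ∧ ¬ K ≤ N ∧ H ⊔ K = ⊤ ∧ H ⊓ K ≤ N ∧
      (∃ n, N.relIndex K = p ^ n) ∧ (∀ h ∈ H, (∀ k ∈ K, ⁅h, k⁆ ∈ N) → h ∈ N) ∧
      (H ≤ N ∨ ∃ C : Subgroup G, N ≤ C ∧ C ≤ H ∧ ¬ C ≤ N ∧ (∀ h ∈ H, ∀ c ∈ C, h * c * h⁻¹ ∈ C) ∧
        (N.relIndex C).Coprime p) := by
  set f := QuotientGroup.mk' N with hf
  have hfs : Function.Surjective f := QuotientGroup.mk'_surjective N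
  have hker : f.ker = N := QuotientGroup.ker_mk' N
  have hmem : ∀ g, f g = 1 ↔ g ∈ N := fun g => by rw [← MonoidHom.mem_ker, hker]
  have hH' := Solv.isCoatom_map_mk' hNH hH
  have hHH : (H.map f).comap f = H := Subgroup.comap_map_eq_self (hker.le.trans hNH)
  have hcore' : (H.map f).normalCore = ⊥ := by
    rw [eq_bot_iff]
    intro y hy
    obtain ⟨y, rfl⟩ := hfs y
    rw [Subgroup.mem_bot, hmem]
    refine hcore ((Subgroup.normal_le_normalCore (N := (H.map f).normalCore.comap f)).mpr ?_ hy)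
    exact (Subgroup.comap_mono (Subgroup.normalCore_le _)).trans hHH.le
  have hrel : ∀ X : Subgroup (G ⧸ N), N.relIndex (X.comap f) = Nat.card X := fun X => by
    have h1 := Subgroup.relIndex_comap ⊥ f (X.comap f)
    rwa [MonoidHom.comap_bot, hker, Subgroup.map_comap_eq_self_of_surjective hfs,
      Subgroup.relIndex_bot_left] at h1
  have hle : ∀ X : Subgroup (G ⧸ N), N ≤ X.comap f := fun X n hn => by
    rw [Subgroup.mem_comap, (hmem n).2 hn]; exact X.one_mem
  have hnle : ∀ X : Subgroup (G ⧸ N), X ≠ ⊥ → ¬ X.comap f ≤ N := fun X hX h => hX (by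
    rw [eq_bot_iff]
    intro y hy
    obtain ⟨y, rfl⟩ := hfs y
    exact (hmem y).2 (h hy))
  have hnt : Nontrivial (G ⧸ N) := by
    by_contra h
    rw [not_nontrivial_iff_subsingleton] at h
    exact hH'.1 (Subsingleton.elim _ _)
  obtain ⟨p, M, hp, hM, -, -, hMp⟩ := Solv.exists_isMinNormal_elementary (G ⧸ N)
  have := Fact.mk hp
  have hp0 : pCore p (G ⧸ N) ≠ ⊥ := fun h =>
    hM.ne_bot (eq_bot_iff.mpr (h ▸ Solv.le_pCore hM.normal hMp))
  obtain ⟨-, hcomp, -, hcent, hq⟩ := Agent.S0587.result p hp0 _ hH' hcore'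
  have hdisj : ∀ g ∈ H, f g ∈ pCore p (G ⧸ N) → g ∈ N := fun g hg hg' =>
    (hmem g).1 (Subgroup.disjoint_def.mp hcomp.disjoint hg' ⟨g, hg, rfl⟩)
  refine ⟨(pCore p (G ⧸ N)).comap f, p, inferInstance, hp, hle _, hnle _ hp0, ?_,
    fun g hg => hdisj g hg.1 hg.2, ?_, fun h hh hk => hdisj h hh ?_, ?_⟩
  · rw [← hHH, Subgroup.comap_sup_eq f _ _ hfs, sup_comm, hcomp.sup_eq_top, Subgroup.comap_top]
  · rw [hrel]
    exact (IsPGroup.iff_card).mp (Solv.pCore_isPGroup p _)
  · rw [← hcent, Subgroup.mem_centralizer_iff]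
    intro y hy
    obtain ⟨y, rfl⟩ := hfs y
    have := (hmem _).2 (hk y hy)
    rw [map_commutatorElement, commutatorElement_eq_one_iff_mul_comm] at this
    exact this.symm
  · by_cases hHN : H ≤ N
    · exact Or.inl hHN
    right
    have hnt' : Nontrivial (H.map f) := by
      rw [Subgroup.nontrivial_iff_ne_bot]
      intro h
      exact hHN (by rw [← hHH, h, MonoidHom.comap_bot, hker])
    obtain ⟨q, C, hq', hC, -, -, hCq⟩ := Solv.exists_isMinNormal_elementary (H.map f)
    have := Fact.mk hq'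
    have hqp := (hq q fun h => hC.ne_bot (eq_bot_iff.mpr (h ▸ Solv.le_pCore hC.normal hCq))).2
    refine ⟨(C.map (H.map f).subtype).comap f, hle _, ?_, hnle _ ?_, ?_, ?_⟩
    · exact (Subgroup.comap_mono (Subgroup.map_subtype_le C)).trans hHH.le
    · rw [Ne, Subgroup.map_eq_bot_iff, Subgroup.ker_subtype, le_bot_iff]
      exact hC.ne_bot
    · rintro h hh c ⟨c', hc', hcc⟩
      refine ⟨_, hC.normal.conj_mem c' hc' ⟨f h, h, hh, rfl⟩, ?_⟩
      simp only [map_mul, map_inv, hcc, Subgroup.coe_subtype]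
    · rw [hrel, Subgroup.card_subtype]
      obtain ⟨m, hm⟩ := IsPGroup.iff_card.mp hCq
      rw [hm]
      exact Nat.Coprime.pow_left m ((Nat.coprime_primes hq' hp).mpr hqp)

namespace CTriple

variable {G A Q : Type*} [Group G] [Group A] [Group Q] {K : Subgroup G} {ξ : K → ℂ}
  {ι : A →* Q} {mu : A →* ℂˣ}

/-- Let `G = H K`, let `H ⊓ K ≤ N` where both `ξ` and `θ` lie over the linear character `lam` of
`N`. Then the correspondent of the induced character `θ ^ G` is `θ` times the conjugate of the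
restriction of `Θ`. -/
theorem Corr.eq_conj_mul_of_indFun [Fintype G] (T : CTriple K.subtype ξ ι mu) {H N : Subgroup G}
    (hNH : N ≤ H) (hNK : N ≤ K) (hHK : H ⊓ K ≤ N)
    (hf : Function.Surjective (T.q.comp (H.comap T.π).subtype)) {lam : N →* ℂˣ} {θ : H → ℂ}
    (hθ : IsCharacter H θ) (hθl : LiesOverLin (Subgroup.inclusion hNH) lam θ)
    (hξl : ∀ n : N, ξ (Subgroup.inclusion hNK n) = lam n * ξ 1) {β : Q → ℂ}
    (hc : T.Corr (indFun H θ) β) (x : H.comap T.π) :
    β (T.q x) = conj (T.Θ x) * θ ⟨T.π x, x.2⟩ := by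
  have := T.finite_K
  have := Fintype.ofFinite Q
  have := Fintype.ofFinite T.Γ
  have := Fintype.ofFinite (H.comap T.π)
  have hΘl : LiesOverLin (T.j.comp (Subgroup.inclusion hNK)) lam T.Θ :=
    liesOverLin_of_apply T.isChar fun n => by
      rw [MonoidHom.comp_apply, T.Θ_j, hξl, T.Θ_one]
  have hθ' : IsCharacter (H.comap T.π) fun x => θ ⟨T.π x, x.2⟩ := hθ.comp (T.π.subgroupComap H)
  have hη : IsCharacter (H.comap T.π) fun x => conj (T.Θ x) * θ ⟨T.π x, x.2⟩ :=
    (T.isChar.res _).conj.mul hθ'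
  obtain ⟨β', hβ', he⟩ := hη.exists_of_surjective _ hf (fun y hy z => by
    obtain ⟨k, hk⟩ := T.galData.exists_j_of_q_eq_one (γ := y) hy
    have h1 : T.π y = k := by rw [← hk, T.π_j]; rfl
    have hn : (k : G) ∈ N := hHK ⟨h1 ▸ y.2, k.2⟩
    have h2 := hΘl ⟨k, hn⟩ z
    have h3 := hθl ⟨k, hn⟩ ⟨T.π z, z.2⟩
    have h4 : (⟨T.π (y * z : H.comap T.π), (y * z).2⟩ : H) =
        Subgroup.inclusion hNH ⟨k, hn⟩ * ⟨T.π z, z.2⟩ := Subtype.ext (by simp [h1])
    have h5 : ((y * z : H.comap T.π) : T.Γ) = T.j.comp (Subgroup.inclusion hNK) ⟨k, hn⟩ * z := by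
      rw [Subgroup.coe_mul, ← hk]; rfl
    change conj (T.Θ (y * z : H.comap T.π)) * θ ⟨T.π (y * z : H.comap T.π), (y * z).2⟩ =
      conj (T.Θ z) * θ ⟨T.π z, z.2⟩
    rw [h4, h3, h5, h2, map_mul, ← monoidHom_apply_inv, map_inv, Units.val_inv_eq_inv_val]
    field_simp)
  have hβ := hc.isCharacter_iff.mp (isCharacter_indFun hθ)
  have key : β = β' := hβ.isClassFunction.ext_classInner_irr hβ'.isClassFunction fun δ hδ => by
    have h1 : (fun γ => indFun H θ (T.π γ)) = indFun (H.comap T.π) fun x => θ ⟨T.π x, x.2⟩ :=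
      (indFun_comap T.π T.π_surj H θ).symm
    rw [← T.galData.classInner_mul, ← hc.comp_eq, h1, classInner_indFun_left _ _
      (T.galData.isCharacter_mul hδ.isCharacter).isClassFunction,
      ← classInner_comp_of_surjective _ hf β' δ]
    simp only [he]
    refine (classInner_mul_right _ (fun x : H.comap T.π => T.Θ x) fun x => δ (T.q x)).trans ?_
    congr 1
    funext x
    simp [mul_comm]
  rw [key]
  exact he x

end CTriple

/-- The inductive step of Berger's theorem, over a central subgroup. -/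
theorem berger_step {G : Type u} [Group G] [Fintype G] {N H : Subgroup G} [N.Normal]
    [Group.IsSolvable (G ⧸ N)] (hZ : N ≤ Subgroup.center G) {χ : G → ℂ} (hχ : IsIrrCharacter G χ)
    (hq : IsRelQuasiPrimitive N χ) (hH : IsCoatom H) (hNH : N ≤ H) (hcore : H.normalCore ≤ N)
    {θ : H → ℂ} (hθ : IsIrrCharacter H θ) (he : indFun H θ = χ)
    (ih : ∀ (Q : Type u) [Group Q] [Fintype Q] (A : Subgroup Q) [A.Normal]
      [Group.IsSolvable (Q ⧸ A)] (β : Q → ℂ), A.index < N.index → IsIrrCharacter Q β →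
      IsRelQuasiPrimitive A β → IsRelPrimitive A β) : False := by
  obtain ⟨K, p, hK, hp, hNK, hKN, hsup, hinf, ⟨n, hn⟩, hcent, hC⟩ :=
    exists_chief_of_isCoatom hH hNH hcore
  have hN : N.Normal := inferInstance
  obtain ⟨ξ, e, hξ, hχK⟩ := hq K hK hNK
  have he0 : (e : ℂ) ≠ 0 := fun h0 => hχ.apply_one_ne_zero (by simpa [h0] using congrFun hχK 1)
  have hχK' : ∀ k : K, χ k = e * ξ k := congrFun hχK
  obtain ⟨d, hd⟩ := hξ.isCharacter.exists_nat_degree
  have hvan : ∀ k : K, (k : G) ∉ N → ξ k = 0 := fun k hk => by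
    apply mul_left_cancel₀ he0
    rw [← hχK', mul_zero, ← he]
    refine indFun_eq_zero_of_not_conj H θ fun x hx => hk ?_
    simpa [mul_assoc] using hN.conj_mem _ (hinf ⟨hx, hK.conj_mem k k.2 x⟩) x⁻¹
  have hd2 : d ^ 2 = p ^ n := by
    rw [← hn]
    refine (hξ.nat_degree_sq_eq_index_iff (Z := N.subgroupOf K)
      (le_trans (fun x hx => ?_) hξ.center_le_charCenter) hd).2 hvan
    exact Subgroup.mem_center_iff.mpr fun y =>
      Subtype.ext (Subgroup.mem_center_iff.mp (hZ hx) y)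
  obtain ⟨Q, _, _, A, mu, T, hrel, hA, -, -⟩ :=
    exists_cTriple K hξ (invariant_of_res_eq_smul hχ.isClassFunction he0 hχK) hd
  have := Fintype.ofFinite Q
  have hAn : A.Normal := hrel.normal_iff.mp hK
  obtain ⟨β, -, hc⟩ := T.exists_corr_of_char hχ.isCharacter (e := e) hχK'
  have hβ := hc.isIrrCharacter_iff.mp hχ
  have hsolv : Group.IsSolvable (Q ⧸ A) := by
    have : Group.IsSolvable (G ⧸ K) := Group.isSolvable_of_surjective
      (QuotientGroup.map_surjective_of_surjective N K (MonoidHom.id G)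
        (QuotientGroup.mk'_surjective K) hNK)
    exact Group.isSolvable_of_surjective (f := hrel.quotEquiv.toMonoidHom) hrel.quotEquiv.surjective
  have hβp : IsRelPrimitive A β := ih Q A β
    (hrel.index_eq ▸ Subgroup.index_strictAnti (lt_of_le_of_ne hNK fun h => hKN h.ge)) hβ
    ((hc.isRelQuasiPrimitive_iff hχ hrel).mp (hq.mono hNK))
  -- the preimage of `H`
  have := Fintype.ofFinite (H.comap T.π)
  have := Fintype.ofFinite H
  have hf : Function.Surjective (T.q.comp (H.comap T.π).subtype) := fun y => by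
    obtain ⟨γ, rfl⟩ := T.q_surj y
    have hg : T.π γ ∈ ((K ⊔ H : Subgroup G) : Set G) := by rw [sup_comm, hsup]; trivial
    rw [Subgroup.normal_mul] at hg
    obtain ⟨k, hk, h, hh, hkh⟩ := hg
    refine ⟨⟨(T.j ⟨k, hk⟩)⁻¹ * γ, ?_⟩, by simp⟩
    rw [Subgroup.mem_comap, map_mul, map_inv, T.π_j, ← hkh]
    simpa using hh
  obtain ⟨lam, hlam⟩ := exists_liesOverLin (ι := N.subtype)
    (fun a k => (Subgroup.mem_center_iff.mp (hZ a.2) k).symm) hχ
  have hθl : LiesOverLin (Subgroup.inclusion hNH) lam θ :=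
    LiesOverLin.of_classInner_ne_zero (β := fun x : H => χ x) (fun a k => hlam a k)
      (fun a k => Subtype.ext (Subgroup.mem_center_iff.mp (hZ a.2) k).symm) hθ
      (classInner_res_ne_zero_of_indFun_eq hχ he)
  have hξl : ∀ n : N, ξ (Subgroup.inclusion hNK n) = lam n * ξ 1 := fun n => by
    apply mul_left_cancel₀ he0
    rw [← hχK', mul_left_comm, ← hχK']
    exact hlam.apply_ι n
  have hkey : (fun x => β (T.q.comp (H.comap T.π).subtype x)) =
      (fun x : H.comap T.π => conj (T.Θ x)) * fun x : H.comap T.π => θ ⟨T.π x, x.2⟩ :=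
    funext (CTriple.Corr.eq_conj_mul_of_indFun T hNH hNK hinf hf hθ.isCharacter hθl hξl (he ▸ hc))
  have hθ' : IsCharacter (H.comap T.π) fun x => θ ⟨T.π x, x.2⟩ :=
    hθ.isCharacter.comp (T.π.subgroupComap H)
  have hirr := hβ.comp_of_surjective _ hf
  have hprim := (isRelPrimitive_comp_iff _ hf hβ A).mpr hβp
  rw [hkey] at hirr hprim
  have hW := isIrrCharacter_of_mul_left (T.isChar.res _).conj hθ' hirr
  have hWq := (hprim.of_mul_left hθ' hirr).isRelQuasiPrimitive hW
  have hΘ1 : T.Θ 1 = d := T.Θ_one.trans hd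
  have hcen : ∀ γ δ : T.Γ, T.π γ ∈ N → δ * γ = γ * δ := fun γ δ hγ =>
    T.ext_Γ (by simpa using Subgroup.mem_center_iff.mp (hZ hγ) _)
      (by simpa using Subgroup.mem_center_iff.mp (hA ((hrel γ).1 (hNK hγ))) _)
  rcases hC with hHN | ⟨C, hNC, hCH, hCN, hCn, hcop⟩
  · have h1 := hW.apply_one_of_comm fun a b => Subtype.ext (hcen b a (hHN b.2))
    rw [OneMemClass.coe_one, hΘ1, map_natCast, Nat.cast_eq_one] at h1
    rw [h1, one_pow, ← hn] at hd2
    exact hKN (Subgroup.relIndex_eq_one.mp hd2.symm)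
  · obtain ⟨ω, e', hω, hWC⟩ := hWq ((C.comap T.π).subgroupOf (H.comap T.π))
      ⟨fun x hx y => by
        have := hCn _ y.2 _ hx
        simpa [Subgroup.mem_subgroupOf] using this⟩
      (fun x hx => hNC (hinf ⟨x.2, (hrel x).2 hx⟩))
    obtain ⟨c, hc1⟩ := hω.isCharacter.exists_nat_degree
    have hdc : d = e' * c := by
      have h1 := congrFun hWC 1
      simp only [OneMemClass.coe_one, hΘ1, map_natCast, Pi.smul_apply, hc1, smul_eq_mul] at h1
      exact_mod_cast h1
    have hcC : c ∣ N.relIndex C := by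
      let g : (C.comap T.π).subgroupOf (H.comap T.π) →* G :=
        T.π.comp ((H.comap T.π).subtype.comp (Subgroup.subtype _))
      have hg : g.range = C := by
        refine le_antisymm (by rintro _ ⟨x, rfl⟩; exact x.2) fun y hy => ?_
        obtain ⟨γ, rfl⟩ := T.π_surj y
        exact ⟨⟨⟨γ, hCH hy⟩, hy⟩, rfl⟩
      rw [← hg, ← Subgroup.index_comap]
      refine (irr_degree_dvd_index_center hω hc1).trans (Subgroup.index_dvd_of_le fun x hx => ?_)
      exact Subgroup.mem_center_iff.mpr fun y => Subtype.ext (Subtype.ext (hcen _ _ hx))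
    have hc2 : c = 1 := Nat.eq_one_of_dvd_coprimes (hcop.pow_right n) hcC
      (hd2 ▸ Dvd.dvd.pow (Dvd.intro_left _ hdc.symm) two_ne_zero)
    obtain ⟨ν, rfl⟩ := hω.isCharacter.exists_monoidHom_of_apply_one (by rw [hc1, hc2, Nat.cast_one])
    refine hCN fun y hy => hcent y (hCH hy) fun k hk => ?_
    obtain ⟨γ, rfl⟩ := T.π_surj y
    have h1 : γ ∈ charCenter T.Θ := by
      have h2 := congrArg norm (congrFun hWC ⟨⟨γ, hCH hy⟩, hy⟩)
      simp only [Pi.smul_apply, smul_eq_mul, norm_mul, norm_monoidHom_apply, mul_one,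
        RCLike.norm_conj] at h2
      rw [T.isChar.mem_charCenter_iff, h2, hΘ1, hdc, hc2, mul_one]
    have hk' : ⁅T.π γ, k⁆ ∈ K := by
      rw [commutatorElement_def]
      exact K.mul_mem (hK.conj_mem k hk _) (K.inv_mem hk)
    have h2 : ⁅γ, T.j ⟨k, hk⟩⁆ = T.j ⟨_, hk'⟩ :=
      T.ext_Γ (by simp [map_commutatorElement, T.π_j]) (by simp [map_commutatorElement])
    have h3 := apply_of_mem_charKer
      (T.isChar.isClassFunction.commutatorElement_mem_charKer h1 (T.j ⟨k, hk⟩))
    rw [h2, T.Θ_j, T.Θ_one] at h3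
    by_contra h4
    exact hξ.apply_one_ne_zero (h3.symm.trans (hvan _ h4))

/-- **Berger's theorem**, relative form: if `G / N` is solvable, a character that is
quasi-primitive relative to `N` is primitive relative to `N`. -/
theorem IsRelQuasiPrimitive.isRelPrimitive {G : Type u} [Group G] [Fintype G] {N : Subgroup G}
    [N.Normal] [Group.IsSolvable (G ⧸ N)] {χ : G → ℂ} (hq : IsRelQuasiPrimitive N χ)
    (hχ : IsIrrCharacter G χ) : IsRelPrimitive N χ := by
  obtain ⟨n, hn⟩ : ∃ n, N.index = n := ⟨_, rfl⟩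
  induction n using Nat.strong_induction_on generalizing G with
  | _ n ih =>
  obtain ⟨φ, e, hφ, hχN⟩ := hq N inferInstance le_rfl
  have he0 : (e : ℂ) ≠ 0 := fun h0 => hχ.apply_one_ne_zero (by simpa [h0] using congrFun hχN 1)
  obtain ⟨d, hd⟩ := hφ.isCharacter.exists_nat_degree
  obtain ⟨Q, _, _, A, mu, T, hrel, hA, -, -⟩ :=
    exists_cTriple N hφ (invariant_of_res_eq_smul hχ.isClassFunction he0 hχN) hd
  have := Fintype.ofFinite Q
  have hAn : A.Normal := hrel.normal_iff.mp inferInstance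
  obtain ⟨β, -, hc⟩ := T.exists_corr_of_char hχ.isCharacter (e := e) (congrFun hχN)
  have hβ := hc.isIrrCharacter_iff.mp hχ
  have hsolv : Group.IsSolvable (Q ⧸ A) :=
    Group.isSolvable_of_surjective (f := hrel.quotEquiv.toMonoidHom) hrel.quotEquiv.surjective
  have hq' := (hc.isRelQuasiPrimitive_iff hχ hrel).mp hq
  rw [hc.isRelPrimitive_iff hχ hrel]
  intro U ζ hAU hζ hU
  by_contra hne
  obtain ⟨H, hH, hUH⟩ := (eq_top_or_exists_le_coatom U).resolve_left hne
  have := Fintype.ofFinite H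
  have h1 := indFun_indFun_subgroupOf U H hUH ζ
  rw [hU] at h1
  have h2 := isIrrCharacter_of_indFun (isCharacter_indFun
    (hζ.comp_equiv (Subgroup.subgroupOfEquivOfLe hUH)).isCharacter) (h1 ▸ hβ)
  have hAH := Subgroup.normal_le_normalCore.mpr (hAU.trans hUH)
  by_cases hcore : H.normalCore ≤ A
  · exact berger_step hA hβ hq' hH (hAU.trans hUH) hcore h2 h1 fun Q' _ _ A' _ _ β' h3 h4 h5 =>
      ih _ (by rw [← hn, hrel.index_eq]; exact h3) h5 h4 rfl
  · have : Group.IsSolvable (Q ⧸ H.normalCore) := Group.isSolvable_of_surjective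
      (QuotientGroup.map_surjective_of_surjective A H.normalCore (MonoidHom.id Q)
        (QuotientGroup.mk'_surjective _) hAH)
    exact hH.1 (ih _ (by
      rw [← hn, hrel.index_eq]
      exact Subgroup.index_strictAnti (lt_of_le_of_ne hAH fun h => hcore h.ge))
      (hq'.mono hAH) hβ rfl H _ H.normalCore_le h2 h1)

theorem isRelQuasiPrimitive_iff_isRelPrimitive {G : Type u} [Group G] [Fintype G] {N : Subgroup G}
    [N.Normal] [Group.IsSolvable (G ⧸ N)] {χ : G → ℂ} (hχ : IsIrrCharacter G χ) :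
    IsRelQuasiPrimitive N χ ↔ IsRelPrimitive N χ :=
  ⟨fun h => h.isRelPrimitive hχ, fun h => h.isRelQuasiPrimitive hχ⟩

end Cfsg.Lib.Char
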