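import Mathlib.LinearAlgebra.Charpoly.ToMatrix
import Mathlib.LinearAlgebra.Dimension.Constructions
import Mathlib.LinearAlgebra.FiniteDimensional.Lemmas
import Mathlib.LinearAlgebra.Isomorphisms
import Mathlib.LinearAlgebra.Projection
import Mathlib.Data.SetLike.Fintype
import Mathlib.Analysis.Complex.Basic
import Mathlib.Tactic

/-!
# Cuspidal characters of `GL_n(q)`, I: the primitive part of an additive function

For an endomorphism `g` of a finite vector space and a function `b` on monic polynomials which is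
additive (`b (f * h) = b f + b h`), `Pw b g` is the Möbius inverse of `W ↦ b (charpoly g|W)` on
the lattice of `g`-invariant subspaces.
-/

set_option autoImplicit false

open Module Polynomial Finset

namespace Cfsg.Lib.Char.Cusp

section Mob

variable {α : Type*} [PartialOrder α] [WellFoundedLT α]

open Classical in
/-- Möbius inverse of `f` on the finite poset `s`. -/
noncomputable def mob (s : Finset α) (f : α → ℂ) : α → ℂ :=
  (wellFounded_lt (α := α)).fix fun x r =>
    f x - ∑ y ∈ (s.filter (· < x)).attach, r y.1 (mem_filter.1 y.2).2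

open Classical in
theorem mob_eq (s : Finset α) (f : α → ℂ) (x : α) :
    mob s f x = f x - ∑ y ∈ s.filter (· < x), mob s f y := by
  have h : mob s f x = f x - ∑ y ∈ (s.filter (· < x)).attach, mob s f y.1 :=
    WellFounded.fix_eq _ _ _
  rw [h, sum_attach (s.filter (· < x)) fun y => mob s f y]

omit [WellFoundedLT α] in
open Classical in
theorem sum_filter_le {s : Finset α} {x : α} (hx : x ∈ s) (u : α → ℂ) :
    ∑ y ∈ s.filter (· ≤ x), u y = u x + ∑ y ∈ s.filter (· < x), u y := by
  have : s.filter (· ≤ x) = insert x (s.filter (· < x)) := by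
    ext y
    simp only [mem_filter, mem_insert, le_iff_eq_or_lt]
    constructor
    · rintro ⟨h1, h2 | h2⟩
      · exact Or.inl h2
      · exact Or.inr ⟨h1, h2⟩
    · rintro (rfl | ⟨h1, h2⟩)
      · exact ⟨hx, Or.inl rfl⟩
      · exact ⟨h1, Or.inr h2⟩
  rw [this, sum_insert (by simp)]

open Classical in
theorem sum_mob {s : Finset α} (f : α → ℂ) {x : α} (hx : x ∈ s) :
    ∑ y ∈ s.filter (· ≤ x), mob s f y = f x := by
  rw [sum_filter_le hx, mob_eq s f x]; ring

open Classical in
theorem mob_unique {s : Finset α} {f u : α → ℂ}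
    (h : ∀ y ∈ s, ∑ z ∈ s.filter (· ≤ y), u z = f y) {x : α} (hx : x ∈ s) : mob s f x = u x := by
  induction x using WellFoundedLT.induction with
  | ind x ih =>
    rw [mob_eq, ← h x hx, sum_filter_le hx,
      sum_congr rfl fun y hy => ih y (mem_filter.1 hy).2 (mem_filter.1 hy).1]
    ring

end Mob

section Charpoly

variable {F : Type*} [Field F] {A B C : Type*} [AddCommGroup A] [Module F A] [AddCommGroup B]
  [Module F B] [AddCommGroup C] [Module F C] [FiniteDimensional F A] [FiniteDimensional F B]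
  [FiniteDimensional F C]

theorem charpoly_eq_of_equiv (e : A ≃ₗ[F] B) {a : End F A} {b : End F B}
    (h : ∀ x, e (a x) = b (e x)) : a.charpoly = b.charpoly := by
  rw [← e.charpoly_conj a]
  congr 1
  ext x
  simp [LinearEquiv.conj_apply, h]

theorem charpoly_eq_mul (W : Submodule F B) (e : End F B) (he : W ≤ W.comap e) :
    e.charpoly = (e.restrict he).charpoly * (W.mapQ W e he).charpoly := by
  let m := Module.Free.ChooseBasisIndex F W
  let bW : Basis m F W := Module.Free.chooseBasis F W
  let n := Module.Free.ChooseBasisIndex F (B ⧸ W)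
  let bQ : Basis n F (B ⧸ W) := Module.Free.chooseBasis F (B ⧸ W)
  let b := Basis.sumQuot bW bQ
  let A : Matrix m m F := LinearMap.toMatrix bW bW (e.restrict he)
  let B' : Matrix m n F := Matrix.of fun i l ↦
    ((Basis.sumQuot bW bQ).repr (e ((Basis.sumQuot bW bQ) (Sum.inr l)))) (Sum.inl i)
  let D : Matrix n n F := LinearMap.toMatrix bQ bQ (W.mapQ W e he)
  suffices LinearMap.toMatrix b b e = Matrix.fromBlocks A B' 0 D by
    rw [← LinearMap.charpoly_toMatrix e b, this, ← LinearMap.charpoly_toMatrix _ bW,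
      ← LinearMap.charpoly_toMatrix _ bQ, Matrix.charpoly_fromBlocks_zero₂₁]
  ext u v
  cases u with
  | inl i =>
    cases v with
    | inl k =>
      simp only [b, Basis.sumQuot_inl, Matrix.fromBlocks_apply₁₁, A, LinearMap.toMatrix_apply]
      apply Basis.sumQuot_repr_inl_of_mem
    | inr l => simp [b, LinearMap.toMatrix_apply, Matrix.fromBlocks_apply₁₂, B']
  | inr j =>
    cases v with
    | inl k =>
      suffices W.mkQ (e (bW k)) = 0 by simp [LinearMap.toMatrix_apply, b, this]
      rw [← LinearMap.mem_ker, Submodule.ker_mkQ]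
      exact he (Submodule.coe_mem (bW k))
    | inr l =>
      simp only [LinearMap.toMatrix_apply, Basis.sumQuot_repr_inr,
        Matrix.fromBlocks_apply₂₂, b, D]
      rw [← Basis.sumQuot_inr bW bQ l, W.mapQ_apply]
      simp

theorem charpoly_of_exact (i : A →ₗ[F] B) (π : B →ₗ[F] C) (hi : Function.Injective i)
    (hπ : Function.Surjective π) (hex : LinearMap.range i = LinearMap.ker π) {a : End F A}
    {b : End F B} {c : End F C} (h1 : ∀ x, i (a x) = b (i x)) (h2 : ∀ x, π (b x) = c (π x)) :
    b.charpoly = a.charpoly * c.charpoly := by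
  have he : LinearMap.ker π ≤ (LinearMap.ker π).comap b := by
    intro x hx
    rw [Submodule.mem_comap, LinearMap.mem_ker, h2, LinearMap.mem_ker.1 hx, map_zero]
  rw [charpoly_eq_mul _ b he]
  congr 1
  · symm
    refine charpoly_eq_of_equiv ((LinearEquiv.ofInjective i hi).trans
      (LinearEquiv.ofEq _ _ hex)) fun x => Subtype.ext ?_
    simp [h1]
  · refine charpoly_eq_of_equiv (π.quotKerEquivOfSurjective hπ) fun x => ?_
    obtain ⟨x, rfl⟩ := Submodule.Quotient.mk_surjective _ x
    rw [Submodule.mapQ_apply]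
    simp [h2]

end Charpoly

variable {F : Type*} [Field F] {V V' : Type*} [AddCommGroup V] [Module F V] [AddCommGroup V']
  [Module F V']

/-- `W` is `g`-invariant. -/
abbrev Inv (g : End F V) (W : Submodule F V) : Prop := W ≤ W.comap g

theorem Inv.top (g : End F V) : Inv g ⊤ := fun _ _ => trivial

theorem Inv.bot (g : End F V) : Inv g ⊥ := bot_le

theorem Inv.inf {g : End F V} {A B : Submodule F V} (hA : Inv g A) (hB : Inv g B) :
    Inv g (A ⊓ B) := fun _ hx => ⟨hA hx.1, hB hx.2⟩

theorem Inv.sup {g : End F V} {A B : Submodule F V} (hA : Inv g A) (hB : Inv g B) :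
    Inv g (A ⊔ B) :=
  sup_le (hA.trans (Submodule.comap_mono le_sup_left))
    (hB.trans (Submodule.comap_mono le_sup_right))

theorem Inv.map {g : End F V} {g' : End F V'} (e : V →ₗ[F] V') (he : ∀ x, e (g x) = g' (e x))
    {A : Submodule F V} (hA : Inv g A) : Inv g' (A.map e) := by
  rintro _ ⟨x, hx, rfl⟩
  exact ⟨g x, hA hx, he x⟩

theorem Inv.comap {g : End F V} {g' : End F V'} (e : V →ₗ[F] V') (he : ∀ x, e (g x) = g' (e x))
    {A : Submodule F V'} (hA : Inv g' A) : Inv g (A.comap e) := by
  intro x hx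
  rw [Submodule.mem_comap, Submodule.mem_comap, he]
  exact hA hx

theorem Inv.aeval {g : End F V} {A : Submodule F V} (hA : Inv g A) (f : F[X]) :
    Inv (aeval g f) A := by
  intro x hx
  rw [Submodule.mem_comap]
  induction f using Polynomial.induction_on' with
  | add p q hp hq => rw [map_add]; exact A.add_mem hp hq
  | monomial n a =>
    rw [aeval_monomial, Module.End.mul_apply, Module.algebraMap_end_apply]
    exact A.smul_mem _ (Module.End.pow_apply_mem_of_forall_mem n hA x hx)

variable [Finite V] [Finite V']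

instance finite_submodule : Finite (Submodule F V) :=
  Finite.of_injective _ SetLike.coe_injective

instance finite_quot (R : Submodule F V) : Finite (V ⧸ R) :=
  Finite.of_surjective _ R.mkQ_surjective

/-- The invariant subspaces. -/
noncomputable def invs (g : End F V) : Finset (Submodule F V) :=
  (Set.toFinite {W | Inv g W}).toFinset

@[simp] theorem mem_invs {g : End F V} {W : Submodule F V} : W ∈ invs g ↔ Inv g W :=
  Set.Finite.mem_toFinset _

open Classical in
/-- Characteristic polynomial of `g` on `W`. -/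
noncomputable def cp (g : End F V) (W : Submodule F V) : F[X] :=
  if h : Inv g W then (g.restrict h).charpoly else 1

theorem cp_eq {g : End F V} {W : Submodule F V} (h : Inv g W) :
    cp g W = (g.restrict h).charpoly := dif_pos h

theorem cp_monic (g : End F V) (W : Submodule F V) : (cp g W).Monic := by
  by_cases h : Inv g W
  · rw [cp_eq h]; exact LinearMap.charpoly_monic _
  · have : cp g W = 1 := dif_neg h
    rw [this]; exact monic_one

theorem cp_natDegree {g : End F V} {W : Submodule F V} (h : Inv g W) :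
    (cp g W).natDegree = finrank F W := by
  rw [cp_eq h, LinearMap.charpoly_natDegree]

theorem cp_bot (g : End F V) : cp g ⊥ = 1 :=
  (cp_monic g ⊥).natDegree_eq_zero.1 (by rw [cp_natDegree (Inv.bot g), finrank_bot])

theorem cp_top (g : End F V) : cp g ⊤ = g.charpoly := by
  rw [cp_eq (Inv.top g)]
  exact charpoly_eq_of_equiv Submodule.topEquiv fun _ => rfl

theorem cp_map {g : End F V} {g' : End F V'} (e : V →ₗ[F] V') (hinj : Function.Injective e)
    (he : ∀ x, e (g x) = g' (e x)) {A : Submodule F V} (hA : Inv g A) :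
    cp g' (A.map e) = cp g A := by
  rw [cp_eq hA, cp_eq (hA.map e he)]
  symm
  refine charpoly_eq_of_equiv (Submodule.equivMapOfInjective e hinj A) fun x => Subtype.ext ?_
  simp [he]

theorem cp_mul {g : End F V} {R Z : Submodule F V} (hR : Inv g R) (hZ : Inv g Z) (h : R ≤ Z) :
    cp g Z = cp g R * cp (R.mapQ R g hR) (Z.map R.mkQ) := by
  have hq : ∀ x, R.mkQ (g x) = R.mapQ R g hR (R.mkQ x) := fun x => rfl
  rw [cp_eq hZ, cp_eq hR, cp_eq (hZ.map _ hq)]
  refine charpoly_of_exact (Submodule.inclusion h) (R.mkQ.submoduleMap Z)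
    (Submodule.inclusion_injective h) (LinearMap.submoduleMap_surjective _ _) ?_
    (fun _ => rfl) (fun _ => rfl)
  ext x
  simp only [LinearMap.mem_range, LinearMap.mem_ker]
  constructor
  · rintro ⟨y, rfl⟩
    exact Subtype.ext ((Submodule.Quotient.mk_eq_zero _).2 y.2)
  · intro hx
    exact ⟨⟨x, (Submodule.Quotient.mk_eq_zero _).1 (congrArg Subtype.val hx)⟩, rfl⟩

theorem cp_dvd {g : End F V} {W : Submodule F V} (h : Inv g W) : cp g W ∣ g.charpoly := by
  rw [← cp_top, cp_mul h (Inv.top g) le_top]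
  exact dvd_mul_right _ _

/-- The primitive part. -/
noncomputable def Pw (b : F[X] → ℂ) (g : End F V) : Submodule F V → ℂ :=
  mob (invs g) fun W => b (cp g W)

open Classical in
theorem sum_Pw (b : F[X] → ℂ) {g : End F V} {W : Submodule F V} (h : Inv g W) :
    ∑ Y ∈ (invs g).filter (· ≤ W), Pw b g Y = b (cp g W) := by
  convert sum_mob (fun W => b (cp g W)) (mem_invs.2 h)
  rfl

open Classical in
theorem Pw_eq (b : F[X] → ℂ) (g : End F V) (W : Submodule F V) :
    Pw b g W = b (cp g W) - ∑ Y ∈ (invs g).filter (· < W), Pw b g Y := by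
  convert mob_eq (invs g) (fun W => b (cp g W)) W <;> rfl

open Classical in
theorem Pw_unique {b : F[X] → ℂ} {g : End F V} {u : Submodule F V → ℂ}
    (h : ∀ W, Inv g W → ∑ Y ∈ (invs g).filter (· ≤ W), u Y = b (cp g W)) {W : Submodule F V}
    (hW : Inv g W) : Pw b g W = u W :=
  mob_unique (fun y hy => by convert h y (mem_invs.1 hy)) (mem_invs.2 hW)

theorem Pw_map (b : F[X] → ℂ) {g : End F V} {g' : End F V'} (e : V →ₗ[F] V')
    (hinj : Function.Injective e) (he : ∀ x, e (g x) = g' (e x)) {A : Submodule F V}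
    (hA : Inv g A) : Pw b g' (A.map e) = Pw b g A := by
  classical
  symm
  refine Pw_unique (u := fun A => Pw b g' (A.map e)) (fun W hW => ?_) hA
  rw [← cp_map e hinj he hW, ← sum_Pw b (hW.map e he)]
  refine sum_bij' (fun Y _ => Y.map e) (fun Y _ => Y.comap e) ?_ ?_ ?_ ?_ fun _ _ => rfl
  · intro Y hY
    rw [mem_filter, mem_invs] at hY ⊢
    exact ⟨hY.1.map e he, Submodule.map_mono hY.2⟩
  · intro Y hY
    rw [mem_filter, mem_invs] at hY ⊢
    refine ⟨hY.1.comap e he, ?_⟩
    rw [← Submodule.comap_map_eq_of_injective hinj W]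
    exact Submodule.comap_mono hY.2
  · intro Y _
    exact Submodule.comap_map_eq_of_injective hinj Y
  · intro Y hY
    rw [mem_filter] at hY
    exact Submodule.map_comap_eq_self (hY.2.trans LinearMap.map_le_range)

/-- The primitive part on the whole space. -/
noncomputable def P (b : F[X] → ℂ) (g : End F V) : ℂ := Pw b g ⊤

theorem P_eq_Pw (b : F[X] → ℂ) {g : End F V} {g' : End F V'} (e : V →ₗ[F] V')
    (hinj : Function.Injective e) (he : ∀ x, e (g x) = g' (e x)) :
    P b g = Pw b g' (LinearMap.range e) := by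
  rw [← Submodule.map_top, Pw_map b e hinj he (Inv.top g)]; rfl

theorem P_restrict (b : F[X] → ℂ) {g : End F V} {W : Submodule F V} (h : Inv g W) :
    P b (g.restrict h) = Pw b g W := by
  rw [P_eq_Pw b (g' := g) W.subtype W.injective_subtype fun _ => rfl, Submodule.range_subtype]

theorem P_congr (b : F[X] → ℂ) {g : End F V} {g' : End F V'} (e : V ≃ₗ[F] V')
    (he : ∀ x, e (g x) = g' (e x)) : P b g = P b g' := by
  rw [P_eq_Pw b (e : V →ₗ[F] V') e.injective he, LinearEquiv.range]; rfl

open Classical in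
theorem P_eq (b : F[X] → ℂ) (g : End F V) :
    P b g = b g.charpoly - ∑ Y ∈ (invs g).filter (· < ⊤), Pw b g Y := by
  rw [← cp_top]; exact Pw_eq b g ⊤

theorem Pw_eq_zero {b : F[X] → ℂ} {g : End F V} (h : ∀ f, f.Monic → f ∣ g.charpoly → b f = 0)
    {W : Submodule F V} (hW : Inv g W) : Pw b g W = 0 :=
  Pw_unique (u := fun _ => 0) (fun Y hY => by
    rw [h _ (cp_monic g Y) (cp_dvd hY), sum_const_zero]) hW

theorem Pw_sum {ι : Type*} (s : Finset ι) (c : ι → ℂ) (b : ι → F[X] → ℂ) {g : End F V}
    {W : Submodule F V} (hW : Inv g W) :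
    Pw (fun f => ∑ i ∈ s, c i * b i f) g W = ∑ i ∈ s, c i * Pw (b i) g W := by
  classical
  refine Pw_unique (u := fun W => ∑ i ∈ s, c i * Pw (b i) g W) (fun Y hY => ?_) hW
  rw [sum_comm]
  exact sum_congr rfl fun i _ => by rw [← mul_sum, sum_Pw _ hY]

/-- Additive functions on monic polynomials. -/
def Add (b : F[X] → ℂ) : Prop := ∀ f h : F[X], f.Monic → h.Monic → b (f * h) = b f + b h

theorem Add.one {b : F[X] → ℂ} (hb : Add b) : b 1 = 0 := by
  have := hb 1 1 monic_one monic_one
  rw [mul_one] at this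
  linear_combination -this

theorem Pw_bot {b : F[X] → ℂ} (hb : Add b) (g : End F V) : Pw b g ⊥ = 0 := by
  rw [Pw_eq, cp_bot, hb.one]
  simp

open Classical in
/-- The quotient formula. -/
theorem Pw_quot {b : F[X] → ℂ} (hb : Add b) {g : End F V} {R : Submodule F V} (hR : Inv g R)
    {Z : Submodule F (V ⧸ R)} (hZ : Inv (R.mapQ R g hR) Z) (h0 : Z ≠ ⊥) :
    Pw b (R.mapQ R g hR) Z = ∑ Y ∈ (invs g).filter (·.map R.mkQ = Z), Pw b g Y := by
  have hq : ∀ x, R.mkQ (g x) = R.mapQ R g hR (R.mkQ x) := fun x => rfl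
  have := Pw_unique (b := b) (u := fun Z => (∑ Y ∈ (invs g).filter (·.map R.mkQ = Z), Pw b g Y) -
    if Z = ⊥ then b (cp g R) else 0) (fun W hW => ?_) hZ
  · rw [this, if_neg h0, sub_zero]
  rw [sum_sub_distrib, sum_ite_eq', if_pos (by simp), sum_fiberwise_eq_sum_filter]
  have h1 := sum_Pw b (hW.comap _ hq)
  rw [cp_mul hR (hW.comap _ hq) (Submodule.le_comap_mkQ _ _),
    Submodule.map_comap_eq_self (by simp), hb _ _ (cp_monic _ _) (cp_monic _ _)] at h1
  rw [sub_eq_iff_eq_add', ← h1]
  refine sum_congr ?_ fun _ _ => rfl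
  ext Y
  rw [mem_filter, mem_filter, mem_filter, mem_invs, mem_invs, ← Submodule.map_le_iff_le_comap]
  exact ⟨fun h => ⟨h.1, h.2.2⟩, fun h => ⟨h.1, h.1.map _ hq, h.2⟩⟩

theorem Pw_compl (b : F[X] → ℂ) {g : End F V} {R Y : Submodule F V} (hR : Inv g R)
    (hY : Inv g Y) (h : Disjoint Y R) : Pw b (R.mapQ R g hR) (Y.map R.mkQ) = Pw b g Y := by
  rw [← P_restrict b hY, P_eq_Pw b (g' := R.mapQ R g hR) (R.mkQ ∘ₗ Y.subtype) ?_ fun _ => rfl,
    LinearMap.range_comp, Submodule.range_subtype]
  rw [← LinearMap.ker_eq_bot, LinearMap.ker_comp, Submodule.ker_mkQ]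
  exact Submodule.disjoint_iff_comap_eq_bot.1 h

end Cfsg.Lib.Char.Cusp
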