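import Cfsg.Agent.Char.Cusp1
import Mathlib.RingTheory.Artinian.Module
import Mathlib.FieldTheory.Finiteness
import Mathlib.LinearAlgebra.Basis.VectorSpace
import Mathlib.RingTheory.SimpleModule.Rank

/-!
# Cuspidal characters of `GL_n(q)`, II: support, degree and primitivity
-/

set_option autoImplicit false

open Module Polynomial Finset

namespace Cfsg.Lib.Char.Cusp

variable {F : Type*} [Field F] {V : Type*} [AddCommGroup V] [Module F V] [Finite V]
  {b : F[X] → ℂ}

open Classical in
theorem P_quot (hb : Add b) {g : End F V} {R : Submodule F V} (hR : Inv g R) (h : R ≠ ⊤) :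
    P b (R.mapQ R g hR) = ∑ Y ∈ (invs g).filter (R ⊔ · = ⊤), Pw b g Y := by
  have := Submodule.Quotient.nontrivial_iff.2 h
  rw [P, Pw_quot hb hR (Inv.top _) top_ne_bot]
  simp only [Submodule.map_mkQ_eq_top]

theorem P_compl {g : End F V} {R Y : Submodule F V} (hR : Inv g R) (hY : Inv g Y)
    (h : IsCompl R Y) : P b (R.mapQ R g hR) = Pw b g Y := by
  rw [← Pw_compl b hR hY h.symm.disjoint, (Submodule.map_mkQ_eq_top _ _).2 h.sup_eq_top]; rfl

theorem Pw_eq_zero_of_fitting (hb : Add b) {g T : End F V} (hT : ∀ Y, Inv g Y → Inv T Y)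
    (hc : ∀ x, T (g x) = g (T x)) (h : IsCompl (LinearMap.ker T) (LinearMap.range T))
    (hB : LinearMap.range T ≠ ⊥) {Z : Submodule F V} (hZ : Inv g Z)
    (hlt : LinearMap.range T < Z) : Pw b g Z = 0 := by
  classical
  set A := LinearMap.ker T with hA
  set B := LinearMap.range T with hBd
  have hAi : Inv g A := (Inv.bot g).comap T hc
  have hBi : Inv g B := by rw [hBd, ← Submodule.map_top]; exact (Inv.top g).map T hc
  induction Z using WellFoundedLT.induction with
  | ind Z ih =>
    have hR : Inv g (A ⊓ Z) := hAi.inf hZ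
    have hd : Disjoint B (A ⊓ Z) := h.symm.disjoint.mono_right inf_le_left
    have hZB : (A ⊓ Z) ⊔ B = Z := by
      rw [sup_comm, ← sup_inf_assoc_of_le _ hlt.le, h.symm.sup_eq_top, top_inf_eq]
    have h0 : B.map (A ⊓ Z).mkQ ≠ ⊥ := by
      intro e
      rw [← LinearMap.le_ker_iff_map, Submodule.ker_mkQ] at e
      exact hB (hd.eq_bot_of_le e)
    have key := Pw_quot hb hR (hBi.map (A ⊓ Z).mkQ fun _ => rfl) h0
    rw [Pw_compl b hR hBi hd] at key
    have hiff : ∀ Y : Submodule F V, Y.map (A ⊓ Z).mkQ = B.map (A ⊓ Z).mkQ ↔ (A ⊓ Z) ⊔ Y = Z := by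
      intro Y
      rw [← (Submodule.comap_injective_of_surjective (A ⊓ Z).mkQ_surjective).eq_iff,
        Submodule.comap_map_mkQ, Submodule.comap_map_mkQ, hZB]
    rw [← add_sum_erase _ _ (a := B) (by simpa using hBi),
      ← add_sum_erase _ _ (a := Z) (by simp [hlt.ne', hZ, hiff]), sum_eq_zero] at key
    · linear_combination -key
    intro Y hY
    simp only [mem_erase, mem_filter, mem_invs, hiff] at hY
    obtain ⟨h1, h2, h3, h4⟩ := hY
    refine ih Y (lt_of_le_of_ne (le_sup_right.trans h4.le) h1) h3 (lt_of_le_of_ne ?_ (Ne.symm h2))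
    rintro _ ⟨v, rfl⟩
    obtain ⟨a, ha, w, hw, rfl⟩ := Submodule.mem_sup.1
      (show v ∈ A ⊔ B from h.sup_eq_top ▸ trivial)
    obtain ⟨r, hr, y, hy, rfl⟩ := Submodule.mem_sup.1 (h4.ge (hlt.le hw))
    rw [map_add, map_add, LinearMap.mem_ker.1 ha, LinearMap.mem_ker.1 hr.1, zero_add, zero_add]
    exact hT Y h3 hy

/-- `P` vanishes unless the characteristic polynomial is primary. -/
theorem P_eq_zero_of_aeval (hb : Add b) {g : End F V} (f : F[X]) (h1 : ¬ IsNilpotent (aeval g f))
    (h2 : ¬ IsUnit (aeval g f)) : P b g = 0 := by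
  obtain ⟨n, hn, hn1⟩ := ((LinearMap.eventually_isCompl_ker_pow_range_pow (aeval g f)).and
    (Filter.eventually_ge_atTop 1)).exists
  refine Pw_eq_zero_of_fitting hb (T := aeval g f ^ n) (fun Y hY => ?_) (fun x => ?_) hn
    (fun e => h1 ⟨n, LinearMap.range_eq_bot.1 e⟩) (Inv.top g) (lt_top_iff_ne_top.2 fun e => ?_)
  · rw [← map_pow]; exact hY.aeval _
  · have : Commute (aeval g (f ^ n)) (aeval g (X : F[X])) := (Commute.all _ _).map _
    rw [aeval_X, map_pow] at this
    exact LinearMap.congr_fun this x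
  · exact h2 ((isUnit_pow_iff (by omega)).1 ((LinearMap.isUnit_iff_range_eq_top _).2 e))

omit [Finite V] in
theorem card_isCompl {S C : Submodule F V} (h : IsCompl S C) :
    Nat.card {q // IsCompl S q} = Nat.card (C →ₗ[F] S) := by
  rw [Nat.card_congr S.isComplEquivProj]
  refine Nat.card_congr (Equiv.ofBijective (fun f => f.1.domRestrict C) ⟨fun f g hfg => ?_,
    fun φ => ⟨⟨LinearMap.ofIsCompl h LinearMap.id φ, fun x => by simp⟩, ?_⟩⟩)
  · apply Subtype.ext
    apply LinearMap.ext
    intro x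
    obtain ⟨a, b, hab, _⟩ := Submodule.existsUnique_add_of_isCompl h x
    rw [← hab, map_add, map_add, f.2, g.2]
    exact congrArg _ (LinearMap.congr_fun hfg b)
  · apply LinearMap.ext
    intro x
    simp

open Classical in
theorem sum_sup_eq_top [Fintype (Submodule F V)] {W : Submodule F V} (h0 : W ≠ ⊥)
    (t : Submodule F V → ℂ) (c : ℂ) (h1 : ∀ Y, IsCompl W Y → t Y = c)
    (h2 : ∀ Y, W ⊔ Y = ⊤ → Y ≠ ⊤ → ¬ Disjoint W Y → t Y = 0) :
    ∑ Y ∈ univ.filter (W ⊔ · = ⊤), t Y = t ⊤ + Nat.card {q // IsCompl W q} * c := by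
  rw [← add_sum_erase _ _ (a := ⊤) (by simp), Nat.card_eq_fintype_card, Fintype.card_subtype,
    ← nsmul_eq_mul, ← sum_const]
  congr 1
  symm
  refine sum_subset_zero_on_sdiff (fun Y hY => ?_) (fun Y hY => ?_) fun Y hY =>
    (h1 Y (mem_filter.1 hY).2).symm
  · have hY := (mem_filter.1 hY).2
    simp only [mem_erase, mem_filter, mem_univ, true_and]
    exact ⟨fun e => h0 (by simpa [e] using hY.disjoint), hY.sup_eq_top⟩
  · simp only [mem_sdiff, mem_erase, mem_filter, mem_univ, true_and] at hY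
    exact h2 Y hY.1.2 hY.1.1 fun hd => hY.2 ⟨hd, codisjoint_iff.2 hY.1.2⟩

universe u

theorem P_one [Fintype F] (hb : Add b) (n : ℕ) : ∀ (V : Type u) [AddCommGroup V] [Module F V]
    [Finite V], finrank F V = n + 1 →
    P b (1 : End F V) = b (X - 1) * ∏ i ∈ Ico 1 (n + 1), (1 - (Fintype.card F : ℂ) ^ i) := by
  classical
  induction n with
  | zero =>
    intro V _ _ _ hV
    have := (isSimpleModule_iff_finrank_eq_one (R := F) (M := V)).2 hV
    rw [P_eq, LinearMap.charpoly_one, hV, sum_eq_zero]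
    · simp
    intro Y hY
    rw [(eq_bot_or_eq_top Y).resolve_right (mem_filter.1 hY).2.ne, Pw_bot hb]
  | succ n ih =>
    intro V _ _ _ hV
    have := Fintype.ofFinite (Submodule F V)
    have : Nontrivial V := Module.nontrivial_of_finrank_pos (R := F) (by omega)
    obtain ⟨v, hv⟩ := exists_ne (0 : V)
    have hR := finrank_span_singleton (K := F) hv
    set R := F ∙ v
    have hi : ∀ Y : Submodule F V, Inv 1 Y := fun _ _ h => h
    have hq : finrank F (V ⧸ R) = n + 1 := by
      have := R.finrank_quotient_add_finrank; omega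
    have key := P_quot hb (hi R) (fun e => by rw [e, finrank_top] at hR; omega)
    have hq1 : R.mapQ R 1 (hi R) = 1 := Submodule.mapQ_id R
    have hinv : invs (1 : End F V) = univ := by ext Y; simpa using hi Y
    obtain ⟨C, hC⟩ := R.exists_isCompl
    have hCd : finrank F C = n + 1 := by
      have := Submodule.finrank_add_eq_of_isCompl hC; omega
    rw [hinv, sum_sup_eq_top (fun e => by rw [e, finrank_bot] at hR; omega) _ _
      (fun Y hY => (P_compl (hi R) (hi Y) hY).symm), hq1, ih _ hq, card_isCompl hC,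
      Module.natCard_eq_pow_finrank (K := F), Module.finrank_linearMap, hCd, hR,
      Nat.card_eq_fintype_card] at key
    · rw [prod_Ico_succ_top (by omega), P]
      push_cast at key
      rw [mul_one] at key
      linear_combination -key
    intro Y h1 h2 h3
    refine absurd (h1.symm.trans (sup_eq_right.2 ?_)) h2.symm
    rw [disjoint_comm, Submodule.disjoint_span_singleton' hv, not_not] at h3
    exact (Submodule.span_singleton_le_iff_mem _ _).2 h3

instance finite_end : Finite (End F V) := Finite.of_injective _ DFunLike.coe_injective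

/-- The endomorphisms that agree with `g` on `W` and on `V ⧸ W`. -/
noncomputable def cos (g : End F V) (W : Submodule F V) : Finset (End F V) :=
  (Set.toFinite {h : End F V | (∀ v, h v - g v ∈ W) ∧ ∀ w ∈ W, h w = g w}).toFinset

theorem mem_cos {g h : End F V} {W : Submodule F V} :
    h ∈ cos g W ↔ (∀ v, h v - g v ∈ W) ∧ ∀ w ∈ W, h w = g w :=
  Set.Finite.mem_toFinset _

theorem card_cos (g : End F V) {W C : Submodule F V} (h : IsCompl W C) :
    (cos g W).card = Nat.card (C →ₗ[F] W) := by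
  rw [← Nat.card_eq_finsetCard]
  refine Nat.card_congr (Equiv.ofBijective (fun k : cos g W =>
    ((k.1 - g).domRestrict C).codRestrict W fun x => (mem_cos.1 k.2).1 x) ⟨fun k k' e => ?_,
      fun φ => ⟨⟨g + W.subtype ∘ₗ LinearMap.ofIsCompl h 0 φ, mem_cos.2 ⟨fun v => by simp,
        fun w hw => ?_⟩⟩, ?_⟩⟩)
  · refine Subtype.ext (LinearMap.ext fun x => ?_)
    obtain ⟨a, c, rfl, _⟩ := Submodule.existsUnique_add_of_isCompl h x
    have : k.1 c - g c = k'.1 c - g c := congrArg Subtype.val (LinearMap.congr_fun e c)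
    rw [map_add, map_add, (mem_cos.1 k.2).2 a a.2, (mem_cos.1 k'.2).2 a a.2, sub_left_inj.1 this]
  · have := LinearMap.ofIsCompl_apply_left h (φ := 0) (ψ := φ) ⟨w, hw⟩
    simp only [LinearMap.add_apply, LinearMap.comp_apply, this]
    simp
  · ext x
    simp

theorem Inv.of_mem_cos {g h : End F V} {W : Submodule F V} (hW : Inv g W) (hh : h ∈ cos g W) :
    Inv h W := fun w hw => by
  rw [Submodule.mem_comap, (mem_cos.1 hh).2 w hw]; exact hW hw

theorem mapQ_of_mem_cos {g h : End F V} {W : Submodule F V} (hW : Inv g W) (hh : h ∈ cos g W) :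
    W.mapQ W h (hW.of_mem_cos hh) = W.mapQ W g hW := by
  ext v
  exact (Submodule.Quotient.eq W).2 ((mem_cos.1 hh).1 v)

open Classical in
theorem sum_cos_restrict {g h₀ : End F V} {W Y : Submodule F V} (hWY : W ⊔ Y = ⊤)
    (h₀c : h₀ ∈ cos g W) (h₀Y : Inv h₀ Y) :
    ∑ h ∈ (cos g W).filter (Inv · Y), Pw b h Y =
      ∑ k ∈ cos (h₀.restrict h₀Y) (W.comap Y.subtype), P b k := by
  obtain ⟨h1, h2⟩ := mem_cos.1 h₀c
  refine sum_bij (fun h hh => h.restrict (mem_filter.1 hh).2) (fun h hh => ?_)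
    (fun h hh h' hh' e => ?_) (fun k hk => ?_) fun h hh => (P_restrict b _).symm
  · obtain ⟨h3, h4⟩ := mem_cos.1 (mem_filter.1 hh).1
    refine mem_cos.2 ⟨fun v => ?_, fun w hw => Subtype.ext ((h4 w hw).trans (h2 w hw).symm)⟩
    have := W.sub_mem (h3 v) (h1 v)
    rwa [sub_sub_sub_cancel_right] at this
  · ext v
    obtain ⟨w, hw, y, hy, rfl⟩ := Submodule.mem_sup.1 (show v ∈ W ⊔ Y from hWY ▸ trivial)
    rw [map_add, map_add, (mem_cos.1 (mem_filter.1 hh).1).2 w hw,
      (mem_cos.1 (mem_filter.1 hh').1).2 w hw]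
    exact congrArg _ (congrArg Subtype.val (LinearMap.congr_fun e ⟨y, hy⟩))
  · obtain ⟨t, ht⟩ := (W.mkQ ∘ₗ Y.subtype).exists_rightInverse_of_surjective (by
      rw [LinearMap.range_comp, Submodule.range_subtype, Submodule.map_mkQ_eq_top, hWY])
    obtain ⟨h3, h4⟩ := mem_cos.1 hk
    have hY : ∀ y : Y, (h₀ + Y.subtype ∘ₗ (k - h₀.restrict h₀Y) ∘ₗ t ∘ₗ W.mkQ) y = k y := by
      intro y
      have := congrArg Subtype.val (h4 (y - t (W.mkQ y)) (by
        rw [Submodule.mem_comap, ← Submodule.Quotient.mk_eq_zero, ← W.mkQ_apply, map_sub, map_sub,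
          sub_eq_zero]
        exact (LinearMap.congr_fun ht (W.mkQ y)).symm))
      simp only [map_sub, Submodule.coe_sub, LinearMap.coe_restrict_apply] at this
      simp only [LinearMap.add_apply, LinearMap.comp_apply, LinearMap.sub_apply,
        Submodule.subtype_apply, Submodule.coe_sub, LinearMap.coe_restrict_apply]
      rw [add_sub_left_comm, ← this, add_sub_cancel]
    refine ⟨h₀ + Y.subtype ∘ₗ (k - h₀.restrict h₀Y) ∘ₗ t ∘ₗ W.mkQ, mem_filter.2 ⟨mem_cos.2
      ⟨fun v => ?_, fun w hw => ?_⟩, fun y hy => ?_⟩, LinearMap.ext fun y => Subtype.ext (hY y)⟩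
    · rw [LinearMap.add_apply, add_sub_right_comm]
      exact W.add_mem (h1 v) (h3 _)
    · simp [(Submodule.Quotient.mk_eq_zero W).2 hw, h2 w hw]
    · rw [Submodule.mem_comap, hY ⟨y, hy⟩]
      exact Submodule.coe_mem _

theorem cos_bot (g : End F V) : cos g ⊥ = {g} := by
  ext h
  simp only [mem_cos, Submodule.mem_bot, sub_eq_zero, mem_singleton]
  exact ⟨fun e => LinearMap.ext e.1, by rintro rfl; simp⟩

theorem sum_cos_P_aux (hb : Add b) (n : ℕ) : ∀ (V : Type u) [AddCommGroup V] [Module F V]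
    [Finite V], finrank F V = n → ∀ (g : End F V) (W : Submodule F V), Inv g W → W ≠ ⊥ → W ≠ ⊤ →
    ∑ h ∈ cos g W, P b h = 0 := by
  classical
  induction n using Nat.strong_induction_on with
  | _ n ih =>
    intro V _ _ _ hV g W hW h0 h1
    have := Fintype.ofFinite (Submodule F V)
    have key : ∑ h ∈ cos g W, P b (W.mapQ W g hW) =
        ∑ Y ∈ univ.filter (W ⊔ · = ⊤), ∑ h ∈ (cos g W).filter (Inv · Y), Pw b h Y := by
      simp only [sum_filter (fun h => Inv h _)]
      rw [sum_comm]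
      refine sum_congr rfl fun h hh => ?_
      rw [← mapQ_of_mem_cos hW hh, P_quot hb _ h1, ← sum_filter]
      refine sum_congr ?_ fun _ _ => rfl
      ext Y
      simp [and_comm]
    obtain ⟨C, hC⟩ := W.exists_isCompl
    rw [sum_sup_eq_top h0 _ (P b (W.mapQ W g hW)), sum_const, card_cos g hC, card_isCompl hC,
      nsmul_eq_mul, filter_true_of_mem fun h _ => Inv.top h] at key
    · exact left_eq_add.1 (key.trans (add_comm _ _))
    · intro Y hY
      have hm : g - W.subtype ∘ₗ W.projectionOnto Y hY ∘ₗ g ∘ₗ Y.projection W hY.symm ∈ cos g W :=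
        mem_cos.2 ⟨fun v => by simp, fun w hw => by
          simp [(Submodule.projection_apply_eq_zero_iff hY.symm).2 hw]⟩
      have hi : Inv (g - W.subtype ∘ₗ W.projectionOnto Y hY ∘ₗ g ∘ₗ Y.projection W hY.symm) Y := by
        intro y hy
        have e := Submodule.projection_apply_left hY.symm ⟨y, hy⟩
        simp only [Submodule.mem_comap, LinearMap.sub_apply, LinearMap.comp_apply, e]
        exact Submodule.sub_projection_mem hY _
      rw [sum_cos_restrict hY.sup_eq_top hm hi,
        Submodule.disjoint_iff_comap_eq_bot.1 hY.symm.disjoint, cos_bot, sum_singleton,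
        P_restrict, ← P_compl (hW.of_mem_cos hm) hi hY, mapQ_of_mem_cos hW hm]
    · intro Y h2 h3 h4
      rcases ((cos g W).filter (Inv · Y)).eq_empty_or_nonempty with e | ⟨h₀, hh⟩
      · rw [e, sum_empty]
      rw [mem_filter] at hh
      rw [sum_cos_restrict h2 hh.1 hh.2]
      refine ih _ (hV ▸ Submodule.finrank_lt h3) Y rfl _ _
        ((hW.of_mem_cos hh.1).comap Y.subtype fun _ => rfl)
        (fun e => h4 (Submodule.disjoint_iff_comap_eq_bot.2 e).symm) fun e => h1 ?_
      rw [← h2, left_eq_sup]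
      exact Submodule.comap_subtype_eq_top.1 e

/-- Primitivity. -/
theorem sum_cos_P (hb : Add b) {g : End F V} {W : Submodule F V} (hW : Inv g W) (h0 : W ≠ ⊥)
    (h1 : W ≠ ⊤) : ∑ h ∈ cos g W, P b h = 0 :=
  sum_cos_P_aux hb _ V rfl g W hW h0 h1

end Cfsg.Lib.Char.Cusp
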