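import Cfsg.Prelude.Def_Characters
import Mathlib.Tactic

/-!
# The character of a permutation representation
-/

set_option autoImplicit false

namespace Cfsg.Lib.Char

/-- The character of a permutation representation counts fixed points. -/
theorem character_ofMulAction {G : Type*} [Group G] (X : Type*) [MulAction G X] [Finite X] (g : G) :
    (Representation.ofMulAction ℂ G X).character g = (Nat.card (MulAction.fixedBy X g) : ℂ) := by
  classical
  have := Fintype.ofFinite X
  unfold Representation.character
  rw [LinearMap.trace_eq_matrix_trace ℂ (MonoidAlgebra.basis X ℂ), Matrix.trace]
  simp only [Matrix.diag_apply, LinearMap.toMatrix_apply, MonoidAlgebra.basis_apply,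
    Representation.ofMulAction_single]
  have : ∀ x : X, (MonoidAlgebra.basis X ℂ).repr (MonoidAlgebra.single (g • x) 1) x =
      if g • x = x then 1 else 0 := by
    intro x
    rw [← MonoidAlgebra.basis_apply, Module.Basis.repr_self, Finsupp.single_apply]
  simp only [this]
  rw [Finset.sum_boole, Nat.card_eq_fintype_card, Fintype.card_subtype]
  rfl

open Classical in
/-- The regular character. -/
theorem character_leftRegular {G : Type*} [Group G] [Finite G] (g : G) :
    (Representation.leftRegular ℂ G).character g = if g = 1 then (Nat.card G : ℂ) else 0 := by
  rw [character_ofMulAction]
  split_ifs with h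
  · subst h
    simp
  · have : MulAction.fixedBy G g = ∅ := by
      ext x
      simp [h]
    simp [this]

end Cfsg.Lib.Char
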