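import Cfsg.Agent.Char.Artin
import Cfsg.Agent.Char.Eigen
import Cfsg.Agent.Char.PermRep
import Cfsg.Agent.Char.Degree
import Mathlib.LinearAlgebra.Matrix.Charpoly.FiniteField
import Mathlib.LinearAlgebra.Charpoly.BaseChange
import Mathlib.LinearAlgebra.Charpoly.ToMatrix

/-!
# Cuspidal characters of `GL_n(q)`, III: the Brauer lift

For a multiplicative `θ : K → ℂ` the function `g ↦ ∑ θ (eigenvalues of g)` is a generalized
character.
-/

set_option autoImplicit false

open Module Polynomial Finset
open scoped ComplexConjugate TensorProduct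

namespace Cfsg.Lib.Char.Cusp

/-- Multiplicative functions vanishing at zero. -/
structure Mc {K : Type*} [Field K] (θ : K → ℂ) : Prop where
  zero : θ 0 = 0
  one : θ 1 = 1
  mul : ∀ x y, θ (x * y) = θ x * θ y

section Split

variable {K : Type*} [Field K] {U : Type*} [AddCommGroup U] [Module K U] {θ : K → ℂ}

/-- as a monoid homomorphism -/
def Mc.hom (h : Mc θ) : K →* ℂ := ⟨⟨θ, h.one⟩, h.mul⟩

theorem Mc.pow (h : Mc θ) (x : K) (k : ℕ) : θ (x ^ k) = θ x ^ k := map_pow h.hom x k

theorem roots_of_eigenbasis [FiniteDimensional K U] {ι : Type*} [Fintype ι] {f : End K U}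
    (b : Basis ι K U) (ε : ι → K) (h : ∀ i, f (b i) = ε i • b i) :
    f.charpoly.roots = univ.val.map ε := by
  classical
  have : LinearMap.toMatrix b b f = Matrix.diagonal ε := by
    ext i j
    rw [LinearMap.toMatrix_apply, h, map_smul, b.repr_self, Matrix.diagonal_apply]
    by_cases e : i = j
    · simp [e]
    · simp [e]
  rw [← LinearMap.charpoly_toMatrix f b, this, Matrix.charpoly_diagonal,
    ← roots_multiset_prod_X_sub_C (univ.val.map ε), Multiset.map_map]
  rfl

open Classical in
theorem card_eigen [Fintype K] {ι : Type*} [Fintype ι] {f : End K U}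
    (b : Basis ι K U) (ε : ι → K) (h : ∀ i, f (b i) = ε i • b i) (a : K) :
    Nat.card {v : U // f v = a • v} = Fintype.card K ^ #{i | ε i = a} := by
  have hr : ∀ v i, b.repr (f v) i = ε i * b.repr v i := by
    intro v i
    conv_lhs => rw [← b.sum_repr v, map_sum]
    simp [h, Finsupp.single_apply, mul_comm]
  rw [← Fintype.card_subtype, ← Fintype.card_fun, ← Nat.card_eq_fintype_card]
  refine Nat.card_congr (Equiv.ofBijective (fun v (i : {i // ε i = a}) => b.repr v.1 i)
    ⟨fun v w e => Subtype.ext (b.repr.injective (Finsupp.ext fun i => ?_)), fun c =>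
      ⟨⟨∑ i : {i // ε i = a}, c i • b i, ?_⟩, funext fun j => ?_⟩⟩)
  · by_cases hi : ε i = a
    · exact congr_fun e ⟨i, hi⟩
    · have : ∀ u : {v : U // f v = a • v}, b.repr u.1 i = 0 := by
        intro u
        have := hr u i
        rw [u.2, map_smul, Finsupp.smul_apply, smul_eq_mul] at this
        exact (mul_eq_mul_right_iff.1 this).resolve_left (Ne.symm hi)
      rw [this, this]
  · rw [map_sum, smul_sum]
    exact sum_congr rfl fun i _ => by rw [map_smul, h, i.2, smul_comm]
  · simp [Finsupp.single_apply, Subtype.val_inj]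

variable [Fintype K]

theorem exists_eigenbasis [FiniteDimensional K U] {f : End K U}
    (hf : f ^ (Fintype.card K - 1) = 1) : ∃ (b : Basis (Fin (finrank K U)) K U)
      (ε : Fin (finrank K U) → K), (∀ i, f (b i) = ε i • b i) ∧ ∀ i, ε i ≠ 0 := by
  classical
  obtain ⟨N, hN⟩ : ∃ N, Fintype.card K - 1 = N + 1 :=
    ⟨Fintype.card K - 2, by have := Fintype.one_lt_card (α := K); omega⟩
  have : ⨆ μ : K, f.eigenspace μ = ⊤ := by
    refine eq_top_iff.2 fun v _ => ?_
    have e : v = ∑ a : Kˣ, -∑ k ∈ range (N + 1), ((a : K) ^ k) • (f ^ k) v := by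
      rw [sum_neg_distrib, sum_comm]
      simp only [← sum_smul, FiniteField.sum_pow_units, hN]
      rw [sum_eq_single 0 (fun k hk h0 => ?_) (by simp)]
      · simp
      · rw [if_neg (Nat.not_dvd_of_pos_of_lt (Nat.pos_of_ne_zero h0) (mem_range.1 hk)), zero_smul]
    rw [e]
    refine Submodule.sum_mem _ fun a _ => Submodule.neg_mem _
      (Submodule.mem_iSup_of_mem (a : K)⁻¹ (Module.End.mem_eigenspace_iff.2 ?_))
    rw [eq_inv_smul_iff₀ a.ne_zero, map_sum, smul_sum]
    have h1 := sum_range_succ (fun k => ((a : K) ^ k) • (f ^ k) v) (N + 1)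
    rw [sum_range_succ', ← hN, hf, FiniteField.pow_card_sub_one_eq_one _ a.ne_zero, pow_zero,
      pow_zero, add_left_inj, hN] at h1
    rw [← h1]
    refine sum_congr rfl fun k _ => ?_
    rw [map_smul, smul_smul, pow_succ', pow_succ', Module.End.mul_apply]
  obtain ⟨b, ε, h⟩ := exists_eigenbasis_of_iSup_eigenspace this
  refine ⟨b, ε, h, fun i e => b.ne_zero i ?_⟩
  have := LinearMap.congr_fun hf (b i)
  rw [hN, pow_succ, Module.End.mul_apply, h, e, zero_smul, map_zero] at this
  exact this.symm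

variable {H : Type*} [Group H]

theorem isCharacter_lift_cyclic [FiniteDimensional K U] [Finite H] [IsCyclic H] (hθ : Mc θ)
    (σ : H →* End K U) (hH : ∀ x : H, x ^ (Fintype.card K - 1) = 1) :
    IsCharacter H fun x => ((σ x).charpoly.roots.map θ).sum := by
  obtain ⟨e, he⟩ := IsCyclic.exists_monoid_generator (α := H)
  obtain ⟨b, ε, h, -⟩ := exists_eigenbasis (f := σ e) (by rw [← map_pow, hH, map_one])
  have h1 : ∀ x i, σ x (b i) = b.repr (σ x (b i)) i • b i := by
    intro x i
    obtain ⟨k, rfl⟩ := he x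
    simp only [map_pow, pow_apply_eigenvector (h i)]
    simp
  have h2 : (fun x => ((σ x).charpoly.roots.map θ).sum) =
      ∑ i, fun x => θ (b.repr (σ x (b i)) i) := by
    funext x
    rw [roots_of_eigenbasis b _ (h1 x), Multiset.map_map, Finset.sum_apply]
    rfl
  rw [h2]
  refine isCharacter_sum _ fun i _ => (isIrrCharacter_monoidHom' (hθ.hom.comp
    ⟨⟨fun x => b.repr (σ x (b i)) i, by simp⟩, fun x y => ?_⟩)).isCharacter
  simp only
  rw [map_mul, Module.End.mul_apply, h1 y i, map_smul, map_smul, map_smul]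
  simp [mul_comm]

theorem exists_pow_expand (N m : ℕ) : ∃ r : ℕ, (N + 1) ^ m = 1 + N * m + N ^ 2 * r := by
  induction m with
  | zero => exact ⟨0, by simp⟩
  | succ m ih =>
    obtain ⟨r, hr⟩ := ih
    exact ⟨r * (N + 1) + m, by rw [pow_succ, hr]; ring⟩

theorem isGen_lift_coprime [Finite U] [Finite H] (hθ : Mc θ) (σ : H →* End K U)
    (hH : Nat.card H ∣ Fintype.card K - 1) :
    IsGeneralizedCharacter H fun x => ((σ x).charpoly.roots.map θ).sum := by
  classical
  have := Fintype.ofFinite H
  obtain ⟨c, hc⟩ := hH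
  have hpow : ∀ x : H, x ^ (Fintype.card K - 1) = 1 := fun x => by
    rw [hc, pow_mul, pow_card_eq_one', one_pow]
  have hcl : IsClassFunction H fun x => ((σ x).charpoly.roots.map θ).sum := by
    intro g h
    have : (σ (h * g * h⁻¹)).charpoly = (σ g).charpoly := by
      rw [← LinearEquiv.charpoly_conj (LinearMap.GeneralLinearGroup.toLinearEquiv
        (σ.toHomUnits h)) (σ g), map_mul, map_mul]
      rfl
    simp only [this]
  refine isGeneralizedCharacter_iff_classInner.2 ⟨hcl, fun ψ hψ => ?_⟩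
  -- rationality
  obtain ⟨z, hz⟩ : classInner ((fun _ : H => (Nat.card H : ℂ)) *
      fun x => ((σ x).charpoly.roots.map θ).sum) ψ ∈ (Int.castAddHom ℂ).range := by
    refine Brauer.classInner_mul_mem_of_mem_indSpan _ Brauer.card_mem_indSpan_isCyclic hcl
      (fun E hE _ φ hφ => ?_) hψ.isCharacter
    obtain ⟨n, hn⟩ := (isCharacter_lift_cyclic hθ (σ.comp E.subtype)
      fun x => Subtype.ext (hpow x)).exists_nat_classInner hφ.isCharacter
    exact ⟨n, by simpa using hn.symm⟩
  have hz' : classInner (fun x => ((σ x).charpoly.roots.map θ).sum) ψ = ((z / Nat.card H : ℚ) : ℂ) := by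
    have := classInner_smul_left (Nat.card H : ℂ) (fun x => ((σ x).charpoly.roots.map θ).sum) ψ
    push_cast
    rw [eq_div_iff (card_ne_zero H), mul_comm, ← this]
    exact hz.symm
  suffices IsIntegral ℤ (classInner (fun x => ((σ x).charpoly.roots.map θ).sum) ψ) by
    rw [hz'] at this ⊢
    obtain ⟨k, hk⟩ := exists_int_of_isIntegral_ratCast this
    exact ⟨k, by rw [hk]; simp⟩
  -- the permutation character of `H × Kˣ`
  let φ : H × Kˣ →* End K U :=
    { toFun := fun x => ((x.2⁻¹ : Kˣ) : K) • σ x.1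
      map_one' := by simp
      map_mul' := fun x y => by simp [smul_smul, mul_comm] }
  let _ : MulAction (H × Kˣ) U := MulAction.compHom U φ
  have hθ' : IsCharacter (H × Kˣ) fun x => conj (θ x.2) :=
    (isIrrCharacter_monoidHom' (hθ.hom.comp ((Units.coeHom K).comp
      (MonoidHom.snd H Kˣ)))).isCharacter.conj
  obtain ⟨w, hw⟩ := ((isCharacter_rep (Representation.ofMulAction ℂ (H × Kˣ) U)
    ).isGeneralizedCharacter.sub isCharacter_one.isGeneralizedCharacter).exists_int_classInner
      ((hψ.isCharacter.comp (MonoidHom.fst H Kˣ)).mul hθ').isGeneralizedCharacter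
  choose r hr using exists_pow_expand (Fintype.card K - 1)
  have hQ : Fintype.card K - 1 + 1 = Fintype.card K := Nat.sub_add_cancel Fintype.card_pos
  rw [hQ] at hr
  have hx : ∀ x : H, ∃ s : ℂ, IsIntegral ℤ s ∧ ∑ a : Kˣ,
      ((Nat.card (MulAction.fixedBy U (x, a)) : ℂ) - 1) * θ a = (Fintype.card K - 1 : ℕ) *
        ((σ x).charpoly.roots.map θ).sum + (Fintype.card K - 1 : ℕ) ^ 2 * s := by
    intro x
    obtain ⟨b, ε, h, h0⟩ := exists_eigenbasis (f := σ x) (by rw [← map_pow, hpow, map_one])
    refine ⟨∑ a : Kˣ, r #{i | ε i = a} * θ a, IsIntegral.sum _ fun a _ =>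
      (isIntegral_algebraMap (x := (r #{i | ε i = a} : ℤ))).mul
        (isIntegral_of_pow_eq_one (n := Fintype.card K - 1) ?_ ?_), ?_⟩
    · have := Fintype.one_lt_card (α := K); omega
    · rw [← hθ.pow, FiniteField.pow_card_sub_one_eq_one _ a.ne_zero, hθ.one]
    have h1 : ((σ x).charpoly.roots.map θ).sum = ∑ a : Kˣ, (#{i | ε i = a} : ℂ) * θ a := by
      rw [roots_of_eigenbasis b ε h, Multiset.map_map]
      change ∑ i, θ (ε i) = _
      rw [← sum_fiberwise univ fun i => Units.mk0 (ε i) (h0 i)]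
      refine sum_congr rfl fun a _ => ?_
      rw [sum_congr rfl (g := fun _ => θ a) fun i hi => by rw [← (mem_filter.1 hi).2]; rfl,
        sum_const, nsmul_eq_mul]
      simp only [← Units.val_inj, Units.val_mk0]
    rw [h1, mul_sum, mul_sum, ← sum_add_distrib]
    refine sum_congr rfl fun a _ => ?_
    have : Nat.card (MulAction.fixedBy U (x, a)) = Fintype.card K ^ #{i | ε i = a} := by
      rw [← card_eigen b ε h]
      refine Nat.card_congr (Equiv.subtypeEquivRight fun v => ?_)
      change ((a⁻¹ : Kˣ) : K) • σ x v = v ↔ _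
      rw [Units.val_inv_eq_inv_val, inv_smul_eq_iff₀ a.ne_zero]
    rw [this, hr]
    push_cast
    ring
  choose s hs using hx
  have hN : ((Fintype.card K - 1 : ℕ) : ℂ) ≠ 0 := by
    have := Fintype.one_lt_card (α := K)
    exact Nat.cast_ne_zero.2 (by omega)
  have key : classInner (fun x => ((σ x).charpoly.roots.map θ).sum) ψ =
      w - c * ∑ x, s x * conj (ψ x) := by
    have h1 := card_mul_classInner (fun x => ((σ x).charpoly.roots.map θ).sum) ψ
    have h2 := card_mul_classInner ((Representation.ofMulAction ℂ (H × Kˣ) U).character -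
      fun _ => 1) ((fun x => ψ (MonoidHom.fst H Kˣ x)) * fun x => conj (θ x.2))
    rw [hw, Fintype.sum_prod_type, Nat.card_prod, Nat.card_eq_fintype_card (α := Kˣ),
      Fintype.card_units, sum_congr rfl (g := fun x => ((Fintype.card K - 1 : ℕ) *
        ((σ x).charpoly.roots.map θ).sum + (Fintype.card K - 1 : ℕ) ^ 2 * s x) * conj (ψ x))
        fun x _ => ?_] at h2
    · simp only [add_mul, sum_add_distrib, mul_assoc, ← mul_sum] at h2
      rw [← h1] at h2
      apply mul_left_cancel₀ (mul_ne_zero hN (card_ne_zero H))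
      have h3 : ((Fintype.card K - 1 : ℕ) : ℂ) = Nat.card H * c := by rw [hc]; push_cast; rfl
      push_cast at h2
      linear_combination -h2 - ((Fintype.card K - 1 : ℕ) : ℂ) * (∑ x, s x * conj (ψ x)) * h3
    · rw [← (hs x).2, sum_mul]
      refine sum_congr rfl fun a _ => ?_
      simp only [Pi.sub_apply, character_ofMulAction, Pi.mul_apply, map_mul, Complex.conj_conj,
        MonoidHom.coe_fst]
      ring
  rw [key]
  refine (isIntegral_algebraMap (x := w)).sub ((isIntegral_algebraMap (x := (c : ℤ))).mul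
    (IsIntegral.sum _ fun x _ => (hs x).1.mul ?_))
  exact IsCharacter_isIntegral hψ.isCharacter.conj x

end Split

variable {F K : Type*} [Field F] [Field K] [Algebra F K]

/-- The sum of `θ` over the roots in `K`. -/
noncomputable def rs (θ : K → ℂ) (f : F[X]) : ℂ := ((f.aroots K).map θ).sum

theorem rs_eq_1' : type_of% @rs.eq_1 := @rs.eq_1

variable [Fintype F] [Fintype K] {V : Type*} [AddCommGroup V] [Module F V] [Finite V]

theorem charpoly_pow_card_pow (g : End F V) (k : ℕ) :
    (g ^ Fintype.card F ^ k).charpoly = g.charpoly := by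
  induction k with
  | zero => simp
  | succ k ih =>
    let b := finBasis F V
    rw [pow_succ, pow_mul, ← ih, ← LinearMap.charpoly_toMatrix _ b,
      ← LinearMap.charpoly_toMatrix _ b, ← FiniteField.Matrix.charpoly_pow_card
        (LinearMap.toMatrix b b (g ^ Fintype.card F ^ k)), LinearMap.toMatrix_pow]

/-- The Brauer lift. -/
theorem isGen_lift {θ : K → ℂ} (hθ : Mc θ) {G : Type*} [Group G] [Finite G] (ρ : G →* End F V)
    (hG : ∀ m, m ∣ Nat.card G → m.Coprime (Fintype.card F) → m ∣ Fintype.card K - 1) :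
    IsGeneralizedCharacter G fun g => rs θ (ρ g).charpoly := by
  have := Fintype.ofFinite G
  obtain ⟨p, hp⟩ := CharP.exists F
  obtain ⟨d, hpp, hd⟩ := FiniteField.card F p
  refine Brauer.isGeneralizedCharacter_of_forall_elementary (fun g h => ?_) fun E r hr hE => ?_
  · have : (ρ (h * g * h⁻¹)).charpoly = (ρ g).charpoly := by
      rw [← LinearEquiv.charpoly_conj (LinearMap.GeneralLinearGroup.toLinearEquiv
        (ρ.toHomUnits h)) (ρ g), map_mul, map_mul]
      rfl
    simp only [this]
  have := Brauer.isNilpotent_of_isElementary hr hE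
  obtain ⟨a, n, hN, hn, hc⟩ := Parts.exists_eq_pow_mul_coprime hpp (Nat.card_pos (α := E)).ne'
  have hdv : Nat.card E ∣ p ^ a * n := hN ▸ dvd_rfl
  have hx : ∀ x : E, x ^ (p ^ a * n) = 1 := Brauer.pow_mul_eq_one_of_card_dvd hdv
  have : Finite (K ⊗[F] V) := Module.finite_of_finite K
  let σ : (Brauer.lpartHom hc hdv).ker →* End K (K ⊗[F] V) :=
    ((Module.End.baseChangeHom F K V : End F V →* End K (K ⊗[F] V)).comp ρ).comp
      (E.subtype.comp (Subgroup.subtype _))
  have h1 := (isGen_lift_coprime hθ σ ((Brauer.card_ker_lpartHom_dvd hc hdv).trans (hG n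
    ((Dvd.intro_left _ hN.symm).trans E.card_subgroup_dvd_card)
    (hd ▸ ((Nat.coprime_comm.1 ((Nat.Prime.coprime_iff_not_dvd hpp).2 hn)).pow_right _))))).comp
      ((Brauer.rpartHom hc hdv).codRestrict _ fun x =>
        (Brauer.mem_ker_lpartHom hc hdv).2 (Parts.rpart_pow (hx x)))
  convert h1 using 2 with x
  have h2 : (ρ x).charpoly = (ρ (Parts.rpart (p ^ a) n x : E)).charpoly := by
    rw [← charpoly_pow_card_pow _ a, ← charpoly_pow_card_pow (ρ (Parts.rpart (p ^ a) n x : E)) a,
      ← map_pow, ← map_pow, ← Subgroup.coe_pow, ← Subgroup.coe_pow]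
    conv_lhs => rw [← Parts.lpart_mul_rpart hc x]
    obtain ⟨t, ht⟩ : p ^ a ∣ Fintype.card F ^ a :=
      pow_dvd_pow_of_dvd (hd ▸ dvd_pow_self p d.ne_zero) a
    rw [(Parts.commute_lpart_rpart _ _ x).mul_pow, ht, pow_mul, Parts.lpart_pow (hx x), one_pow,
      one_mul]
  rw [h2, rs, aroots_def, ← LinearMap.charpoly_baseChange]
  rfl

end Cfsg.Lib.Char.Cusp
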