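import Cfsg.Agent.Char.Cusp2
import Cfsg.Agent.Char.Cusp3

/-!
# Cuspidal characters of `GL_n(q)`, IV: `P` is a generalized character; the mean of `P deg`
-/

set_option autoImplicit false

open Module Polynomial Finset MulAction

namespace Cfsg.Lib.Char.Cusp

section Bundle

variable {G X : Type*} [Group G] [Fintype G] [MulAction G X] [Fintype X]

open Classical in
theorem indFun_stabilizer (f : X → G → ℂ) (hf : ∀ x g h, g • x = x → f (h • x) (h * g * h⁻¹) = f x g)
    (x₀ : X) (g : G) : indFun (stabilizer G x₀) (fun s => f x₀ s) g =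
      ∑ x ∈ univ.filter (fun x => x ∈ orbit G x₀ ∧ g • x = x), f x g := by
  have := Fintype.ofFinite (orbit G x₀)
  have h := sum_smul_eq_card_stabilizer_mul (G := G) (⟨x₀, mem_orbit_self x₀⟩ : orbit G x₀)
    fun x => if g • x.1 = x.1 then f x g else 0
  have e : stabilizer G (⟨x₀, mem_orbit_self x₀⟩ : orbit G x₀) = stabilizer G x₀ := by
    ext; simp [Subtype.ext_iff]
  apply mul_left_cancel₀ (card_ne_zero (stabilizer G x₀))
  rw [card_mul_indFun, ← filter_filter, sum_filter, sum_subtype (p := (· ∈ orbit G x₀)) _ (by simp),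
    ← e, ← h, e]
  refine sum_congr rfl fun y _ => ?_
  have : y⁻¹ * g * y ∈ stabilizer G x₀ ↔ g • y • x₀ = y • x₀ := by
    rw [mem_stabilizer_iff, mul_smul, mul_smul, inv_smul_eq_iff]
  change _ = if g • y • x₀ = y • x₀ then f (y • x₀) g else 0
  split_ifs with hy
  · rw [extendByZero_of_mem _ _ (this.2 hy), ← hf x₀ _ y (this.2 hy)]
    congr 1
    group
  · exact extendByZero_of_notMem _ _ (mt this.1 hy)

open Classical in
theorem isGen_bundle (f : X → G → ℂ) (hf : ∀ x g h, g • x = x → f (h • x) (h * g * h⁻¹) = f x g)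
    (hg : ∀ x, IsGeneralizedCharacter (stabilizer G x) fun s => f x s) :
    IsGeneralizedCharacter G fun g => ∑ x ∈ univ.filter (fun x => g • x = x), f x g := by
  have := Fintype.ofFinite (orbitRel.Quotient G X)
  convert isGeneralizedCharacter_sum (univ : Finset (orbitRel.Quotient G X))
    fun ω _ => isGeneralizedCharacter_indFun (hg ω.out) using 1
  funext g
  rw [Finset.sum_apply, ← sum_fiberwise _ (Quotient.mk'' : X → orbitRel.Quotient G X)]
  refine sum_congr rfl fun ω _ => ?_
  rw [indFun_stabilizer f hf, filter_filter]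
  refine sum_congr (filter_congr fun x _ => ?_) fun _ _ => rfl
  rw [and_comm, ← orbitRel_apply, ← Quotient.eq'', Quotient.out_eq']

end Bundle

variable {F : Type*} [Field F] {V : Type*} [AddCommGroup V] [Module F V] {G : Type*} [Group G]

/-- The action on subspaces. -/
@[reducible] def act (ρ : G →* End F V) : MulAction G (Submodule F V) where
  smul g W := W.map (ρ g)
  one_smul W := by change W.map (ρ 1) = W; rw [map_one]; exact Submodule.map_id W
  mul_smul g h W := by
    change W.map (ρ (g * h)) = (W.map (ρ h)).map (ρ g)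
    rw [map_mul, ← Submodule.map_comp]; rfl

theorem rep_injective (ρ : G →* End F V) (g : G) : Function.Injective (ρ g) :=
  (LinearMap.GeneralLinearGroup.toLinearEquiv (ρ.toHomUnits g)).injective

theorem finrank_map_rep (ρ : G →* End F V) (g : G) (W : Submodule F V) :
    finrank F (W.map (ρ g)) = finrank F W :=
  (Submodule.equivMapOfInjective _ (rep_injective ρ g) W).finrank_eq.symm

variable [Finite V]

theorem map_eq_iff_inv (ρ : G →* End F V) (g : G) (W : Submodule F V) :
    W.map (ρ g) = W ↔ Inv (ρ g) W := by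
  rw [Inv, ← Submodule.map_le_iff_le_comap]
  exact ⟨le_of_eq, fun h => Submodule.eq_of_le_of_finrank_eq h (finrank_map_rep ρ g W)⟩

theorem Pw_conj (b : F[X] → ℂ) (ρ : G →* End F V) {W : Submodule F V} {g : G} (h : G)
    (hg : W.map (ρ g) = W) : Pw b (ρ (h * g * h⁻¹)) (W.map (ρ h)) = Pw b (ρ g) W :=
  Pw_map b _ (rep_injective ρ h) (fun x => by
    rw [← Module.End.mul_apply, ← Module.End.mul_apply, ← map_mul, ← map_mul, inv_mul_cancel_right])
    ((map_eq_iff_inv ρ g W).1 hg)

/-- The representation of the stabilizer on the subspace. -/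
def resRep (ρ : G →* End F V) (W : Submodule F V) : @stabilizer G _ _ (act ρ) W →* End F W where
  toFun s := (ρ s).restrict ((map_eq_iff_inv ρ s W).1 s.2)
  map_one' := by ext; simp
  map_mul' s t := by ext; simp

universe u v

theorem isGen_P_aux {b : F[X] → ℂ} {Q : ℕ → Prop} (hQ : ∀ m k, m ∣ k → Q k → Q m)
    (hb : ∀ (V : Type u) [AddCommGroup V] [Module F V] [Finite V] (G : Type v) [Group G] [Finite G]
      (ρ : G →* End F V), Q (Nat.card G) → IsGeneralizedCharacter G fun g => b (ρ g).charpoly)
    (n : ℕ) : ∀ (V : Type u) [AddCommGroup V] [Module F V] [Finite V] (G : Type v) [Group G]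
      [Finite G] (ρ : G →* End F V), finrank F V = n → Q (Nat.card G) →
      IsGeneralizedCharacter G fun g => P b (ρ g) := by
  classical
  induction n using Nat.strong_induction_on with
  | _ n ih =>
    intro V _ _ _ G _ _ ρ hV hG
    have := Fintype.ofFinite G
    have := Fintype.ofFinite (Submodule F V)
    letI := act ρ
    have h1 := isGen_bundle (G := G) (fun (W : Submodule F V) g =>
      if W < ⊤ then Pw b (ρ g) W else 0) (fun W g h hg => ?_) fun W => ?_
    · convert (hb V G ρ hG).sub h1 using 2 with g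
      rw [P_eq, Pi.sub_apply, ← sum_filter]
      congr 1
      refine sum_congr ?_ fun _ _ => rfl
      ext W
      simp only [mem_filter, mem_invs, mem_univ, true_and, ← map_eq_iff_inv]
      rfl
    · have : h • W < ⊤ ↔ W < ⊤ := by
        have e : finrank F (h • W : Submodule F V) = finrank F W := finrank_map_rep ρ h W
        simp only [lt_top_iff_ne_top]
        exact not_congr ⟨fun e' => Submodule.eq_top_of_finrank_eq (by rw [← e, e', finrank_top]),
          fun e' => Submodule.eq_top_of_finrank_eq (by rw [e, e', finrank_top])⟩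
      simp only [this]
      split_ifs
      · exact Pw_conj b ρ h hg
      · rfl
    · split_ifs with hW
      · convert ih _ (hV ▸ Submodule.finrank_lt hW.ne) W _ (resRep ρ W) rfl
          (hQ _ _ (Subgroup.card_subgroup_dvd_card _) hG) using 2 with s
        exact (P_restrict b ((map_eq_iff_inv ρ s W).1 s.2)).symm
      · exact isGeneralizedCharacter_zero

theorem isGen_P {K : Type*} [Field K] [Algebra F K] [Fintype F] [Fintype K] {θ : K → ℂ}
    (hθ : Mc θ) [Finite G] (ρ : G →* End F V)
    (hG : ∀ m, m ∣ Nat.card G → m.Coprime (Fintype.card F) → m ∣ Fintype.card K - 1) :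
    IsGeneralizedCharacter G fun g => P (rs θ) (ρ g) :=
  isGen_P_aux (Q := fun k => ∀ m, m ∣ k → m.Coprime (Fintype.card F) → m ∣ Fintype.card K - 1)
    (fun _ _ h h' m hm => h' m (hm.trans h)) (fun _ _ _ _ _ _ _ ρ h => isGen_lift hθ ρ h) _ V G ρ
    rfl hG

theorem add_deg : Add fun f : F[X] => (f.natDegree : ℂ) := fun f h hf hh => by
  simp only [hf.natDegree_mul hh, Nat.cast_add]

theorem sum_P_deg_aux (n : ℕ) : ∀ (V : Type u) [AddCommGroup V] [Module F V] [Finite V]
    [Fintype (End F V)ˣ], finrank F V = n → 0 < n →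
    ∑ g : (End F V)ˣ, P (fun f => (f.natDegree : ℂ)) (g : End F V) = Nat.card (End F V)ˣ := by
  classical
  induction n using Nat.strong_induction_on with
  | _ n ih =>
    intro V _ _ _ _ hV hn
    have := Fintype.ofFinite (Submodule F V)
    let ρ := Units.coeHom (End F V)
    letI := act ρ
    have h1 : ∀ k ∈ Ico 1 n, ∑ g : (End F V)ˣ, ∑ W ∈ (invs (g : End F V)).filter
        (fun W : Submodule F V => finrank F W = k), Pw (fun f => (f.natDegree : ℂ)) (g : End F V) W =
        Nat.card (End F V)ˣ := by
      intro k hk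
      rw [mem_Ico] at hk
      obtain ⟨W₀, hW₀⟩ : ∃ W₀ : Submodule F V, finrank F W₀ = k := by
        obtain ⟨v, hv⟩ := exists_linearIndependent_of_le_finrank (R := F) (M := V) (n := k)
          (by omega)
        exact ⟨_, (finrank_span_eq_card hv).trans (Fintype.card_fin k)⟩
      have := Fintype.ofFinite (End F W₀)ˣ
      have := Fintype.ofFinite (stabilizer (End F V)ˣ W₀)
      have hext : ∀ {W : Submodule F V} (e : W₀ ≃ₗ[F] W), ∃ g : (End F V)ˣ,
          (∀ x : W₀, (g : End F V) x = e x) ∧ g • W₀ = W := by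
        intro W e
        obtain ⟨g, hg⟩ := Submodule.exists_linearEquiv_restrict_eq e
        refine ⟨LinearMap.GeneralLinearGroup.ofLinearEquiv g, fun x => (hg x).symm, ?_⟩
        refine Submodule.eq_of_le_of_finrank_eq ?_ ((finrank_map_rep ρ _ W₀).trans e.finrank_eq)
        rintro _ ⟨x, hx, rfl⟩
        exact (hg ⟨x, hx⟩) ▸ (e ⟨x, hx⟩).2
      have hs : Function.Surjective (resRep ρ W₀).toHomUnits := by
        intro t
        obtain ⟨g, h1, h2⟩ := hext (LinearMap.GeneralLinearGroup.toLinearEquiv t)
        exact ⟨⟨g, h2⟩, Units.ext (LinearMap.ext fun x => Subtype.ext (h1 x))⟩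
      have h2 := sum_indFun (stabilizer (End F V)ˣ W₀) fun s =>
        Pw (fun f => (f.natDegree : ℂ)) (ρ s) W₀
      have h3 := sum_comp_surjective _ hs fun t => P (fun f => (f.natDegree : ℂ)) (t : End F W₀)
      have h4 := sum_comp_surjective _ hs fun _ => 1
      simp only [sum_const, card_univ, nsmul_eq_mul, mul_one, ← Nat.card_eq_fintype_card] at h4
      rw [ih k hk.2 W₀ hW₀ (by omega), ← h4] at h3
      rw [sum_congr rfl fun (s : stabilizer (End F V)ˣ W₀) _ =>
        (P_restrict _ ((map_eq_iff_inv ρ s W₀).1 s.2)).symm] at h2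
      rw [← Subgroup.index_mul_card (stabilizer (End F V)ˣ W₀), Nat.cast_mul, ← h3]
      refine Eq.trans (sum_congr rfl fun g _ => ?_) h2
      rw [indFun_stabilizer (fun (W : Submodule F V) g => Pw (fun f => (f.natDegree : ℂ)) (ρ g) W)
        fun W g h hg => Pw_conj _ ρ h hg]
      refine sum_congr ?_ fun _ _ => rfl
      ext W
      simp only [mem_filter, mem_invs, mem_univ, true_and]
      rw [and_comm]
      refine and_congr ⟨fun e => ?_, ?_⟩ (map_eq_iff_inv ρ g W).symm
      · obtain ⟨g, -, hg⟩ := hext (LinearEquiv.ofFinrankEq _ _ (hW₀.trans e.symm))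
        exact ⟨g, hg⟩
      · rintro ⟨g, rfl⟩
        exact (finrank_map_rep ρ g W₀).trans hW₀
    have h2 : ∀ g : (End F V)ˣ, P (fun f => (f.natDegree : ℂ)) (g : End F V) = n - ∑ k ∈ Ico 1 n,
        ∑ W ∈ (invs (g : End F V)).filter (fun W : Submodule F V => finrank F W = k),
          Pw (fun f => (f.natDegree : ℂ)) (g : End F V) W := by
      intro g
      rw [P_eq, LinearMap.charpoly_natDegree, hV, sum_fiberwise_eq_sum_filter]
      congr 1
      symm
      refine sum_subset (fun W => ?_) fun W h1 h2 => ?_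
      · simp only [mem_filter, mem_Ico, and_imp]
        exact fun h1 _ h2 => ⟨h1, lt_top_iff_ne_top.2 fun e => by
          rw [e, finrank_top] at h2; omega⟩
      · simp only [mem_filter, mem_Ico, not_and] at h1 h2
        have := Submodule.finrank_lt h1.2.ne
        rw [Submodule.finrank_eq_zero.1 (show finrank F W = 0 by have := h2 h1.1; omega),
          Pw_bot add_deg]
    simp only [h2]
    rw [sum_sub_distrib, sum_comm, sum_congr rfl h1]
    simp only [sum_const, card_univ, nsmul_eq_mul, Nat.card_Ico, Nat.card_eq_fintype_card,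
      Nat.cast_sub (show 1 ≤ n from hn)]
    ring

theorem sum_P_deg [Fintype (End F V)ˣ] (h : 0 < finrank F V) :
    ∑ g : (End F V)ˣ, P (fun f => (f.natDegree : ℂ)) (g : End F V) = Nat.card (End F V)ˣ :=
  sum_P_deg_aux _ V rfl h

end Cfsg.Lib.Char.Cusp
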