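import Cfsg.Agent.Char.Cusp4
import Mathlib.FieldTheory.Finite.Extension
import Mathlib.LinearAlgebra.Eigenspace.Charpoly
import Mathlib.LinearAlgebra.Eigenspace.Zero

/-!
# Cuspidal characters of `GL_n(q)`, V: inner products
-/

set_option autoImplicit false

open Module Polynomial Finset
open scoped ComplexConjugate TensorProduct

namespace Cfsg.Lib.Char.Cusp

section Ortho

variable {F : Type*} [Field F] {V : Type*} [AddCommGroup V] [Module F V] [Finite V]
  [Fintype (End F V)ˣ] {b : F[X] → ℂ}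

open Classical in
theorem sum_P_mul (hb : Add b) (hu : ∀ g : End F V, ¬ IsUnit g → P b g = 0) {W : Submodule F V}
    (h0 : W ≠ ⊥) (h1 : W ≠ ⊤) (u : End F V → ℂ) (hc : ∀ g h, Inv g W → h ∈ cos g W → u h = u g) :
    ∑ g : (End F V)ˣ, (if Inv (g : End F V) W then P b (g : End F V) * u g else 0) = 0 := by
  have := Fintype.ofFinite (End F V)
  rw [sum_of_injOn (t := univ) (g := fun g : End F V => if Inv g W then P b g * u g else 0)
    Units.val Units.val_injective.injOn (fun _ _ => mem_coe.2 (mem_univ _))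
    (fun g _ hg => by rw [hu g fun ⟨t, e⟩ => hg ⟨t, mem_coe.2 (mem_univ _), e⟩]; simp)
    fun _ _ => rfl, ← sum_filter, ← sum_fiberwise_of_maps_to fun g hg =>
      mem_image_of_mem (fun g : End F V => (g ∘ₗ W.subtype, W.mkQ ∘ₗ g)) hg]
  refine sum_eq_zero fun y hy => ?_
  obtain ⟨g, hg, rfl⟩ := mem_image.1 hy
  have hg := (mem_filter.1 hg).2
  have := congrArg (· * u g) (sum_cos_P hb hg h0 h1)
  simp only [sum_mul, zero_mul] at this
  rw [← this]
  refine sum_congr ?_ fun h hh => by rw [hc g h hg hh]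
  ext h
  have e : (h ∘ₗ W.subtype, W.mkQ ∘ₗ h) = (g ∘ₗ W.subtype, W.mkQ ∘ₗ g) ↔ h ∈ cos g W := by
    simp only [mem_cos, Prod.mk.injEq, LinearMap.ext_iff, LinearMap.comp_apply,
      Submodule.subtype_apply, Subtype.forall, Submodule.mkQ_apply, Submodule.Quotient.eq]
    exact and_comm
  simp only [mem_filter, mem_univ, true_and, e]
  exact ⟨fun h => h.2, fun h => ⟨hg.of_mem_cos h, h⟩⟩

theorem sum_P_mul_conj (hb : Add b) (hu : ∀ g : End F V, ¬ IsUnit g → P b g = 0) {b' : F[X] → ℂ}
    (hb' : Add b') : ∑ g : (End F V)ˣ, P b (g : End F V) * conj (P b' (g : End F V)) =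
      ∑ g : (End F V)ˣ, P b (g : End F V) * conj (b' (g : End F V).charpoly) := by
  classical
  have := Fintype.ofFinite (Submodule F V)
  have h : ∀ g : End F V, P b g * conj (∑ Y ∈ (invs g).filter (· < ⊤), Pw b' g Y) =
      ∑ Y ∈ univ.filter (· < ⊤), if Inv g Y then P b g * conj (Pw b' g Y) else 0 := by
    intro g
    rw [map_sum, mul_sum, ← sum_filter]
    refine sum_congr ?_ fun _ _ => rfl
    ext Y
    simp [and_comm]
  simp only [P_eq b', map_sub, mul_sub, sum_sub_distrib, h]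
  rw [sum_comm, sub_eq_self]
  refine sum_eq_zero fun W hW => ?_
  by_cases h0 : W = ⊥
  · simp [h0, Pw_bot hb']
  refine sum_P_mul hb hu h0 (mem_filter.1 hW).2.ne (fun g => conj (Pw b' g W)) fun g h hg hh => ?_
  rw [← P_restrict b' hg, ← P_restrict b' (hg.of_mem_cos hh)]
  congr 2
  ext w
  exact (mem_cos.1 hh).2 w w.2

end Ortho

variable {F K : Type*} [Field F] [Field K] [Algebra F K]

theorem rs_add (θ : K → ℂ) : Add (rs (F := F) θ) := fun f h hf hh => by
  rw [rs, aroots_mul (hf.mul hh).ne_zero, Multiset.map_add, Multiset.sum_add]; rfl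

theorem rs_congr {θ θ' : K → ℂ} {f : F[X]} (h : ∀ a, aeval a f = 0 → θ a = θ' a) :
    rs θ f = rs θ' f :=
  congrArg _ (Multiset.map_congr rfl fun a ha => h a (mem_aroots'.1 ha).2)

theorem rs_const (c : ℂ) {f : F[X]} (h : (f.map (algebraMap F K)).Splits) :
    rs (fun _ : K => c) f = f.natDegree * c := by
  rw [rs, Multiset.map_const', Multiset.sum_replicate, aroots_def, ← h.natDegree_eq_card_roots,
    natDegree_map, nsmul_eq_mul]

theorem rs_eq_zero {θ : K → ℂ} {f : F[X]} (h : ∀ a, aeval a f = 0 → θ a = 0) : rs θ f = 0 := by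
  rw [rs_congr h, rs]; simp

theorem rs_sum {ι : Type*} (s : Finset ι) (θ : ι → K → ℂ) (f : F[X]) :
    rs (fun a => ∑ i ∈ s, θ i a) f = ∑ i ∈ s, rs (θ i) f := by
  simp only [rs]
  induction f.aroots K using Multiset.induction_on with
  | empty => simp
  | cons a m ih => simp [ih, sum_add_distrib]

open Classical in
/-- Point masses. -/
noncomputable def dl (μ : K) : K → ℂ := fun a => if a = μ then 1 else 0

theorem dl_eq_1' : type_of% @dl.eq_1 := @dl.eq_1

theorem dl_ne {μ a : K} (h : a ≠ μ) : dl μ a = 0 := if_neg h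

theorem dl_self (μ : K) : dl μ μ = 1 := if_pos rfl

theorem eq_pow_minpoly {μ : K} (hμ : IsIntegral F μ) (n : ℕ) : ∀ p : F[X], p.natDegree = n →
    p.Monic → (p.map (algebraMap F K)).Splits →
    (∀ a : K, aeval a p = 0 → aeval a (minpoly F μ) = 0) → ∃ k, p = minpoly F μ ^ k := by
  induction n using Nat.strong_induction_on with
  | _ n ih =>
    intro p hn hp hs h
    by_cases h0 : p.natDegree = 0
    · exact ⟨0, by rw [hp.natDegree_eq_zero.1 h0, pow_zero]⟩
    obtain ⟨a, ha⟩ := hs.exists_eval_eq_zero (by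
      rw [degree_map]; exact degree_ne_of_natDegree_ne h0)
    rw [eval_map_algebraMap] at ha
    obtain ⟨p', rfl⟩ : minpoly F μ ∣ p := by
      rw [minpoly.eq_of_irreducible_of_monic (minpoly.irreducible hμ) (h a ha) (minpoly.monic hμ)]
      exact minpoly.dvd F a ha
    have hm := (minpoly.monic hμ).of_mul_monic_left hp
    obtain ⟨k, hk⟩ := ih _ (by
      rw [← hn, (minpoly.monic hμ).natDegree_mul hm]
      exact Nat.lt_add_of_pos_left (minpoly.natDegree_pos hμ)) p' rfl hm
      (hs.of_dvd (hp.map _).ne_zero (Polynomial.map_dvd _ (dvd_mul_left _ _)))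
      fun a ha => h a (by rw [map_mul, ha, mul_zero])
    exact ⟨k + 1, by rw [pow_succ', ← hk]⟩

variable [Fintype F] [Fintype K]

theorem pow_eq_self_iff (μ : K) (n : ℕ) :
    μ ^ Fintype.card F ^ n = μ ↔ (minpoly F μ).natDegree ∣ n := by
  rw [(minpoly.irreducible (IsIntegral.of_finite F μ)).natDegree_dvd_iff_dvd_X_pow_card_pow_sub_X,
    minpoly.dvd_iff, Nat.card_eq_fintype_card]
  simp [sub_eq_zero]

theorem rs_frob (θ : K → ℂ) {p : F[X]} (hs : (p.map (algebraMap F K)).Splits) (j : ℕ) :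
    rs (fun a => θ (a ^ Fintype.card F ^ j)) p = rs θ p := by
  have h := hs.roots_map ((FiniteField.frobeniusAlgHom F K ^ j : K →ₐ[F] K) : K →+* K)
  rw [Polynomial.map_map, AlgHom.comp_algebraMap] at h
  rw [rs, rs, aroots_def]
  conv_rhs => rw [h, Multiset.map_map]
  congr 2
  funext a
  simp [AlgHom.coe_pow, FiniteField.coe_frobeniusAlgHom, pow_iterate]

theorem rs_primary (θ : K → ℂ) {μ : K} {p : F[X]} (hp : p.Monic) (hn : 0 < p.natDegree)
    (hs : (p.map (algebraMap F K)).Splits)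
    (h : ∀ a : K, aeval a p = 0 → aeval a (minpoly F μ) = 0) :
    μ ^ Fintype.card F ^ p.natDegree = μ ∧
      rs θ p = ∑ j ∈ range p.natDegree, θ (μ ^ Fintype.card F ^ j) := by
  have hμ := IsIntegral.of_finite F μ
  have h1 : μ ^ Fintype.card F ^ p.natDegree = μ := by
    obtain ⟨k, hk⟩ := eq_pow_minpoly hμ _ p rfl hp hs h
    rw [pow_eq_self_iff, hk, natDegree_pow]
    exact dvd_mul_left _ _
  refine ⟨h1, mul_left_cancel₀ (Nat.cast_ne_zero.2 hn.ne') ?_⟩
  have h2 : ∀ i, ∑ j ∈ range p.natDegree, θ ((μ ^ Fintype.card F ^ i) ^ Fintype.card F ^ j) =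
      ∑ j ∈ range p.natDegree, θ (μ ^ Fintype.card F ^ j) := by
    intro i
    induction i with
    | zero => simp
    | succ i ih =>
      have e := sum_range_succ (fun j => θ ((μ ^ Fintype.card F ^ i) ^ Fintype.card F ^ j))
        p.natDegree
      rw [sum_range_succ', pow_right_comm μ _ (_ ^ p.natDegree), h1, pow_zero, pow_one,
        add_left_inj, ih] at e
      rw [← e]
      refine sum_congr rfl fun j _ => ?_
      simp only [← pow_mul]
      congr 2
      ring
  obtain ⟨r, hr⟩ := CharP.exists F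
  have : Fact r.Prime := ⟨CharP.char_is_prime F r⟩
  have h3 : rs (fun a => ∑ j ∈ range p.natDegree, θ (a ^ Fintype.card F ^ j)) p =
      rs (fun _ : K => ∑ j ∈ range p.natDegree, θ (μ ^ Fintype.card F ^ j)) p := by
    refine rs_congr fun a ha => ?_
    obtain ⟨σ, rfl⟩ := minpoly.exists_algEquiv_of_root' hμ.isAlgebraic (h a ha)
    obtain ⟨i, hi⟩ := FiniteField.exists_forall_apply_eq_pow F r K σ
    rw [hi, Nat.card_eq_fintype_card, h2]
  rw [rs_const _ hs, rs_sum] at h3
  rw [← h3]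
  simp [rs_frob θ hs]

variable {V : Type*} [AddCommGroup V] [Module F V] [Finite V]

omit [Fintype F] in
theorem P_rs_eq_sum (θ : K → ℂ) (g : End F V) :
    P (rs θ) g = ∑ μ, θ μ * P (rs (dl μ)) g := by
  have : rs (F := F) θ = fun f => ∑ μ, θ μ * rs (dl μ) f := by
    funext f
    have h : θ = fun a => ∑ μ, θ μ * dl μ a := by
      funext a
      rw [sum_eq_single a (fun μ _ h => by rw [dl_ne h.symm, mul_zero]) (by simp), dl_self, mul_one]
    conv_lhs => rw [h, rs_sum]
    simp only [rs, Multiset.sum_map_mul_left]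
  rw [this]
  exact Pw_sum _ _ _ (Inv.top g)

omit [Fintype F] [Fintype K]

theorem exists_eigen {g : End F V} {a : K} (ha : aeval a g.charpoly = 0) :
    ∃ v : K ⊗[F] V, v ≠ 0 ∧ ∀ f : F[X], (aeval g f).baseChange K v = aeval a f • v := by
  obtain ⟨v, hv⟩ := ((Module.End.hasEigenvalue_iff_isRoot_charpoly (g.baseChange K) a).2 (by
    rw [LinearMap.charpoly_baseChange, IsRoot.def, eval_map_algebraMap, ha])).exists_hasEigenvector
  refine ⟨v, hv.2, fun f => ?_⟩
  rw [← eval_map_algebraMap f a, ← Module.End.aeval_apply_of_hasEigenvector hv, aeval_map_algebraMap]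
  exact LinearMap.congr_fun (aeval_algHom_apply (Module.End.baseChangeHom F K V) g f).symm v

theorem P_rs_eq_zero {θ : K → ℂ} {g : End F V} (h : ∀ a, aeval a g.charpoly = 0 → θ a = 0) :
    P (rs θ) g = 0 :=
  Pw_eq_zero (fun _ _ hf => rs_eq_zero fun a ha => h a (aeval_eq_zero_of_dvd_aeval_eq_zero hf ha))
    (Inv.top g)

theorem P_rs_nonunit {θ : K → ℂ} (h0 : θ 0 = 0) (g : End F V) (hg : ¬ IsUnit g) :
    P (rs θ) g = 0 := by
  by_cases h : IsNilpotent g
  · refine P_rs_eq_zero fun a ha => ?_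
    rw [h.charpoly_eq_X_pow_finrank, map_pow, aeval_X] at ha
    rw [eq_zero_of_pow_eq_zero ha, h0]
  · exact P_eq_zero_of_aeval (rs_add θ) X (by rwa [aeval_X]) (by rwa [aeval_X])

theorem root_of_P_ne_zero {μ : K} {g : End F V} (h : P (rs (dl μ)) g ≠ 0) (a : K)
    (ha : aeval a g.charpoly = 0) : aeval a (minpoly F μ) = 0 := by
  have h1 : aeval μ g.charpoly = 0 := by
    by_contra h1
    exact h (P_rs_eq_zero fun a ha => dl_ne fun e => h1 (e ▸ ha))
  have h2 : ¬ IsUnit (aeval g (minpoly F μ)) := by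
    intro hu
    obtain ⟨v, hv, e⟩ := exists_eigen h1
    have := e (minpoly F μ)
    rw [minpoly.aeval, zero_smul] at this
    exact hv (((Module.End.isUnit_iff _).1 (hu.map (Module.End.baseChangeHom F K V))).1
      (this.trans (map_zero _).symm))
  obtain ⟨N, hN⟩ : IsNilpotent (aeval g (minpoly F μ)) := by
    by_contra h3
    exact h (P_eq_zero_of_aeval (rs_add _) _ h3 h2)
  obtain ⟨v, hv, e⟩ := exists_eigen ha
  have := e (minpoly F μ ^ N)
  rw [map_pow, hN, map_pow, LinearMap.baseChange_zero, LinearMap.zero_apply] at this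
  exact eq_zero_of_pow_eq_zero ((smul_eq_zero.1 this.symm).resolve_right hv)

end Cfsg.Lib.Char.Cusp
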