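import Cfsg.Agent.Char.Cusp5

/-!
# Cuspidal characters of `GL_n(q)`, VI: the scalar products of the `P (rs θ)`
-/

set_option autoImplicit false

open Module Polynomial Finset
open scoped ComplexConjugate IntermediateField

namespace Cfsg.Lib.Char.Cusp

variable {F K : Type*} [Field F] [Field K] [Algebra F K] {V : Type*} [AddCommGroup V] [Module F V]
  [Finite V]

theorem P_congr_fun {b b' : F[X] → ℂ} {g : End F V}
    (h : ∀ f, f.Monic → f ∣ g.charpoly → b f = b' f) : P b g = P b' g :=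
  Pw_unique (fun W hW => by rw [sum_Pw _ hW, h _ (cp_monic g W) (cp_dvd hW)]) (Inv.top g)

open Classical in
theorem rs_dl (μ : K) (f : F[X]) : rs (dl μ) f = (f.aroots K).count μ := by
  rw [rs]
  induction f.aroots K using Multiset.induction_on with
  | empty => simp
  | cons a m ih =>
    rw [Multiset.map_cons, Multiset.sum_cons, ih, Multiset.count_cons, dl]
    simp only [eq_comm (a := μ)]
    push_cast
    ring

theorem exists_P_ne_zero {μ : K} (hμ : IsIntegral F μ) (h : (minpoly F μ).natDegree = finrank F V) :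
    ∃ g : End F V, P (rs (dl μ)) g ≠ 0 := by
  classical
  have := IntermediateField.adjoin.finiteDimensional hμ
  let e : F⟮μ⟯ ≃ₗ[F] V := LinearEquiv.ofFinrankEq _ _ ((IntermediateField.adjoin.finrank hμ).trans h)
  let g₀ : End F F⟮μ⟯ := Algebra.lmul F F⟮μ⟯ (IntermediateField.AdjoinSimple.gen F μ)
  have h1 : aeval μ (e.conj g₀).charpoly = 0 := by
    have h2 := LinearMap.aeval_self_charpoly g₀
    rw [aeval_algHom_apply, map_eq_zero_iff _ Algebra.lmul_injective] at h2
    have h3 := aeval_algebraMap_apply K (IntermediateField.AdjoinSimple.gen F μ) g₀.charpoly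
    rwa [h2, map_zero, IntermediateField.AdjoinSimple.algebraMap_gen, ← e.charpoly_conj] at h3
  refine ⟨e.conj g₀, ?_⟩
  rw [P_eq, sum_eq_zero, sub_zero, rs_dl, Nat.cast_ne_zero, Multiset.count_ne_zero]
  · exact mem_aroots.2 ⟨(LinearMap.charpoly_monic _).ne_zero, h1⟩
  intro Y hY
  rw [mem_filter, mem_invs] at hY
  rw [← P_restrict _ hY.1]
  refine P_rs_eq_zero fun a ha => dl_ne fun e' => ?_
  have := natDegree_le_of_dvd (minpoly.dvd F μ (e' ▸ ha)) (LinearMap.charpoly_monic _).ne_zero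
  rw [h, LinearMap.charpoly_natDegree] at this
  exact this.not_gt (Submodule.finrank_lt hY.2.ne)

variable [Fintype (End F V)ˣ]

variable (F V) in
/-- The total mass of `P` at `μ`. -/
noncomputable def mass (μ : K) : ℂ := ∑ g : (End F V)ˣ, P (rs (dl μ)) (g : End F V)

theorem mass_eq_1' : type_of% @mass.eq_1 := @mass.eq_1

variable [Fintype K]

theorem sum_P_rs (θ : K → ℂ) :
    ∑ g : (End F V)ˣ, P (rs θ) (g : End F V) = ∑ μ, θ μ * mass F V μ := by
  simp only [P_rs_eq_sum θ, mass, mul_sum]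
  exact sum_comm

open Classical in
theorem sum_mass (hn : 0 < finrank F V)
    (hs : ∀ g : End F V, (g.charpoly.map (algebraMap F K)).Splits) :
    ∑ μ : K, (if μ = 0 then 0 else 1) * mass F V μ = Nat.card (End F V)ˣ := by
  rw [← sum_P_rs, ← sum_P_deg hn]
  refine sum_congr rfl fun g _ => P_congr_fun fun f _ hf => ?_
  rw [rs_congr (θ' := fun _ => 1) fun a ha => if_neg fun e => ?_,
    rs_const _ ((hs g).of_dvd ((LinearMap.charpoly_monic _).map _).ne_zero
      (Polynomial.map_dvd _ hf)), mul_one]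
  obtain ⟨v, hv, h⟩ := exists_eigen (aeval_eq_zero_of_dvd_aeval_eq_zero hf ha)
  have := h X
  rw [aeval_X, aeval_X, e, zero_smul] at this
  exact hv (((Module.End.isUnit_iff _).1 (g.isUnit.map (Module.End.baseChangeHom F K V))).1
    (this.trans (map_zero _).symm))

variable [Fintype F]

theorem sum_P_P (hn : 0 < finrank F V)
    (hs : ∀ g : End F V, (g.charpoly.map (algebraMap F K)).Splits) {θ : K → ℂ} (h0 : θ 0 = 0)
    (θ' : K → ℂ) : ∑ g : (End F V)ˣ, P (rs θ) (g : End F V) * conj (P (rs θ') (g : End F V)) =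
      ∑ μ, θ μ * conj (∑ j ∈ range (finrank F V), θ' (μ ^ Fintype.card F ^ j)) * mass F V μ := by
  rw [sum_P_mul_conj (rs_add θ) (P_rs_nonunit h0) (rs_add θ')]
  simp only [P_rs_eq_sum θ, mass, mul_sum, sum_mul]
  rw [sum_comm]
  refine sum_congr rfl fun μ _ => sum_congr rfl fun g _ => ?_
  by_cases h : P (rs (dl μ)) (g : End F V) = 0
  · simp [h]
  have := (rs_primary θ' (LinearMap.charpoly_monic _) (by rwa [LinearMap.charpoly_natDegree])
    (hs g) (root_of_P_ne_zero h)).2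
  rw [this, LinearMap.charpoly_natDegree]
  ring

theorem mass_supp (hn : 0 < finrank F V)
    (hs : ∀ g : End F V, (g.charpoly.map (algebraMap F K)).Splits) {μ : K} (h : mass F V μ ≠ 0) :
    μ ^ Fintype.card F ^ finrank F V = μ := by
  obtain ⟨g, -, hg⟩ := exists_ne_zero_of_sum_ne_zero h
  have := (rs_primary (fun _ => 0) (LinearMap.charpoly_monic _)
    (by rwa [LinearMap.charpoly_natDegree]) (hs g) (root_of_P_ne_zero hg)).1
  rwa [LinearMap.charpoly_natDegree] at this

theorem mass_real (hn : 0 < finrank F V)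
    (hs : ∀ g : End F V, (g.charpoly.map (algebraMap F K)).Splits) {μ : K} (h0 : μ ≠ 0) :
    ∃ r : ℝ, mass F V μ = r ∧ 0 ≤ r ∧ ((minpoly F μ).natDegree = finrank F V → r ≠ 0) := by
  classical
  have h := sum_P_P hn hs (dl_ne h0.symm) (dl μ)
  rw [sum_eq_single μ (fun ν _ h => by rw [dl_ne h, zero_mul, zero_mul]) (by simp), dl_self,
    one_mul] at h
  simp only [dl, sum_boole, map_natCast, Complex.mul_conj, ← Complex.ofReal_sum] at h
  have hc : 0 < #{j ∈ range (finrank F V) | μ ^ Fintype.card F ^ j = μ} :=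
    card_pos.2 ⟨0, by simpa using hn⟩
  have hc' : (#{j ∈ range (finrank F V) | μ ^ Fintype.card F ^ j = μ} : ℂ) ≠ 0 :=
    Nat.cast_ne_zero.2 hc.ne'
  refine ⟨(∑ g : (End F V)ˣ, Complex.normSq (P (rs (dl μ)) (g : End F V))) /
    #{j ∈ range (finrank F V) | μ ^ Fintype.card F ^ j = μ}, ?_,
    div_nonneg (sum_nonneg fun _ _ => Complex.normSq_nonneg _) (Nat.cast_nonneg _), fun hd => ?_⟩
  · rw [Complex.ofReal_div, Complex.ofReal_natCast, eq_div_iff hc', mul_comm]
    exact h.symm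
  · obtain ⟨g, hg⟩ := exists_P_ne_zero (IsIntegral.of_finite F μ) hd
    obtain ⟨g, rfl⟩ : IsUnit g := by
      by_contra hu
      exact hg (P_rs_nonunit (dl_ne h0.symm) g hu)
    refine (div_pos (sum_pos' (fun _ _ => Complex.normSq_nonneg _) ⟨g, mem_univ _, ?_⟩)
      (Nat.cast_pos.2 hc)).ne'
    exact Complex.normSq_pos.2 hg

omit [Fintype K] in
theorem natDegree_minpoly [Finite K] {n : ℕ} {γ : K} (hγ : IsPrimitiveRoot γ (Fintype.card F ^ n - 1))
    (hn : 0 < n) {k : ℕ} (hk : k = 1 ∨ k = 2) : (minpoly F (γ ^ k)).natDegree = n := by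
  have := Fintype.ofFinite K
  have hq := Fintype.one_lt_card (α := F)
  have hN : 0 < Fintype.card F ^ n - 1 := Nat.sub_pos_of_lt (Nat.one_lt_pow hn.ne' hq)
  have hp : ∀ d, Fintype.card F ^ d = (Fintype.card F ^ d - 1) + 1 := fun d =>
    (Nat.sub_add_cancel (Nat.one_le_pow _ _ (by omega))).symm
  have h1 : (minpoly F (γ ^ k)).natDegree ∣ n := by
    rw [← pow_eq_self_iff, hp, pow_succ, pow_right_comm, hγ.pow_eq_one, one_pow, one_mul]
  refine le_antisymm (Nat.le_of_dvd hn h1) (not_lt.1 fun hlt => ?_)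
  have h2 := (pow_eq_self_iff (F := F) (γ ^ k) _).2 dvd_rfl
  have h3 := minpoly.natDegree_pos (IsIntegral.of_finite F (γ ^ k))
  set d := (minpoly F (γ ^ k)).natDegree
  rw [hp, pow_succ, mul_eq_right₀ (pow_ne_zero _ (hγ.ne_zero hN.ne')), ← pow_mul,
    hγ.pow_eq_one_iff_dvd] at h2
  have h4 : 1 < Fintype.card F ^ d := Nat.one_lt_pow h3.ne' hq
  have h5 := Nat.le_of_dvd (Nat.mul_pos (by omega) (by omega)) h2
  have h6 : Fintype.card F ^ d * 2 ≤ Fintype.card F ^ n :=
    (Nat.mul_le_mul_left _ hq).trans (by rw [← pow_succ]; exact Nat.pow_le_pow_right (by omega) hlt)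
  rcases hk with rfl | rfl <;> omega

theorem sum_mc_mass (hn : 0 < finrank F V)
    (hs : ∀ g : End F V, (g.charpoly.map (algebraMap F K)).Splits)
    (hG : ∀ m, m ∣ Nat.card (End F V)ˣ → m.Coprime (Fintype.card F) → m ∣ Fintype.card K - 1)
    {γ : K} (hγ : IsPrimitiveRoot γ (Fintype.card F ^ finrank F V - 1)) {η : K → ℂ} (hη : Mc η) :
    ∑ μ, η μ * mass F V μ = if η γ = 1 then (Nat.card (End F V)ˣ : ℂ) else 0 := by
  classical
  have hq := Fintype.one_lt_card (α := F)
  have hN : 0 < Fintype.card F ^ finrank F V - 1 := Nat.sub_pos_of_lt (Nat.one_lt_pow hn.ne' hq)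
  have hS := sum_mass hn hs
  split_ifs with h
  · rw [← hS]
    refine sum_congr rfl fun μ _ => ?_
    split_ifs with h0
    · rw [h0, hη.zero]
    by_cases h1 : mass F V μ = 0
    · simp [h1]
    have h2 := mass_supp hn hs h1
    rw [← Nat.sub_add_cancel (Nat.one_le_pow (finrank F V) _ (by omega)), pow_succ,
      mul_eq_right₀ h0] at h2
    have : NeZero (Fintype.card F ^ finrank F V - 1) := ⟨hN.ne'⟩
    obtain ⟨i, -, rfl⟩ := hγ.eq_pow_of_pow_eq_one h2
    rw [hη.pow, h, one_pow]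
  obtain ⟨z, hz⟩ := (isGen_P hη (Units.coeHom (End F V)) hG).exists_int_classInner
    isCharacter_one.isGeneralizedCharacter
  rw [classInner_one_right, inv_mul_eq_iff_eq_mul₀ (card_ne_zero _)] at hz
  replace hz := (sum_P_rs η).symm.trans hz
  by_contra hne
  have hz0 : z ≠ 0 := fun e => hne (by rw [hz, e]; simp)
  have hr : ∀ μ : K, ∃ r : ℝ, 0 ≤ r ∧ (if μ = 0 then 0 else 1) * mass F V μ = r ∧
      η μ * mass F V μ = η μ * r ∧ ((minpoly F μ).natDegree = finrank F V → μ ≠ 0 → r ≠ 0) := by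
    intro μ
    by_cases h0 : μ = 0
    · exact ⟨0, le_rfl, by simp [h0], by simp [h0, hη.zero], fun _ h => absurd h0 h⟩
    · obtain ⟨r, h1, h2, h3⟩ := mass_real hn hs h0
      exact ⟨r, h2, by simp [h0, h1], by rw [h1], fun h _ => h3 h⟩
  choose r hr0 hr1 hr2 hr3 using hr
  simp only [hr1] at hS
  simp only [hr2] at hz
  have hS' : ∑ μ, r μ = Nat.card (End F V)ˣ := by exact_mod_cast hS
  have hnorm : ∀ μ, ‖η μ‖ ≤ 1 := fun μ => by
    by_cases h0 : μ = 0
    · simp [h0, hη.zero]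
    · refine (norm_eq_one_of_pow_eq_one' (n := Fintype.card K - 1) ?_ ?_).le
      · have := Fintype.one_lt_card (α := K); omega
      · rw [← hη.pow, FiniteField.pow_card_sub_one_eq_one _ h0, hη.one]
  have key : ∀ ε : ℝ, ε = 1 ∨ ε = -1 → 1 ≤ ε * z → ∀ k, k = 1 ∨ k = 2 → η (γ ^ k) = ε := by
    intro ε hε h1 k hk
    have hε1 : ‖(ε : ℂ)‖ = 1 := by rcases hε with rfl | rfl <;> simp
    have h2 : ∀ μ, (ε * η μ).re ≤ 1 := fun μ =>
      (Complex.re_le_norm _).trans (by rw [norm_mul, hε1, one_mul]; exact hnorm μ)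
    have h3 : ∑ μ, (1 - (ε * η μ).re) * r μ = Nat.card (End F V)ˣ * (1 - ε * z) := by
      have := congrArg (fun x : ℂ => (ε * x).re) hz
      simp only [mul_sum, Complex.re_sum, ← mul_assoc, Complex.re_mul_ofReal] at this
      simp only [sub_mul, one_mul, sum_sub_distrib, hS', this]
      simp
      ring
    have h4 := (sum_eq_zero_iff_of_nonneg fun μ _ => mul_nonneg (sub_nonneg.2 (h2 μ)) (hr0 μ)).1
      (le_antisymm (h3 ▸ mul_nonpos_of_nonneg_of_nonpos (Nat.cast_nonneg _) (sub_nonpos.2 h1))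
        (sum_nonneg fun μ _ => mul_nonneg (sub_nonneg.2 (h2 μ)) (hr0 μ))) (γ ^ k) (mem_univ _)
    have h5 := sub_eq_zero.1 ((mul_eq_zero.1 h4).resolve_right
      (hr3 _ (natDegree_minpoly hγ hn hk) (pow_ne_zero _ (hγ.ne_zero hN.ne'))))
    have h6 : (ε : ℂ) * η (γ ^ k) = 1 := by
      have h7 : ‖(ε : ℂ) * η (γ ^ k)‖ ≤ 1 := by rw [norm_mul, hε1, one_mul]; exact hnorm _
      have h8 := Complex.sq_norm_sub_sq_re ((ε : ℂ) * η (γ ^ k))
      refine Complex.ext h5.symm (pow_eq_zero_iff two_ne_zero |>.1 (le_antisymm ?_ (sq_nonneg _)))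
      rw [← h8, ← h5]
      nlinarith [norm_nonneg ((ε : ℂ) * η (γ ^ k))]
    rcases hε with rfl | rfl
    · simpa using h6
    · push_cast at h6 ⊢
      linear_combination -h6
  rcases lt_or_gt_of_ne hz0 with hz1 | hz1
  · have h1 : (1 : ℝ) ≤ -1 * z := by
      have : (z : ℝ) ≤ -1 := by exact_mod_cast Int.le_sub_one_of_lt hz1
      linarith
    have h2 := key _ (Or.inr rfl) h1 1 (Or.inl rfl)
    have h3 := key _ (Or.inr rfl) h1 2 (Or.inr rfl)
    rw [hη.pow, pow_one] at h2
    rw [hη.pow, h2] at h3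
    norm_num at h3
  · have h1 : (1 : ℝ) ≤ 1 * z := by rw [one_mul]; exact_mod_cast hz1
    exact h (by simpa using key _ (Or.inl rfl) h1 1 (Or.inl rfl))

open Classical in
theorem classInner_P (hn : 0 < finrank F V)
    (hs : ∀ g : End F V, (g.charpoly.map (algebraMap F K)).Splits)
    (hG : ∀ m, m ∣ Nat.card (End F V)ˣ → m.Coprime (Fintype.card F) → m ∣ Fintype.card K - 1)
    {γ : K} (hγ : IsPrimitiveRoot γ (Fintype.card F ^ finrank F V - 1)) {θ θ' : K → ℂ} (hθ : Mc θ)
    (hθ' : Mc θ') : classInner (fun g : (End F V)ˣ => P (rs θ) (g : End F V))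
      (fun g => P (rs θ') (g : End F V)) =
      #{j ∈ range (finrank F V) | θ γ * conj (θ' (γ ^ Fintype.card F ^ j)) = 1} := by
  apply mul_left_cancel₀ (card_ne_zero (End F V)ˣ)
  rw [card_mul_classInner, sum_P_P hn hs hθ.zero]
  simp only [map_sum, mul_sum, sum_mul]
  rw [sum_comm, sum_congr rfl fun j _ => sum_mc_mass hn hs hG hγ
    (η := fun μ => θ μ * conj (θ' (μ ^ Fintype.card F ^ j))) ⟨by simp [hθ.zero],
      by simp [hθ.one, hθ'.one], fun x y => by simp only [hθ.mul, mul_pow, hθ'.mul, map_mul]; ring⟩,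
    ← sum_filter, sum_const, nsmul_eq_mul, mul_comm]

end Cfsg.Lib.Char.Cusp
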