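import Cfsg.Agent.Char.Cusp6
import Mathlib.NumberTheory.MulChar.Lemmas

/-!
# Cuspidal characters of `GL_n(q)`, VII: the family of cuspidal characters
-/

set_option autoImplicit false

open Module Polynomial Finset
open scoped ComplexConjugate

namespace Cfsg.Lib.Char.Cusp

variable {F : Type*} [Field F] [Fintype F]

theorem exists_field (n B : ℕ) (hn : 0 < n) : ∃ (K : Type) (_ : Field K) (_ : Algebra F K)
    (_ : Fintype K), (∀ p : F[X], p.natDegree ≤ n → (p.map (algebraMap F K)).Splits) ∧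
      (∀ m, 0 < m → m ≤ B → m.Coprime (Fintype.card F) → m ∣ Fintype.card K - 1) ∧
      ∃ (γ : K) (ω : K → ℂ), IsPrimitiveRoot γ (Fintype.card F ^ n - 1) ∧ Mc ω ∧
        IsPrimitiveRoot (ω γ) (Fintype.card F ^ n - 1) := by
  classical
  obtain ⟨r, hr⟩ := CharP.exists F
  have : Fact r.Prime := ⟨CharP.char_is_prime F r⟩
  have : NeZero (n + B).factorial := ⟨Nat.factorial_ne_zero _⟩
  let K := FiniteField.Extension F r (n + B).factorial
  let _ := Fintype.ofFinite K
  have hK : Fintype.card K = Fintype.card F ^ (n + B).factorial := by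
    rw [← Nat.card_eq_fintype_card, ← Nat.card_eq_fintype_card]
    exact FiniteField.natCard_extension F r _
  refine ⟨K, inferInstance, inferInstance, inferInstance, fun p => ?_, fun m h0 hm hc => ?_, ?_⟩
  · induction p using WfDvdMonoid.induction_on_irreducible with
    | zero => simp
    | unit u hu => exact fun _ => (hu.map (mapRingHom (algebraMap F K))).splits
    | mul a i ha hi ih =>
      intro h
      rw [natDegree_mul hi.ne_zero ha] at h
      rw [Polynomial.map_mul]
      refine Splits.mul (Splits.of_dvd ?_ ?_ (Polynomial.map_dvd _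
        (hi.natDegree_dvd_iff_dvd_X_pow_card_pow_sub_X.1 (Nat.dvd_factorial (n := n + B)
          hi.natDegree_pos (by omega))))) (ih (by omega))
      · apply IsSplittingField.splits
      · exact map_ne_zero (FiniteField.X_pow_card_pow_sub_X_ne_zero _ (NeZero.ne _)
          Finite.one_lt_card)
  · rw [hK]
    exact ((Nat.modEq_iff_dvd' (Nat.one_le_pow _ _ Fintype.card_pos)).1
      (Nat.ModEq.pow_totient hc.symm).symm).trans (Nat.pow_sub_one_dvd_pow_sub_one _
        (Nat.dvd_factorial (Nat.totient_pos.2 h0) ((Nat.totient_le m).trans (by omega))))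
  obtain ⟨δ, hδ⟩ := IsCyclic.exists_generator (α := Kˣ)
  have hQ : Fintype.card Kˣ ≠ 0 := Fintype.card_ne_zero
  have hζ := Complex.isPrimitiveRoot_exp _ hQ
  have hδ' : IsPrimitiveRoot (δ : K) (Fintype.card Kˣ) := by
    rw [← Nat.card_eq_fintype_card, ← orderOf_eq_card_of_forall_mem_zpowers hδ,
      IsPrimitiveRoot.coe_units_iff]
    exact IsPrimitiveRoot.orderOf δ
  obtain ⟨c, hc⟩ : Fintype.card F ^ n - 1 ∣ Fintype.card Kˣ := by
    rw [Fintype.card_units, hK]
    exact Nat.pow_sub_one_dvd_pow_sub_one _ (Nat.dvd_factorial hn (by omega))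
  have hm : (hζ.isUnit hQ).unit ∈ rootsOfUnity (Fintype.card Kˣ) ℂ :=
    (mem_rootsOfUnity' _ _).2 hζ.pow_eq_one
  refine ⟨δ ^ c, MulChar.ofRootOfUnity hm hδ, hδ'.pow (Nat.pos_of_ne_zero hQ)
    (hc.trans (mul_comm _ _)), ⟨MulChar.map_zero _, map_one _, map_mul _⟩, ?_⟩
  rw [map_pow, MulChar.ofRootOfUnity_spec]
  exact hζ.pow (Nat.pos_of_ne_zero hQ) (hc.trans (mul_comm _ _))

variable {V : Type*} [AddCommGroup V] [Module F V] [Finite V] [Fintype (End F V)ˣ]

theorem exists_family (hn : 2 ≤ finrank F V) :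
    ∃ χ : (ZMod (Fintype.card F ^ finrank F V - 1))ˣ → End F V → ℂ,
      (∀ u, IsIrrCharacter (End F V)ˣ fun g => χ u g) ∧
      (∀ u, χ u 1 = ∏ i ∈ Ico 1 (finrank F V), ((Fintype.card F : ℂ) ^ i - 1)) ∧
      (∀ u g, ¬ IsUnit g → χ u g = 0) ∧
      (∀ u (W : Submodule F V), W ≠ ⊥ → W ≠ ⊤ → ∑ h ∈ cos 1 W, χ u h = 0) ∧
      ∀ u v, (∀ g : (End F V)ˣ, χ u g = χ v g) → ∃ j < finrank F V,
        (u : ZMod (Fintype.card F ^ finrank F V - 1)) = v * Fintype.card F ^ j := by
  classical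
  obtain ⟨K, _, _, _, hs, hG, γ, ω, hγ, hω, hξ⟩ :=
    exists_field (F := F) (finrank F V) (Nat.card (End F V)ˣ) (by omega)
  set n := finrank F V with hV
  set N := Fintype.card F ^ n - 1 with hN
  have hq := Fintype.one_lt_card (α := F)
  have hN1 : 1 < N := by
    have : 2 ^ 2 ≤ Fintype.card F ^ n :=
      (Nat.pow_le_pow_left hq 2).trans (Nat.pow_le_pow_right (by omega) hn)
    omega
  have : Fact (1 < N) := ⟨hN1⟩
  have hmc : ∀ u : (ZMod N)ˣ, Mc fun x => ω (x ^ (u : ZMod N).val) := fun u =>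
    ⟨by rw [zero_pow ((ZMod.val_ne_zero _).2 u.ne_zero), hω.zero], by rw [one_pow, hω.one],
      fun x y => by rw [mul_pow, hω.mul]⟩
  have hG' : ∀ m, m ∣ Nat.card (End F V)ˣ → m.Coprime (Fintype.card F) →
      m ∣ Fintype.card K - 1 := fun m hm =>
    hG m (Nat.pos_of_dvd_of_pos hm Nat.card_pos) (Nat.le_of_dvd Nat.card_pos hm)
  have hip : ∀ u v : (ZMod N)ˣ, classInner
      (fun g : (End F V)ˣ => (-1) ^ (n - 1) * P (rs fun x => ω (x ^ (u : ZMod N).val)) (g : End F V))
      (fun g => (-1) ^ (n - 1) * P (rs fun x => ω (x ^ (v : ZMod N).val)) (g : End F V)) =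
      #{j ∈ range n | (u : ZMod N) = v * Fintype.card F ^ j} := by
    intro u v
    have := classInner_P (by omega) (fun g => hs _ (LinearMap.charpoly_natDegree g).le) hG' hγ
      (hmc u) (hmc v)
    rw [filter_congr (q := fun j => (u : ZMod N) = v * Fintype.card F ^ j) fun j _ => ?_] at this
    · rw [← this]
      simp only [classInner, map_mul, map_pow, map_neg, map_one, mul_mul_mul_comm ((-1 : ℂ) ^ _),
        ← mul_pow, neg_mul_neg, one_mul, one_pow]
    · rw [← pow_mul, hω.pow, hω.pow, conj_eq_inv_of_pow_eq_one (n := N) (by omega)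
        (by rw [pow_right_comm, hξ.pow_eq_one, one_pow]),
        mul_inv_eq_one₀ (pow_ne_zero _ (hξ.ne_zero (by omega))),
        (hξ.isOfFinOrder (by omega)).pow_eq_pow_iff_modEq, ← hξ.eq_orderOf,
        ← ZMod.natCast_eq_natCast_iff]
      simp [mul_comm]
  have hdeg : ∀ u : (ZMod N)ˣ, (-1) ^ (n - 1) * P (rs fun x => ω (x ^ (u : ZMod N).val))
      (1 : End F V) = ∏ i ∈ Ico 1 n, ((Fintype.card F : ℂ) ^ i - 1) := by
    intro u
    rw [P_one (rs_add _) (n - 1) V (by omega), show n - 1 + 1 = n by omega, rs, ← C_1,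
      aroots_X_sub_C]
    simp only [map_one, Multiset.map_singleton, Multiset.sum_singleton, one_pow, hω.one, one_mul]
    rw [← Nat.card_Ico 1 n, ← prod_const, ← prod_mul_distrib]
    exact prod_congr rfl fun _ _ => by ring
  refine ⟨fun u g => (-1) ^ (n - 1) * P (rs fun x => ω (x ^ (u : ZMod N).val)) g, fun u => ?_,
    hdeg, fun u g hg => ?_, fun u W h0 h1 => ?_, fun u v h => ?_⟩
  · refine IsGeneralizedCharacter.isIrrCharacter_of_pos ?_ ?_ ?_
    · convert (isGen_P (hmc u) (Units.coeHom (End F V)) hG').intCast_smul ((-1) ^ (n - 1)) using 1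
      funext g
      simp
    · rw [hip, Nat.cast_eq_one, card_eq_one]
      refine ⟨0, eq_singleton_iff_unique_mem.2 ⟨by simp; omega, fun j hj => ?_⟩⟩
      rw [mem_filter, mem_range, eq_comm, u.isUnit.mul_eq_left, ← Nat.cast_pow, ← Nat.cast_one,
        ZMod.natCast_eq_natCast_iff] at hj
      have h1 := Nat.one_le_pow j _ (show 0 < Fintype.card F by omega)
      have h2 := Nat.eq_zero_of_dvd_of_lt ((Nat.modEq_iff_dvd' h1).1 hj.2.symm)
        (Nat.sub_lt_sub_right h1 (Nat.pow_lt_pow_right hq hj.1))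
      by_contra h3
      have := Nat.one_lt_pow h3 hq
      omega
    · simp only [Units.val_one, hdeg]
      have : ∏ i ∈ Ico 1 n, ((Fintype.card F : ℂ) ^ i - 1) =
          ((∏ i ∈ Ico 1 n, ((Fintype.card F : ℝ) ^ i - 1) : ℝ) : ℂ) := by push_cast; rfl
      rw [this, Complex.ofReal_re]
      exact prod_pos fun i hi => sub_pos.2 (one_lt_pow₀ (by exact_mod_cast hq)
        (by have := (mem_Ico.1 hi).1; omega))
  · exact mul_eq_zero_of_right _
      (P_rs_nonunit (θ := fun x => ω (x ^ (u : ZMod N).val)) (hmc u).zero g hg)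
  · rw [← mul_sum, sum_cos_P (rs_add _) (fun _ h => h) h0 h1, mul_zero]
  · have h1 := hip u v
    simp only [← h] at h1
    rw [hip, Nat.cast_inj] at h1
    obtain ⟨j, hj⟩ := card_pos.1 (h1 ▸ card_pos.2 ⟨0, by simp; omega⟩)
    exact ⟨j, mem_range.1 (mem_filter.1 hj).1, (mem_filter.1 hj).2⟩

end Cfsg.Lib.Char.Cusp
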