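import Cfsg.Agent.Char.DegThompson
import Cfsg.Agent.Char.BrauerInd
import Cfsg.Agent.Char.TriplePrim

/-! Dade's elementary detection of invariant characters and an extension criterion
(Isaacs 8.24, 8.26). -/

set_option autoImplicit false

open Cfsg Cfsg.Lib.Solv Cfsg.Lib.Char.Brauer
open scoped ComplexConjugate

namespace Cfsg.Lib.Char.Deg

universe u

variable {G : Type u} [Group G] {N : Subgroup G} [hN : N.Normal] {θ : N → ℂ} {p : ℕ}

theorem res_indFun_of_invariant [Fintype G] (E : Subgroup G) [Fintype E]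
    (hinv : ∀ (g : G) (n : N), θ ⟨g * n * g⁻¹, hN.conj_mem n n.2 g⟩ = θ n) :
    (fun e : E => indFun N θ e) = ((E ⊔ N).index : ℂ) •
      indFun (N.subgroupOf E) fun x => θ ⟨(x : E), x.2⟩ := by
  funext e
  rw [Pi.smul_apply, smul_eq_mul]
  by_cases he : (e : G) ∈ N
  · rw [indFun_normal_invariant N θ hinv ⟨e, he⟩, indFun_normal_invariant (N.subgroupOf E) _
      (fun g n => hinv g ⟨(n : E), n.2⟩) ⟨e, he⟩, ← mul_assoc,
      ← Subgroup.relIndex_mul_index (le_sup_right : N ≤ E ⊔ N), Subgroup.relIndex_sup_right,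
      Nat.cast_mul, mul_comm (_ : ℂ) ((E ⊔ N).index : ℂ)]
    rfl
  · rw [indFun_normal_of_notMem N θ he, indFun_normal_of_notMem (N.subgroupOf E) _ he, mul_zero]

/-- Isaacs 8.24. -/
theorem exists_elementary_invariant_constituent [Finite G] (hp : p.Prime) {k : ℕ}
    (hk : N.index = p ^ k) (hθ : IsIrrCharacter N θ)
    (hinv : ∀ (g : G) (n : N), θ ⟨g * n * g⁻¹, hN.conj_mem n n.2 g⟩ = θ n) :
    ∃ (E : Subgroup G) (φ : N.subgroupOf E → ℂ), IsElementary p E ∧ E ⊔ N = ⊤ ∧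
      IsIrrCharacter _ φ ∧ inertia (N.subgroupOf E) φ = ⊤ ∧ ∃ m : ℕ, ¬ p ∣ m ∧
        ∀ [Fintype (N.subgroupOf E)], classInner (fun x : N.subgroupOf E => θ ⟨(x : E), x.2⟩) φ = m := by
  classical
  have := Fintype.ofFinite G
  have := Fact.mk hp
  obtain ⟨m, hm, H⟩ := exists_mul_classInner_mem_of_forall_elementary (G := G) hp
  by_contra hcon
  have h1 := H (AddSubgroup.zmultiples (p : ℂ)) (indFun N (θ * fun n => conj (θ n)))
    (indFun_isClassFunction _ _) (fun E hE _ ψ hψ => ?_) _ isCharacter_one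
  · rw [classInner_indFun_left N _ (isClassFunction_const 1), classInner_mul_left] at h1
    simp only [Complex.conj_conj] at h1
    rw [show ((fun g => θ g) * fun _ => (1 : ℂ)) = θ from funext fun _ => mul_one _,
      hθ.classInner_self, mul_one] at h1
    obtain ⟨j, hj⟩ := h1
    exact hm ⟨j, by rw [mul_comm]; exact_mod_cast (by simpa using hj.symm : (m : ℂ) = j * p)⟩
  have hθE : IsCharacter (N.subgroupOf E) fun x => θ ⟨(x : E), x.2⟩ :=
    hθ.isCharacter.comp ((E.subtype.comp (N.subgroupOf E).subtype).codRestrict N fun x => x.2)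
  have hψθ := (hψ.isCharacter.res (N.subgroupOf E)).mul hθE
  rw [res_indFun_of_invariant E fun g n => by simp only [Pi.mul_apply, hinv],
    classInner_smul_left, classInner_indFun_left _ _ hψ.isClassFunction]
  change _ * classInner ((fun x : N.subgroupOf E => θ ⟨(x : E), x.2⟩) *
    fun x : N.subgroupOf E => conj (θ ⟨(x : E), x.2⟩)) _ ∈ _
  rw [classInner_mul_left, mul_comm (fun _ => _)]
  simp only [Complex.conj_conj]
  obtain ⟨c, hc, -, -⟩ := hθE.exists_nat_multiplicity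
  obtain ⟨d, hd, -, -⟩ := hψθ.exists_nat_multiplicity
  rw [hθE.isClassFunction.classInner_eq_sum_irr, Finset.sum_congr rfl fun φ _ => by
    rw [hc, φ.2.isGeneralizedCharacter.classInner_comm hψθ.isGeneralizedCharacter, hd,
      ← Nat.cast_mul], ← Nat.cast_sum, ← Nat.cast_mul]
  suffices h : p ∣ (E ⊔ N).index * ∑ φ, c φ * d φ by
    obtain ⟨j, hj⟩ := h
    exact ⟨j, by simp [hj, mul_comm]⟩
  by_cases hEN : E ⊔ N = ⊤
  swap
  · obtain ⟨j, -, hj⟩ := (Nat.dvd_prime_pow hp).1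
      (hk ▸ Subgroup.index_dvd_of_le (le_sup_right : N ≤ E ⊔ N))
    refine Dvd.dvd.mul_right (hj ▸ dvd_pow_self p fun h0 => hEN ?_) _
    rw [← Subgroup.index_eq_one, hj, h0, pow_zero]
  refine Dvd.dvd.mul_left ?_ _
  obtain ⟨P⟩ : Nonempty (Sylow p E) := inferInstance
  have hinvE : ∀ g : E, conjChar (N.subgroupOf E) (fun x => θ ⟨(x : E), x.2⟩) g =
      fun x : N.subgroupOf E => θ ⟨(x : E), x.2⟩ := fun g => funext fun x => hinv g ⟨(x : E), x.2⟩
  have h2 := sum_inertia_modEq (N.subgroupOf E) P.isPGroup'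
    (fun φ => ⌊(classInner (fun x : N.subgroupOf E => θ ⟨(x : E), x.2⟩) φ).re⌋₊ *
      ⌊(classInner ((fun x : N.subgroupOf E => ψ x) *
        fun x : N.subgroupOf E => θ ⟨(x : E), x.2⟩) φ).re⌋₊) fun g _ φ => by
      rw [classInner_conjChar_right, classInner_conjChar_right, conjChar_mul_fun, hinvE,
        conjChar_res hψ.isClassFunction]
  simp only [hc, hd, Complex.natCast_re, Nat.floor_natCast] at h2
  refine (h2.dvd_iff dvd_rfl).1 (Finset.dvd_sum fun φ hφ => Dvd.dvd.mul_right ?_ _)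
  by_contra h3
  obtain ⟨j, -, hj⟩ := (Nat.dvd_prime_pow hp).1
    (hk ▸ Subgroup.relIndex_dvd_index_of_normal N E)
  refine hcon ⟨E, φ, hE, hEN, φ.2, eq_top_iff.2 ?_, c φ, h3, fun {_} => ?_⟩
  · rw [← sylow_sup_eq_top P hj]
    exact sup_le (Finset.mem_filter.1 hφ).2 (le_inertia φ.2.isClassFunction)
  · rw [← hc]
    exact classInner_inst _ _ _ _

/-- An invariant character of a normal subgroup of `p`-power index extends when its restriction to
a supplement has a constituent of `p'`-multiplicity that extends to a linear character. -/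
theorem exists_ext_of_linear_constituent [Finite G] (hp : p.Prime) {k : ℕ}
    (hk : N.index = p ^ k) (hθ : IsIrrCharacter N θ)
    (hinv : ∀ (g : G) (n : N), θ ⟨g * n * g⁻¹, hN.conj_mem n n.2 g⟩ = θ n) {E : Subgroup G}
    (hE : E ⊔ N = ⊤) (μ : E →* ℂˣ) [Fintype (N.subgroupOf E)] {m : ℕ} (hm : ¬ p ∣ m)
    (h : classInner (fun x : N.subgroupOf E => θ ⟨(x : E), x.2⟩) (fun x => (μ x : ℂ)) = m) :
    ∃ χ : G → ℂ, IsIrrCharacter G χ ∧ ∀ n : N, χ n = θ n := by
  classical
  obtain ⟨K, _, _, A, lam, T, hrel, hA, -, -⟩ :=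
    exists_cTriple N hθ hinv (apply_one_eq hθ.isCharacter)
  refine T.exists_ext_iff.2 (exists_extend_of_forall_prime A.subtype lam fun r hr _ => ?_)
  by_cases hrp : r = p
  swap
  · obtain ⟨ν, hν⟩ := exists_extend_pow_index A.subtype
      (T.rel_range.normal_iff.mp T.normal_range_i) lam (fun k a a' h => by
        rw [← T.central, mul_inv_cancel_right] at h
        rw [A.subtype_injective h]) A (fun a => a.2) lam fun _ => rfl
    refine ⟨_, ν, fun h => hrp ?_, hν⟩
    rw [← hrel.index_eq, hk] at h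
    exact (Nat.prime_dvd_prime_iff_eq hr hp).1 (hr.dvd_of_dvd_pow h)
  subst hrp
  let Γ := E.comap T.π
  have := Fintype.ofFinite Γ
  let μ' : Γ →* ℂˣ := μ.comp (T.π.subgroupComap E)
  let Ψ : Γ → ℂ := (fun γ : Γ => T.Θ γ) * fun γ => ((μ'⁻¹ γ : ℂˣ) : ℂ)
  have hΨ : IsCharacter Γ Ψ := (T.isChar.res Γ).mul (isIrrCharacter_monoidHom _).isCharacter
  let q : Γ →* K := T.q.comp Γ.subtype
  have hq : Function.Surjective q := by
    intro x
    obtain ⟨γ, rfl⟩ := T.q_surj x
    obtain ⟨e, he, n, hn, hen⟩ := Subgroup.mem_sup_of_normal_right.1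
      (hE ▸ Subgroup.mem_top (T.π γ))
    refine ⟨⟨γ * (T.j ⟨n, hn⟩)⁻¹, ?_⟩, by simp [q]⟩
    rw [Subgroup.mem_comap, map_mul, map_inv, T.π_j, ← hen]
    simpa using he
  let j : N.subgroupOf E →* q.ker :=
    ((T.j.comp ((E.subtype.comp (N.subgroupOf E).subtype).codRestrict N fun x => x.2)).codRestrict
      Γ fun x => by
        rw [Subgroup.mem_comap, MonoidHom.comp_apply, T.π_j]
        exact (x : E).2).codRestrict q.ker fun x => T.q_j _
  have hj : Function.Surjective j := by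
    rintro ⟨⟨γ, hγ⟩, h1⟩
    obtain ⟨n, rfl⟩ : γ ∈ T.j.range := T.range_j ▸ h1
    rw [Subgroup.mem_comap, T.π_j] at hγ
    exact ⟨⟨⟨n, hγ⟩, n.2⟩, rfl⟩
  have h1 : classInner (fun x : q.ker => Ψ x) (fun _ => 1) = m := by
    rw [← classInner_comp_of_surjective j hj, ← h]
    unfold classInner
    congr 1
    refine Finset.sum_congr rfl fun x _ => ?_
    have h2 : μ' (j x) = μ x := congrArg μ (Subtype.ext (T.π_j _))
    rw [map_one, mul_one, ← monoidHom_apply_inv, map_inv, ← h2]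
    exact congrArg (· * _) (T.Θ_j _)
  obtain ⟨ξ, hξ, h2, h3, h4⟩ : ∃ ξ, IsIrrCharacter Γ ξ ∧ classInner Ψ ξ ≠ 0 ∧
      q.ker ≤ charKer ξ ∧ ¬ r ∣ charDegree ξ := by
    by_contra hcon
    push Not at hcon
    obtain ⟨c, hc, hsum, -⟩ := hΨ.exists_nat_multiplicity
    have h2 : (fun x : q.ker => Ψ x) = ∑ ξ : IrrCharacter Γ, (c ξ : ℂ) • fun x : q.ker => ξ.1 x := by
      funext x
      rw [hsum]
      simp [Finset.sum_apply]
    rw [h2, classInner_sum_left, Finset.sum_congr rfl (g := fun ξ : IrrCharacter Γ =>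
      ((c ξ * if q.ker ≤ charKer ξ.1 then charDegree ξ.1 else 0 : ℕ) : ℂ)) fun ξ _ => by
        rw [classInner_smul_left]
        split_ifs with h3
        · rw [classInner_res_one_of_le_charKer _ h3, apply_one_eq ξ.2.isCharacter, Nat.cast_mul]
        · rw [ξ.2.classInner_res_one_eq_zero _ h3]; simp, ← Nat.cast_sum, Nat.cast_inj] at h1
    refine hm (h1 ▸ Finset.dvd_sum fun ξ _ => ?_)
    by_cases h0 : c ξ = 0
    · simp [h0]
    split_ifs with h3
    · exact (hcon ξ ξ.2 (by rw [hc]; exact_mod_cast h0) h3).mul_left _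
    · simp
  let b : A →* Γ := T.b.codRestrict Γ fun a => by rw [Subgroup.mem_comap, T.π_b]; exact E.one_mem
  have h5 : LiesOverLin b lam⁻¹ Ψ := fun a γ => by
    have h6 : μ' (b a) = 1 := (congrArg μ (Subtype.ext (T.π_b a))).trans μ.map_one
    change T.Θ (T.b a * γ) * ((μ'⁻¹ (b a * γ) : ℂˣ) : ℂ) = _ * (T.Θ γ * ((μ'⁻¹ γ : ℂˣ) : ℂ))
    rw [T.Θ_b, map_mul, MonoidHom.inv_apply, h6]
    simp [mul_assoc]
  have h6 := h5.of_classInner_ne_zero (fun a γ => Subtype.ext (T.b_comm a γ)) hξ h2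
  obtain ⟨β, hβ, h7⟩ := hξ.exists_of_surjective q hq h3
  refine ⟨charDegree ξ, (detHom β)⁻¹, h4, fun a => ?_⟩
  have h8 : detChar β (a : K) = ((lam a)⁻¹ : ℂˣ) ^ charDegree ξ :=
    detChar_of_forall_mul_eq hβ.isCharacter (by rw [← q.map_one, h7, apply_one_eq hξ.isCharacter])
      fun x => by
        obtain ⟨γ, rfl⟩ := hq x
        rw [show (a : K) = q (b a) from (T.q_b a).symm, ← map_mul, h7, h7, h6]
        rfl
  rw [MonoidHom.inv_apply, inv_eq_iff_eq_inv, ← inv_pow]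
  exact Units.ext (by rw [coe_detHom, Units.val_pow_eq_pow_val]; exact h8)

end Cfsg.Lib.Char.Deg
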