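import Cfsg.Agent.Char.Irr
import Cfsg.Prelude.Def_LinearParabolics
import Mathlib.GroupTheory.DoubleCoset
import Mathlib.LinearAlgebra.Matrix.Rank
import Mathlib.LinearAlgebra.Matrix.Permutation
import Mathlib.LinearAlgebra.Matrix.Transvection

/-! Bruhat decomposition of `GL_n`, and the comparison of parabolic double cosets with the
double cosets of Young subgroups. -/

set_option autoImplicit false

namespace Cfsg.Lib.Char.GLFlag

open Matrix

section general
variable {G : Type*} [Group G]

/-- orbits on pairs of cosets are double cosets -/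
noncomputable def orbitsEquiv (H K : Subgroup G) :
    Quotient (MulAction.orbitRel G ((G ⧸ H) × (G ⧸ K))) ≃
      DoubleCoset.Quotient (H : Set G) (K : Set G) := by
  refine (Equiv.ofBijective (fun q => Quotient.liftOn' q
    (fun a : G => (Quotient.mk'' (((1 : G) : G ⧸ H), (a : G ⧸ K)) :
      Quotient (MulAction.orbitRel G ((G ⧸ H) × (G ⧸ K))))) ?_) ⟨?_, ?_⟩).symm
  · intro a b hab
    obtain ⟨h, hh, k, hk, rfl⟩ := DoubleCoset.rel_iff.1 hab
    apply Quotient.sound'
    rw [MulAction.orbitRel_apply]
    refine ⟨h⁻¹, Prod.ext ?_ ?_⟩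
    · change ((h⁻¹ * 1 : G) : G ⧸ H) = ((1 : G) : G ⧸ H)
      rw [QuotientGroup.eq]; simpa using hh
    · change ((h⁻¹ * (h * a * k) : G) : G ⧸ K) = (a : G ⧸ K)
      rw [QuotientGroup.eq]; simpa [mul_assoc] using hk
  · intro q q'
    induction q using Quotient.inductionOn' with | _ a => ?_
    induction q' using Quotient.inductionOn' with | _ b => ?_
    intro h
    have h' : MulAction.orbitRel G ((G ⧸ H) × (G ⧸ K)) (((1 : G) : G ⧸ H), (a : G ⧸ K))
      (((1 : G) : G ⧸ H), (b : G ⧸ K)) := Quotient.exact' h
    rw [MulAction.orbitRel_apply] at h'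
    obtain ⟨g, hg⟩ := h'
    have h1 : ((g * 1 : G) : G ⧸ H) = ((1 : G) : G ⧸ H) := congrArg Prod.fst hg
    have h2 : ((g * b : G) : G ⧸ K) = (a : G ⧸ K) := congrArg Prod.snd hg
    rw [QuotientGroup.eq] at h1 h2
    apply Quotient.sound'
    refine DoubleCoset.rel_iff.2 ⟨g⁻¹, by simpa using h1, ((g * b)⁻¹ * a)⁻¹, K.inv_mem h2, ?_⟩
    group
  · intro q
    induction q using Quotient.inductionOn' with | _ p => ?_
    obtain ⟨x, y⟩ := p
    induction x using QuotientGroup.induction_on with | _ x => ?_
    induction y using QuotientGroup.induction_on with | _ y => ?_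
    refine ⟨Quotient.mk'' (x⁻¹ * y), ?_⟩
    apply Quotient.sound'
    rw [MulAction.orbitRel_apply]
    refine ⟨x⁻¹, Prod.ext ?_ ?_⟩
    · change ((x⁻¹ * x : G) : G ⧸ H) = ((1 : G) : G ⧸ H)
      simp
    · rfl

theorem sum_fixed_mul_fixed [Fintype G] (H K : Subgroup G) :
    (Nat.card G : ℂ)⁻¹ * ∑ g : G, fixedPointCharacter H g * fixedPointCharacter K g =
      (Nat.card (DoubleCoset.Quotient (H : Set G) (K : Set G)) : ℂ) := by
  classical
  have e : ∀ g : G, fixedPointCharacter H g * fixedPointCharacter K g =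
      (Fintype.card (MulAction.fixedBy ((G ⧸ H) × (G ⧸ K)) g) : ℂ) := by
    intro g
    unfold fixedPointCharacter
    rw [← Nat.cast_mul, ← Nat.card_prod, ← Nat.card_eq_fintype_card]
    congr 1
    refine Nat.card_congr ⟨fun p => ⟨(p.1.1, p.2.1), Prod.ext p.1.2 p.2.2⟩,
      fun p => (⟨p.1.1, congrArg Prod.fst p.2⟩, ⟨p.1.2, congrArg Prod.snd p.2⟩), fun _ => rfl,
      fun _ => rfl⟩
  simp_rw [e]
  rw [← Nat.cast_sum, MulAction.sum_card_fixedBy_eq_card_orbits_mul_card_group,
    ← Nat.card_congr (orbitsEquiv H K), Nat.card_eq_fintype_card (α := G),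
    Nat.card_eq_fintype_card]
  have : (Fintype.card G : ℂ) ≠ 0 := by exact_mod_cast Fintype.card_ne_zero
  push_cast
  field_simp

theorem card_doubleCoset_eq {W : Type*} [Group W] (π : W →* G) {H K : Subgroup G}
    {H' K' : Subgroup W} (hH : ∀ w ∈ H', π w ∈ H) (hK : ∀ w ∈ K', π w ∈ K)
    (hs : ∀ g : G, ∃ h ∈ H, ∃ k ∈ K, ∃ w : W, g = h * π w * k)
    (hi : ∀ w w' : W, ∀ h ∈ H, ∀ k ∈ K, π w' = h * π w * k →
      ∃ h' ∈ H', ∃ k' ∈ K', w' = h' * w * k') :
    Nat.card (DoubleCoset.Quotient (H : Set G) (K : Set G)) =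
      Nat.card (DoubleCoset.Quotient (H' : Set W) (K' : Set W)) := by
  symm
  refine Nat.card_congr (Equiv.ofBijective (fun q => Quotient.liftOn' q
    (fun w : W => DoubleCoset.mk H K (π w)) ?_) ⟨?_, ?_⟩)
  · intro a b hab
    obtain ⟨h, hh, k, hk, rfl⟩ := DoubleCoset.rel_iff.1 hab
    rw [DoubleCoset.eq]
    exact ⟨π h, hH h hh, π k, hK k hk, by simp⟩
  · intro q q'
    induction q using Quotient.inductionOn' with | _ a => ?_
    induction q' using Quotient.inductionOn' with | _ b => ?_
    intro h
    have h' : DoubleCoset.mk H K (π a) = DoubleCoset.mk H K (π b) := h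
    rw [DoubleCoset.eq] at h'
    obtain ⟨h, hh, k, hk, e⟩ := h'
    apply Quotient.sound'
    exact DoubleCoset.rel_iff.2 (hi a b h hh k hk e)
  · intro q
    induction q using Quotient.inductionOn' with | _ g => ?_
    obtain ⟨h, hh, k, hk, w, rfl⟩ := hs g
    refine ⟨Quotient.mk'' w, ?_⟩
    change DoubleCoset.mk H K (π w) = DoubleCoset.mk H K (h * π w * k)
    rw [DoubleCoset.eq]
    exact ⟨h, hh, k, hk, rfl⟩

theorem isCharacter_fixed [Finite G] (H : Subgroup G) : IsCharacter G (fixedPointCharacter H) :=
  isCharacter_card_fixedBy G (G ⧸ H)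

theorem classInner_fixed [Fintype G] (H K : Subgroup G) :
    classInner (fixedPointCharacter H) (fixedPointCharacter K) =
      (Nat.card (DoubleCoset.Quotient (H : Set G) (K : Set G)) : ℂ) := by
  rw [← sum_fixed_mul_fixed]
  unfold classInner
  congr 1
  refine Finset.sum_congr rfl fun g _ => ?_
  simp [fixedPointCharacter]

end general

variable {n : ℕ} {F : Type*} [Field F]

/-- permutation matrices, `(permGL σ) i j = 1` iff `i = σ j` -/
noncomputable def permGL (n : ℕ) (F : Type*) [Field F] : Equiv.Perm (Fin n) →* GL (Fin n) F :=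
  (Matrix.permMatrixHom : Equiv.Perm (Fin n) →* Matrix (Fin n) (Fin n) F).toHomUnits

theorem permGL_apply (σ : Equiv.Perm (Fin n)) (i j : Fin n) :
    (permGL n F σ : Matrix (Fin n) (Fin n) F) i j = if i = σ j then 1 else 0 := by
  change (σ⁻¹.permMatrix F) i j = _
  simp only [Equiv.Perm.permMatrix, PEquiv.toMatrix_apply, Equiv.toPEquiv_apply, Option.mem_def,
    Option.some.injEq]
  congr 1
  apply propext
  constructor
  · rintro rfl; simp
  · rintro rfl; simp

/-- the first `k` columns are those of a permutation matrix, with clean rows -/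
def Clean (k : ℕ) (A : Matrix (Fin n) (Fin n) F) : Prop :=
  ∀ j : Fin n, j.val < k → ∃ i : Fin n, (∀ i', A i' j = if i' = i then 1 else 0) ∧
    ∀ j', j' ≠ j → A i j' = 0

theorem exists_clean (g : GL (Fin n) F) (k : ℕ) (hk : k ≤ n) :
    ∃ b ∈ upperTriangularGL n F, ∃ b' ∈ upperTriangularGL n F,
      Clean k ((b * g * b' : GL (Fin n) F) : Matrix (Fin n) (Fin n) F) := by
  classical
  induction k with
  | zero => exact ⟨1, Subgroup.one_mem _, 1, Subgroup.one_mem _, fun j hj => absurd hj (by omega)⟩
  | succ k ih =>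
    obtain ⟨b, hb, b', hb', hc⟩ := ih (by omega)
    set u : GL (Fin n) F := b * g * b' with hu
    set A : Matrix (Fin n) (Fin n) F := u.val with hA
    let j0 : Fin n := ⟨k, by omega⟩
    have hne : (Finset.univ.filter fun i => A i j0 ≠ 0).Nonempty := by
      by_contra hcon
      rw [Finset.not_nonempty_iff_eq_empty, Finset.filter_eq_empty_iff] at hcon
      have h0 : A.det = 0 := Matrix.det_eq_zero_of_column_eq_zero j0 fun i => by
        simpa using hcon (Finset.mem_univ i)
      exact (Matrix.GeneralLinearGroup.det_ne_zero u) h0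
    let i0 := (Finset.univ.filter fun i => A i j0 ≠ 0).max' hne
    have hi0 : A i0 j0 ≠ 0 := (Finset.mem_filter.1 (Finset.max'_mem _ hne)).2
    have hmax : ∀ i, i0 < i → A i j0 = 0 := fun i hi => by
      by_contra h
      exact absurd (Finset.le_max' _ i (Finset.mem_filter.2 ⟨Finset.mem_univ _, h⟩)) (not_le.2 hi)
    -- row `i0` vanishes on the first `k` columns
    have hrow : ∀ j : Fin n, j.val < k → A i0 j = 0 := fun j hj => by
      obtain ⟨i, h1, h2⟩ := hc j hj
      rw [h1]
      split_ifs with h
      · exfalso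
        apply hi0
        rw [h]
        exact h2 j0 (fun e => by rw [← e] at hj; exact absurd hj (lt_irrefl k))
      · rfl
    let L : Matrix (Fin n) (Fin n) F := fun i i' =>
      if i' = i0 then (if i = i0 then (A i0 j0)⁻¹ else -(A i j0) * (A i0 j0)⁻¹)
      else if i = i' then 1 else 0
    let R : Matrix (Fin n) (Fin n) F := fun j j' =>
      if j = j0 then (if j' = j0 then 1 else -(A i0 j') * (A i0 j0)⁻¹)
      else if j = j' then 1 else 0
    have hL : L.BlockTriangular id := by
      intro i i' h
      have h' : i' < i := h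
      simp only [L]
      split_ifs with h1 h2 h3
      · rw [h1, h2] at h'; exact absurd h' (lt_irrefl _)
      · rw [hmax i (h1 ▸ h')]; simp
      · rw [h3] at h'; exact absurd h' (lt_irrefl _)
      · rfl
    have hR : R.BlockTriangular id := by
      intro j j' h
      have h' : j' < j := h
      simp only [R]
      split_ifs with h1 h2 h3
      · rw [h1, h2] at h'; exact absurd h' (lt_irrefl _)
      · rw [hrow j' (by rw [h1] at h'; exact h')]; simp
      · rw [h3] at h'; exact absurd h' (lt_irrefl _)
      · rfl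
    have hLd : L.det ≠ 0 := by
      rw [Matrix.det_of_isUpperTriangular hL]
      refine Finset.prod_ne_zero_iff.2 fun i _ => ?_
      simp only [L]
      split_ifs with h1
      · exact inv_ne_zero hi0
      · simp
    have hRd : R.det ≠ 0 := by
      rw [Matrix.det_of_isUpperTriangular hR]
      refine Finset.prod_ne_zero_iff.2 fun i _ => ?_
      simp only [R]
      split_ifs with h1 <;> simp
    have hLA : ∀ i j, (L * A) i j =
        if i = i0 then (A i0 j0)⁻¹ * A i0 j else A i j - A i j0 * (A i0 j0)⁻¹ * A i0 j := by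
      intro i j
      rw [Matrix.mul_apply]
      split_ifs with h
      · rw [Finset.sum_eq_single i0]
        · simp [L, h]
        · intro i' _ hi'
          simp [L, hi', h, Ne.symm hi']
        · simp
      · rw [Finset.sum_eq_add i i0 h]
        · simp only [L, h, if_false, if_true]; ring
        · intro c _ hc'
          simp [L, hc'.2, Ne.symm hc'.1]
        · simp
        · simp
    have hMR : ∀ (M : Matrix (Fin n) (Fin n) F) i j, (M * R) i j =
        if j = j0 then M i j0 else M i j - M i j0 * (A i0 j * (A i0 j0)⁻¹) := by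
      intro M i j
      rw [Matrix.mul_apply]
      split_ifs with h
      · rw [Finset.sum_eq_single j0]
        · simp [R, h]
        · intro i' _ hi'
          simp [R, hi', h]
        · simp
      · rw [Finset.sum_eq_add j j0 h]
        · simp only [R, h, if_false, if_true]; ring
        · intro c _ hc'
          simp [R, hc'.2, hc'.1]
        · simp
        · simp
    refine ⟨Matrix.GeneralLinearGroup.mkOfDetNeZero L hLd * b, Subgroup.mul_mem _ hL hb,
      b' * Matrix.GeneralLinearGroup.mkOfDetNeZero R hRd, Subgroup.mul_mem _ hb' hR, ?_⟩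
    have e : ((Matrix.GeneralLinearGroup.mkOfDetNeZero L hLd * b * g *
        (b' * Matrix.GeneralLinearGroup.mkOfDetNeZero R hRd) : GL (Fin n) F) :
          Matrix (Fin n) (Fin n) F) = L * A * R := by
      rw [hA, hu]
      simp only [Units.val_mul, Matrix.mul_assoc]
      rfl
    rw [e]
    have hcol : ∀ i, (L * A) i j0 = if i = i0 then 1 else 0 := fun i => by
      rw [hLA]
      split_ifs with h
      · exact inv_mul_cancel₀ hi0
      · field_simp; ring
    intro j hj
    rcases Nat.lt_succ_iff_lt_or_eq.1 hj with hj | hj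
    · obtain ⟨i, h1, h2⟩ := hc j hj
      have hjj : j ≠ j0 := fun e => by rw [e] at hj; exact absurd hj (lt_irrefl k)
      have hii : i ≠ i0 := fun e => hi0 (e ▸ h2 j0 hjj.symm)
      refine ⟨i, fun i' => ?_, fun j' hj' => ?_⟩
      · rw [hMR, if_neg hjj, hrow j hj, hLA, hrow j hj, ← h1]
        split_ifs with h
        · rw [h, hrow j hj]; simp
        · simp
      · rw [hMR, hcol, if_neg hii, hLA, if_neg hii, h2 j0 hjj.symm, h2 j' hj']
        simp
    · have hjj : j = j0 := Fin.ext hj
      subst hjj
      refine ⟨i0, fun i' => ?_, fun j' hj' => ?_⟩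
      · rw [hMR, if_pos rfl, hcol]
      · rw [hMR, if_neg hj', hcol, if_pos rfl, hLA, if_pos rfl]
        ring

/-- Bruhat decomposition (existence) -/
theorem exists_bruhat (g : GL (Fin n) F) :
    ∃ b ∈ upperTriangularGL n F, ∃ b' ∈ upperTriangularGL n F, ∃ w : Equiv.Perm (Fin n),
      g = b * permGL n F w * b' := by
  obtain ⟨b, hb, b', hb', hc⟩ := exists_clean g n le_rfl
  choose σ h1 h2 using fun j : Fin n => hc j j.2
  have hinj : Function.Injective σ := fun j j' e => by
    by_contra hne
    have := h1 j (σ j')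
    rw [h2 j' j hne, if_pos e.symm] at this
    exact zero_ne_one this
  refine ⟨b⁻¹, Subgroup.inv_mem _ hb, b'⁻¹, Subgroup.inv_mem _ hb',
    Equiv.ofBijective σ (Finite.injective_iff_bijective.1 hinj), ?_⟩
  have : permGL n F (Equiv.ofBijective σ (Finite.injective_iff_bijective.1 hinj)) = b * g * b' := by
    apply Units.ext
    ext i j
    rw [permGL_apply, h1]
    rfl
  rw [this]
  group

/-- indicator diagonal matrix -/
noncomputable def ind (F : Type*) [Field F] (p : Fin n → Prop) [DecidablePred p] :
    Matrix (Fin n) (Fin n) F :=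
  Matrix.diagonal fun i => if p i then 1 else 0

theorem rank_le {a b : Fin n → ℕ} {P Q : Matrix (Fin n) (Fin n) F} (hP : P.BlockTriangular a)
    (hQ : Q.BlockTriangular b) (A : Matrix (Fin n) (Fin n) F) (s t : ℕ) :
    (ind F (fun i => s ≤ a i) * (P * A * Q) * ind F (fun j => b j < t)).rank ≤
      (ind F (fun i => s ≤ a i) * A * ind F (fun j => b j < t)).rank := by
  have h1 : ind F (fun i => s ≤ a i) * P = ind F (fun i => s ≤ a i) * P * ind F (fun i => s ≤ a i) := by
    ext i j
    simp only [ind, Matrix.diagonal_mul, Matrix.mul_diagonal]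
    by_cases hi : s ≤ a i
    · by_cases hj : s ≤ a j
      · simp [hj]
      · rw [hP (show a j < a i by omega)]; simp
    · simp [hi]
  have h2 : Q * ind F (fun j => b j < t) = ind F (fun j => b j < t) * Q * ind F (fun j => b j < t) := by
    ext i j
    simp only [ind, Matrix.diagonal_mul, Matrix.mul_diagonal]
    by_cases hj : b j < t
    · by_cases hi : b i < t
      · simp [hi]
      · rw [hQ (show b j < b i by omega)]; simp
    · simp [hj]
  have : ind F (fun i => s ≤ a i) * (P * A * Q) * ind F (fun j => b j < t) =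
      (ind F (fun i => s ≤ a i) * P) * (ind F (fun i => s ≤ a i) * A * ind F (fun j => b j < t)) *
        (Q * ind F (fun j => b j < t)) := by
    calc _ = (ind F (fun i => s ≤ a i) * P) * A * (Q * ind F (fun j => b j < t)) := by
          simp only [Matrix.mul_assoc]
      _ = _ := by
          conv_lhs => rw [h1, h2]
          simp only [Matrix.mul_assoc]
  rw [this]
  exact (Matrix.rank_mul_le_left _ _).trans (Matrix.rank_mul_le_right _ _)

theorem rank_perm (p r : Fin n → Prop) [DecidablePred p] [DecidablePred r]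
    (w : Equiv.Perm (Fin n)) :
    (ind F p * (permGL n F w : Matrix (Fin n) (Fin n) F) * ind F r).rank =
      (Finset.univ.filter fun j => p (w j) ∧ r j).card := by
  classical
  have : ind F p * (permGL n F w : Matrix (Fin n) (Fin n) F) * ind F r =
      (permGL n F w : Matrix (Fin n) (Fin n) F) * ind F (fun j => p (w j) ∧ r j) := by
    ext i j
    simp only [ind, Matrix.diagonal_mul, Matrix.mul_diagonal, permGL_apply]
    by_cases h : i = w j
    · subst h
      by_cases h1 : p (w j) <;> by_cases h2 : r j <;> simp [h1, h2]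
    · simp [h]
  rw [this, Matrix.rank_mul_eq_right_of_isUnit_det _ _
    ((Matrix.isUnit_iff_isUnit_det _).1 (permGL n F w).isUnit), ind, Matrix.rank_diagonal,
    Fintype.card_subtype]
  congr 1
  ext j
  simp

theorem card_fiber_eq {ι : Type*} [Fintype ι] {a a' b : ι → ℕ}
    (h : ∀ s t, (Finset.univ.filter fun j => s ≤ a j ∧ b j < t).card =
      (Finset.univ.filter fun j => s ≤ a' j ∧ b j < t).card) (s t : ℕ) :
    (Finset.univ.filter fun j => a j = s ∧ b j = t).card =
      (Finset.univ.filter fun j => a' j = s ∧ b j = t).card := by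
  have key : ∀ a : ι → ℕ, (Finset.univ.filter fun j => a j = s ∧ b j = t).card +
      (Finset.univ.filter fun j => s ≤ a j ∧ b j < t).card +
      (Finset.univ.filter fun j => s + 1 ≤ a j ∧ b j < t + 1).card =
      (Finset.univ.filter fun j => s ≤ a j ∧ b j < t + 1).card +
      (Finset.univ.filter fun j => s + 1 ≤ a j ∧ b j < t).card := by
    intro a
    simp only [Finset.card_filter, ← Finset.sum_add_distrib]
    refine Finset.sum_congr rfl fun j _ => ?_
    split_ifs <;> omega
  have k1 := key a
  have k2 := key a'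
  rw [h, h, h, h] at k1
  omega

theorem compLabel_mono (μ : Fin n → ℕ) : Monotone (compLabel μ) := by
  intro i j hij
  unfold compLabel
  refine Finset.card_le_card fun k hk => ?_
  simp only [Finset.mem_filter, Finset.mem_univ, true_and] at hk ⊢
  exact hk.trans hij

theorem borel_le (μ : Fin n → ℕ) : upperTriangularGL n F ≤ parabolicGL n F μ := by
  intro g hg i j h
  exact hg ((compLabel_mono μ).reflect_lt h)

theorem permGL_mem {μ : Fin n → ℕ} {w : Equiv.Perm (Fin n)} (hw : w ∈ youngSubgroup μ) :
    permGL n F w ∈ parabolicGL n F μ := by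
  intro i j h
  rw [permGL_apply, if_neg]
  rintro rfl
  exact absurd (hw j) (ne_of_gt h)

theorem young_of_parabolic {μ ν : Fin n → ℕ} (w w' : Equiv.Perm (Fin n)) (h : GL (Fin n) F)
    (hh : h ∈ parabolicGL n F μ) (k : GL (Fin n) F) (hk : k ∈ parabolicGL n F ν)
    (e : permGL n F w' = h * permGL n F w * k) :
    ∃ h' ∈ youngSubgroup μ, ∃ k' ∈ youngSubgroup ν, w' = h' * w * k' := by
  classical
  have e' : permGL n F w = h⁻¹ * permGL n F w' * k⁻¹ := by rw [e]; group
  have hc : ∀ s t, (Finset.univ.filter fun j => s ≤ compLabel μ (w' j) ∧ compLabel ν j < t).card =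
      (Finset.univ.filter fun j => s ≤ compLabel μ (w j) ∧ compLabel ν j < t).card := by
    intro s t
    rw [← rank_perm (F := F) (fun i => s ≤ compLabel μ i) (fun j => compLabel ν j < t),
      ← rank_perm (F := F) (fun i => s ≤ compLabel μ i) (fun j => compLabel ν j < t)]
    apply le_antisymm
    · conv_lhs => rw [e]
      exact rank_le hh hk _ s t
    · conv_lhs => rw [e']
      exact rank_le ((parabolicGL n F μ).inv_mem hh) ((parabolicGL n F ν).inv_mem hk) _ s t
  have hf := card_fiber_eq hc
  let f : Fin n → ℕ × ℕ := fun j => (compLabel μ (w' j), compLabel ν j)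
  let f' : Fin n → ℕ × ℕ := fun j => (compLabel μ (w j), compLabel ν j)
  have hfib : ∀ c : ℕ × ℕ, Fintype.card {j // f j = c} = Fintype.card {j // f' j = c} := by
    rintro ⟨s, t⟩
    rw [Fintype.card_subtype, Fintype.card_subtype]
    simpa [f, f', Prod.ext_iff] using hf s t
  let τ : Equiv.Perm (Fin n) := Equiv.ofFiberEquiv fun c => Fintype.equivOfCardEq (hfib c)
  have hτ : ∀ j, f' (τ j) = f j := Equiv.ofFiberEquiv_map _
  refine ⟨w' * τ⁻¹ * w⁻¹, fun i => ?_, τ, fun j => congrArg Prod.snd (hτ j), by group⟩
  have := congrArg Prod.fst (hτ (τ⁻¹ (w⁻¹ i)))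
  simpa [f, f'] using this.symm

/-- parabolic double cosets in `GL_n` are counted by double cosets of Young subgroups -/
theorem card_doubleCoset_parabolic (F : Type*) [Field F] (μ ν : Fin n → ℕ) :
    Nat.card (DoubleCoset.Quotient (parabolicGL n F μ : Set (GL (Fin n) F)) (parabolicGL n F ν)) =
      Nat.card (DoubleCoset.Quotient (youngSubgroup μ : Set (Equiv.Perm (Fin n)))
        (youngSubgroup ν)) := by
  refine card_doubleCoset_eq (permGL n F) (fun w hw => permGL_mem hw) (fun w hw => permGL_mem hw)
    (fun g => ?_) young_of_parabolic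
  obtain ⟨b, hb, b', hb', w, e⟩ := exists_bruhat g
  exact ⟨b, borel_le μ hb, b', borel_le ν hb', w, e⟩

theorem classInner_parabolic (F : Type*) [Field F] [Fintype (GL (Fin n) F)] (μ ν : Fin n → ℕ) :
    classInner (fixedPointCharacter (parabolicGL n F μ)) (fixedPointCharacter (parabolicGL n F ν)) =
      classInner (fixedPointCharacter (youngSubgroup μ)) (fixedPointCharacter (youngSubgroup ν)) := by
  rw [classInner_fixed, classInner_fixed, card_doubleCoset_parabolic]

end Cfsg.Lib.Char.GLFlag
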