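import Cfsg.Agent.Char.GLUnip
import Mathlib.LinearAlgebra.Matrix.GeneralLinearGroup.Card

/-! Orders of block triangular groups and the index of the standard parabolic subgroups of `GL_n(q)`. -/

namespace Cfsg.Lib.Char.GLFlag

open Finset

variable {F : Type*} [Field F]

/-- Invertible block triangular matrices: diagonal blocks and entries above the blocks. -/
noncomputable def blockTriEquiv {ι α : Type*} [Fintype ι] [DecidableEq ι] [Fintype α] [LinearOrder α]
    (b : ι → α) :
    {M : Matrix ι ι F // M.BlockTriangular b ∧ M.det ≠ 0} ≃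
      ((a : α) → {N : Matrix {i // b i = a} {i // b i = a} F // N.det ≠ 0}) ×
        ({p : ι × ι // b p.1 < b p.2} → F) where
  toFun M := (fun a => ⟨M.1.toSquareBlock b a, fun h => M.2.2 (by
      rw [M.2.1.det_fintype]; exact Finset.prod_eq_zero (mem_univ a) h)⟩, fun p => M.1 p.1.1 p.1.2)
  invFun x := ⟨Matrix.of fun i j => if h : b i = b j then (x.1 (b j)).1 ⟨i, h⟩ ⟨j, rfl⟩
      else if h : b i < b j then x.2 ⟨(i, j), h⟩ else 0, by
    have ht : (Matrix.of fun i j => if h : b i = b j then (x.1 (b j)).1 ⟨i, h⟩ ⟨j, rfl⟩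
      else if h : b i < b j then x.2 ⟨(i, j), h⟩ else 0).BlockTriangular b := by
      intro i j hij
      simp [hij.ne', hij.not_gt]
    refine ⟨ht, ?_⟩
    rw [ht.det_fintype]
    refine Finset.prod_ne_zero_iff.2 fun a _ => ?_
    convert (x.1 a).2 using 2
    ext ⟨i, hi⟩ ⟨j, rfl⟩
    simp [Matrix.toSquareBlock_def, hi]⟩
  left_inv M := by
    ext i j
    simp only [Matrix.toSquareBlock_def, Matrix.of_apply]
    split_ifs with h1 h2
    · rfl
    · rfl
    · exact (M.2.1 (lt_of_le_of_ne (not_lt.1 h2) (Ne.symm h1))).symm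
  right_inv x := by
    refine Prod.ext ?_ ?_
    · funext a
      ext ⟨i, hi⟩ ⟨j, rfl⟩
      simp [Matrix.toSquareBlock_def, hi]
    · funext ⟨⟨i, j⟩, h⟩
      simp [h.ne, h]

/-- The q-factorial. -/
def qfact (q m : ℕ) : ℕ := ∏ j ∈ range m, ∑ l ∈ range (j + 1), q ^ l

theorem prod_pow_sub (q m : ℕ) (hq : 1 ≤ q) :
    ∏ i : Fin m, (q ^ m - q ^ (i : ℕ)) = q ^ m.choose 2 * (q - 1) ^ m * qfact q m := by
  rw [Fin.prod_univ_eq_prod_range (fun i => q ^ m - q ^ i) m]
  have h1 : ∀ i ∈ range m, q ^ m - q ^ i = q ^ i * ((q - 1) * ∑ l ∈ range (m - 1 - i + 1), q ^ l) := by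
    intro i hi
    have hi := mem_range.1 hi
    rw [mul_comm (q - 1), geom_sum_mul_of_one_le hq, Nat.mul_sub, mul_one, ← pow_add]
    congr 2
    omega
  rw [prod_congr rfl h1, prod_mul_distrib, prod_mul_distrib, prod_pow_eq_pow_sum, prod_const, card_range,
    Finset.sum_range_id, ← Nat.choose_two_right, qfact,
    prod_range_reflect (fun j => ∑ l ∈ range (j + 1), q ^ l) m, mul_assoc]

theorem card_det_ne_zero [Fintype F] {κ : Type*} [Fintype κ] [DecidableEq κ] :
    Nat.card {N : Matrix κ κ F // N.det ≠ 0} =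
      Fintype.card F ^ (Fintype.card κ).choose 2 * (Fintype.card F - 1) ^ Fintype.card κ *
        qfact (Fintype.card F) (Fintype.card κ) := by
  rw [← prod_pow_sub _ _ Fintype.card_pos, ← Matrix.card_GL_field]
  let e := Fintype.equivFin κ
  refine Nat.card_congr
    { toFun := fun N => Matrix.GeneralLinearGroup.mkOfDetNeZero (Matrix.reindex e e N.1) (by simpa using N.2)
      invFun := fun g => ⟨Matrix.reindex e.symm e.symm (g : Matrix _ _ F), by
        simpa using g.det_ne_zero⟩
      left_inv := fun N => by ext i j; simp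
      right_inv := fun g => by ext i j; simp }

theorem card_lt_pairs {ι α : Type*} [Fintype ι] [Fintype α] [LinearOrder α] (b : ι → α) :
    Fintype.card {p : ι × ι // b p.1 < b p.2} + ∑ a, (Fintype.card {i // b i = a}).choose 2 =
      (Fintype.card ι).choose 2 := by
  classical
  have h1 : #(univ.filter fun p : ι × ι => b p.1 < b p.2) = #(univ.filter fun p : ι × ι => b p.2 < b p.1) :=
    card_bij' (fun p _ => p.swap) (fun p _ => p.swap) (by simp) (by simp) (by simp) (by simp)
  have h2 : #(univ.filter fun p : ι × ι => b p.1 = b p.2) = ∑ a, (Fintype.card {i // b i = a}) ^ 2 := by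
    rw [card_eq_sum_card_fiberwise (f := fun p : ι × ι => b p.1) (t := univ) (by simp)]
    refine sum_congr rfl fun a _ => ?_
    rw [Fintype.card_subtype, sq, ← card_product]
    congr 1
    ext p
    simp only [mem_filter, mem_univ, true_and, mem_product]
    constructor
    · rintro ⟨h, h'⟩; exact ⟨h', h ▸ h'⟩
    · rintro ⟨h, h'⟩; exact ⟨h.trans h'.symm, h⟩
  have h3 : #(univ.filter fun p : ι × ι => b p.1 < b p.2) + #(univ.filter fun p : ι × ι => b p.1 = b p.2) +
      #(univ.filter fun p : ι × ι => b p.2 < b p.1) = Fintype.card ι ^ 2 := by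
    simp only [card_eq_sum_ones, sum_filter, ← sum_add_distrib]
    rw [sq, ← Fintype.card_prod, ← card_univ, card_eq_sum_ones]
    refine sum_congr rfl fun p _ => ?_
    rcases lt_trichotomy (b p.1) (b p.2) with h | h | h
    · simp [h, h.ne, h.not_gt]
    · simp [h]
    · simp [h, h.ne', h.not_gt]
  have h4 : ∑ a, Fintype.card {i // b i = a} = Fintype.card ι := by
    simp only [Fintype.card_subtype]
    rw [← card_univ, card_eq_sum_card_fiberwise (f := b) (t := univ) (by simp)]
  have h5 : ∀ m : ℕ, 2 * m.choose 2 + m = m ^ 2 := by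
    intro m
    induction m with
    | zero => simp
    | succ m ih => rw [Nat.choose_succ_succ' m 1, Nat.choose_one_right]; nlinarith
  have h6 : ∑ a, (Fintype.card {i // b i = a}) ^ 2 =
      2 * ∑ a, (Fintype.card {i // b i = a}).choose 2 + Fintype.card ι := by
    rw [← h4, mul_sum, ← sum_add_distrib]
    exact sum_congr rfl fun a _ => (h5 _).symm
  rw [Fintype.card_subtype]
  have := h5 (Fintype.card ι)
  omega

theorem card_blockTri [Fintype F] {ι α : Type*} [Fintype ι] [DecidableEq ι] [Fintype α] [LinearOrder α]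
    (b : ι → α) :
    Nat.card {M : Matrix ι ι F // M.BlockTriangular b ∧ M.det ≠ 0} =
      Fintype.card F ^ (Fintype.card ι).choose 2 * (Fintype.card F - 1) ^ Fintype.card ι *
        ∏ a, qfact (Fintype.card F) (Fintype.card {i // b i = a}) := by
  classical
  have h4 : ∑ a, Fintype.card {i // b i = a} = Fintype.card ι := by
    simp only [Fintype.card_subtype]
    rw [← card_univ, card_eq_sum_card_fiberwise (f := b) (t := univ) (by simp)]
  rw [Nat.card_congr (blockTriEquiv b), Nat.card_prod, Nat.card_pi, Nat.card_fun]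
  simp only [card_det_ne_zero]
  simp only [Nat.card_eq_fintype_card]
  rw [prod_mul_distrib, prod_mul_distrib, prod_pow_eq_pow_sum, prod_pow_eq_pow_sum, h4, ← card_lt_pairs b,
    pow_add]
  ring

theorem qfact_pos {q : ℕ} (m : ℕ) : 0 < qfact q m :=
  prod_pos fun j _ => by rw [sum_range_succ']; simp

theorem index_parabolic [Fintype F] {n : ℕ} {μ : Fin n → ℕ} (hμ : ∑ i, μ i = n) :
    Nat.card (GL (Fin n) F ⧸ parabolicGL n F μ) * ∏ i, qfact (Fintype.card F) (μ i) =
      qfact (Fintype.card F) n := by
  let b : Fin n → Fin n := fun i => ⟨compLabel μ i, compLabel_lt hμ i⟩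
  have h1 : Nat.card (parabolicGL n F μ) =
      Nat.card {M : Matrix (Fin n) (Fin n) F // M.BlockTriangular b ∧ M.det ≠ 0} :=
    Nat.card_congr
      { toFun := fun g => ⟨g.1, fun i j h => g.2 h, g.1.det_ne_zero⟩
        invFun := fun M => ⟨Matrix.GeneralLinearGroup.mkOfDetNeZero M.1 M.2.2, fun i j h => M.2.1 h⟩
        left_inv := fun g => by ext i j; simp
        right_inv := fun M => by ext i j; simp }
  have h2 : ∀ a, Fintype.card {i // b i = a} = μ a := by
    intro a
    rw [Fintype.card_subtype, ← card_compLabel hμ a]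
    congr 1
    ext i
    simp [b, Fin.ext_iff]
  have h3 := Subgroup.card_eq_card_quotient_mul_card_subgroup (parabolicGL n F μ)
  rw [h1, card_blockTri, Matrix.card_GL_field, prod_pow_sub _ _ Fintype.card_pos] at h3
  simp only [h2, Fintype.card_fin] at h3
  have hq : 1 < Fintype.card F := Fintype.one_lt_card
  have hpos : 0 < Fintype.card F ^ n.choose 2 * (Fintype.card F - 1) ^ n := by
    have : 0 < Fintype.card F - 1 := by omega
    positivity
  refine Nat.eq_of_mul_eq_mul_left hpos ?_
  rw [h3]; ring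

end Cfsg.Lib.Char.GLFlag
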