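import Cfsg.Agent.Char.GLFlag
import Cfsg.Agent.Char.SymCore

/-! The unipotent characters of `GL_n(q)`, by comparison with the symmetric group. -/

set_option autoImplicit false

namespace Cfsg.Lib.Char.GLFlag

open Cfsg.Lib.SymChar Finset Equiv

variable {n : ℕ}

theorem compLabel_lt_iff (μ : Fin n → ℕ) (i : Fin n) {t : ℕ} (ht : t ≤ n) :
    compLabel μ i < t ↔ i.val < ∑ k ∈ univ.filter (fun k : Fin n => k.val < t), μ k := by
  cases t with
  | zero => simp
  | succ t =>
    let j : Fin n := ⟨t, ht⟩
    have hS : ∀ j' : Fin n, (univ.filter fun k : Fin n => k ≤ j') =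
        univ.filter fun k : Fin n => k.val < j'.val + 1 := fun j' => by
      ext k; simp
    have hmono : ∀ {s s' : ℕ}, s ≤ s' → ∑ k ∈ univ.filter (fun k : Fin n => k.val < s), μ k ≤
        ∑ k ∈ univ.filter (fun k : Fin n => k.val < s'), μ k := fun h =>
      Finset.sum_le_sum_of_subset fun k hk => by
        simp only [mem_filter, mem_univ, true_and] at hk ⊢; omega
    unfold compLabel
    simp only [hS]
    constructor
    · intro h
      by_contra hcon
      push Not at hcon
      have : Finset.Iic j ⊆ univ.filter fun j' : Fin n =>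
          ∑ k ∈ univ.filter (fun k : Fin n => k.val < j'.val + 1), μ k ≤ i.val := fun j' hj' => by
        simp only [mem_filter, mem_univ, true_and]
        have : j'.val ≤ t := (Finset.mem_Iic (a := j)).1 hj'
        exact (hmono (by omega)).trans hcon
      have h2 := Finset.card_le_card this
      rw [Fin.card_Iic] at h2
      change t + 1 ≤ _ at h2
      omega
    · intro h
      have : (univ.filter fun j' : Fin n =>
          ∑ k ∈ univ.filter (fun k : Fin n => k.val < j'.val + 1), μ k ≤ i.val) ⊆ Finset.Iio j :=
        fun j' hj' => by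
          simp only [mem_filter, mem_univ, true_and] at hj'
          rw [Finset.mem_Iio]
          by_contra hc
          have : t ≤ j'.val := not_lt.1 hc
          have := hmono (show t + 1 ≤ j'.val + 1 by omega)
          omega
      have h2 := Finset.card_le_card this
      rw [Fin.card_Iio] at h2
      change _ ≤ t at h2
      omega

theorem compLabel_lt {μ : Fin n → ℕ} (hμ : ∑ i, μ i = n) (i : Fin n) : compLabel μ i < n := by
  rw [compLabel_lt_iff μ i le_rfl, Finset.filter_true_of_mem fun k _ => k.2, hμ]
  exact i.2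

theorem card_filter_val_lt {s : ℕ} (hs : s ≤ n) :
    #(univ.filter fun i : Fin n => i.val < s) = s := by
  rw [Fin.card_filter_val_lt, min_eq_right hs]

theorem card_compLabel {μ : Fin n → ℕ} (hμ : ∑ i, μ i = n) (j : Fin n) :
    #(univ.filter fun i => compLabel μ i = j.val) = μ j := by
  have hle : ∀ t, ∑ k ∈ univ.filter (fun k : Fin n => k.val < t), μ k ≤ n := fun t =>
    (Finset.sum_le_sum_of_subset (Finset.subset_univ _)).trans hμ.le
  have h : ∀ t ≤ n, #(univ.filter fun i => compLabel μ i < t) =
      ∑ k ∈ univ.filter (fun k : Fin n => k.val < t), μ k := fun t ht => by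
    simp only [compLabel_lt_iff μ _ ht]
    exact card_filter_val_lt (hle t)
  have h1 := h j.val j.2.le
  have h2 := h (j.val + 1) j.2
  have h3 : ∑ k ∈ univ.filter (fun k : Fin n => k.val < j.val + 1), μ k =
      ∑ k ∈ univ.filter (fun k : Fin n => k.val < j.val), μ k + μ j := by
    rw [add_comm _ (μ j), ← Finset.sum_insert (by simp)]
    congr 1
    ext k
    simp only [mem_filter, mem_univ, true_and, mem_insert, Fin.ext_iff]
    omega
  have h4 : #(univ.filter fun i => compLabel μ i < j.val + 1) =
      #(univ.filter fun i => compLabel μ i < j.val) +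
        #(univ.filter fun i => compLabel μ i = j.val) := by
    simp only [Finset.card_filter, ← Finset.sum_add_distrib]
    refine Finset.sum_congr rfl fun i _ => ?_
    split_ifs <;> omega
  omega

theorem cont_apply {ι Ω : Type*} [Fintype Ω] [DecidableEq ι] (f : Ω → ι) (j : ι) :
    cont f j = #(univ.filter fun x => f x = j) := by
  simp only [cont, Finsupp.finsetSum_apply, Finsupp.single_apply, Finset.card_filter]

theorem fixed_young {μ : Fin n → ℕ} (hμ : ∑ i, μ i = n) (σ : Perm (Fin n)) :
    fixedPointCharacter (youngSubgroup μ) σ =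
      (Nat.card (MulAction.fixedBy (Col (Fin n) (toF μ)) σ) : ℂ) := by
  let f0 : Col (Fin n) (toF μ) := ⟨fun i => ⟨compLabel μ i, compLabel_lt hμ i⟩, by
    ext j
    rw [cont_apply, toF_apply, ← card_compLabel hμ j]
    simp only [Fin.ext_iff]⟩
  have hrel : ∀ a b : Perm (Fin n), a⁻¹ * b ∈ youngSubgroup μ ↔ a • f0 = b • f0 := by
    intro a b
    constructor
    · intro h
      apply Subtype.ext
      funext x
      apply Fin.ext
      have := h (b⁻¹ x)
      change compLabel μ (a⁻¹ x) = compLabel μ (b⁻¹ x)
      simpa using this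
    · intro h x
      have : compLabel μ (a⁻¹ (b x)) = compLabel μ (b⁻¹ (b x)) :=
        congrArg Fin.val (congrFun (congrArg Subtype.val h) (b x))
      simpa using this
  let φ : Perm (Fin n) ⧸ youngSubgroup μ → Col (Fin n) (toF μ) := fun q =>
    Quotient.liftOn' q (fun a => a • f0) fun a b h => (hrel a b).1 (QuotientGroup.leftRel_apply.1 h)
  have hφ : ∀ (g : Perm (Fin n)) q, φ (g • q) = g • φ q := by
    intro g q
    induction q using QuotientGroup.induction_on with | _ a => ?_
    exact mul_smul g a f0
  have hbij : Function.Bijective φ := by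
    constructor
    · intro q q'
      induction q using QuotientGroup.induction_on with | _ a => ?_
      induction q' using QuotientGroup.induction_on with | _ b => ?_
      intro h
      exact QuotientGroup.eq.2 ((hrel a b).2 h)
    · intro f
      have hfib : ∀ c, Fintype.card {j // f.1 j = c} = Fintype.card {j // f0.1 j = c} := by
        intro c
        rw [Fintype.card_subtype, Fintype.card_subtype, ← cont_apply, ← cont_apply, f.2, f0.2]
      let τ : Perm (Fin n) := Equiv.ofFiberEquiv fun c => Fintype.equivOfCardEq (hfib c)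
      have hτ : ∀ j, f0.1 (τ j) = f.1 j := Equiv.ofFiberEquiv_map _
      exact ⟨(τ⁻¹ : Perm (Fin n)), Subtype.ext (funext hτ)⟩
  unfold fixedPointCharacter
  congr 1
  refine Nat.card_congr (Equiv.subtypeEquiv (Equiv.ofBijective φ hbij) fun q => ?_)
  simp only [MulAction.mem_fixedBy, Equiv.ofBijective_apply, ← hφ]
  exact hbij.1.eq_iff.symm

/-- the alternating sum for a family of class functions indexed by compositions -/
noncomputable def altSum {G : Type*} (π : (Fin n → ℕ) → G → ℂ) (β : Fin n → ℕ) : G → ℂ :=
  ∑ κ : Perm (Fin n), if ∀ i : Fin n, (κ i).val ≤ β i then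
    ((Perm.sign κ : ℤ) : ℂ) • π (fun i => β i - (κ i).val) else 0

theorem unipotent_eq (F : Type*) [Field F] (ν : Fin n → ℕ) : unipotentCharacterGL n F ν =
    altSum (fun μ => fixedPointCharacter (parabolicGL n F μ)) fun i => ν i + i.val := by
  funext g
  unfold unipotentCharacterGL altSum
  rw [Finset.sum_apply]
  refine Finset.sum_congr rfl fun κ _ => ?_
  split_ifs <;> rfl

theorem classInner_altSum_left {G H : Type*} [Group G] [Fintype G] [Group H] [Fintype H]
    {π : (Fin n → ℕ) → G → ℂ} {π' : (Fin n → ℕ) → H → ℂ} {φ : G → ℂ} {φ' : H → ℂ}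
    (h : ∀ μ, classInner (π μ) φ = classInner (π' μ) φ') (β : Fin n → ℕ) :
    classInner (altSum π β) φ = classInner (altSum π' β) φ' := by
  unfold altSum
  rw [classInner_sum_left, classInner_sum_left]
  refine Finset.sum_congr rfl fun κ _ => ?_
  split_ifs
  · rw [classInner_smul_left, classInner_smul_left, h]
  · simp

theorem classInner_altSum {G H : Type*} [Group G] [Fintype G] [Group H] [Fintype H]
    {π : (Fin n → ℕ) → G → ℂ} {π' : (Fin n → ℕ) → H → ℂ}
    (h : ∀ μ ν, classInner (π μ) (π ν) = classInner (π' μ) (π' ν)) (β γ : Fin n → ℕ) :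
    classInner (altSum π β) (altSum π γ) = classInner (altSum π' β) (altSum π' γ) := by
  refine classInner_altSum_left (fun μ => ?_) β
  rw [← conj_classInner, classInner_altSum_left (fun ν => h ν μ) γ, conj_classInner]

theorem isGeneralizedCharacter_altSum {G : Type*} [Group G] {π : (Fin n → ℕ) → G → ℂ}
    (h : ∀ μ, IsCharacter G (π μ)) (β : Fin n → ℕ) : IsGeneralizedCharacter G (altSum π β) := by
  refine isGeneralizedCharacter_sum _ fun w _ => ?_
  split_ifs
  · exact (h _).isGeneralizedCharacter.intCast_smul _
  · exact isGeneralizedCharacter_zero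

/-- the enumeration used by `del` -/
noncomputable def delPerm (n : ℕ) : Perm (Fin n) :=
  (Fintype.equivFin (Fin n)).trans (finCongr (Fintype.card_fin n))

theorem del_eq (i : Fin n) : del (Fin n) i = (delPerm n i).val := rfl

theorem sum_del : ∑ i, del (Fin n) i = ∑ i : Fin n, i.val :=
  Equiv.sum_comp (delPerm n) Fin.val

theorem chi_eq_altSum {β : Fin n → ℕ} (hβ : ∑ i, β i = n + ∑ i : Fin n, i.val) :
    chi (Fin n) β = sg (delPerm n) • altSum (fun μ => fixedPointCharacter (youngSubgroup μ)) β := by
  funext σ
  rw [chi_apply, SymChar.F, aDel, Finset.sum_mul, MvPolynomial.coeff_sum, Pi.smul_apply, altSum,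
    Finset.sum_apply, Finset.smul_sum, ← Equiv.sum_comp (Equiv.mulLeft (delPerm n))
      (fun κ : Perm (Fin n) => sg (delPerm n) • _)]
  refine Finset.sum_congr rfl fun w _ => ?_
  rw [MvPolynomial.coeff_monomial_mul']
  have hc : toF (del (Fin n) ∘ w) ≤ toF β ↔ ∀ i, ((Equiv.mulLeft (delPerm n) w) i).val ≤ β i :=
    Iff.rfl
  by_cases h : ∀ i, ((Equiv.mulLeft (delPerm n) w) i).val ≤ β i
  · rw [if_pos (hc.2 h), if_pos h, coeff_psum_parts, Pi.smul_apply, fixed_young]
    · have e : toF β - toF (del (Fin n) ∘ w) =
          toF fun i => β i - ((Equiv.mulLeft (delPerm n) w) i).val := by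
        ext i; rfl
      rw [e]
      change sg w * _ = sg (delPerm n) * (sg (delPerm n * w) * _)
      rw [sg_mul, ← mul_assoc, ← mul_assoc, sg_mul_self, one_mul]
    · have h1 : ∑ i, (β i - ((Equiv.mulLeft (delPerm n) w) i).val) +
          ∑ i, ((Equiv.mulLeft (delPerm n) w) i).val = ∑ i, β i := by
        rw [← Finset.sum_add_distrib]
        exact Finset.sum_congr rfl fun i _ => Nat.sub_add_cancel (h i)
      rw [Equiv.sum_comp (Equiv.mulLeft (delPerm n) w) Fin.val] at h1
      omega
  · rw [if_neg (fun h' => h (hc.1 h')), if_neg h]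
    simp

theorem altSum_young_eq {β : Fin n → ℕ} (hβ : ∑ i, β i = n + ∑ i : Fin n, i.val) :
    altSum (fun μ => fixedPointCharacter (youngSubgroup μ)) β = sg (delPerm n) • chi (Fin n) β := by
  rw [chi_eq_altSum hβ, smul_smul, sg_mul_self, one_smul]

theorem mem_TT_of {β : Fin n → ℕ} (hβ : ∑ i, β i = n + ∑ i : Fin n, i.val) :
    β ∈ TT (Fin n) (Fin n) := by
  rw [mem_T, sum_del, Fintype.card_fin, hβ, add_comm]

theorem chi_one_of_strictMono {β : Fin n → ℕ} (hm : StrictMono β)
    (hβ : ∑ i, β i = n + ∑ i : Fin n, i.val) :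
    chi (Fin n) β 1 = (NP 1 β : ℂ) * sg (delPerm n) := by
  have h := F_replicate_add Nat.one_pos hm.injective 0
  rw [add_zero, wt_one_of_mem_TT hm.injective (mem_TT_of hβ), ← parts_one, ← chi_apply,
    F_zero] at h
  have hc : core 1 β = del (Fin n) ∘ ((delPerm n)⁻¹ : Perm (Fin n)) := by
    funext i
    simp only [core, rk, Nat.mod_one, true_and, one_mul, add_zero, Function.comp_apply, del_eq,
      hm.lt_iff_lt, Perm.coe_inv, apply_symm_apply]
    rw [← Fin.card_Iio]
    congr 1
    ext k; simp
  rw [h, hc, alt_comp del_injective, sg_inv]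

theorem strictMono_add {ν : Fin n → ℕ} (h : Monotone ν) : StrictMono fun i => ν i + i.val :=
  fun _ _ hij => Nat.add_lt_add_of_le_of_lt (h hij.le) hij

theorem classInner_unipotent (F : Type*) [Field F] [Fintype (GL (Fin n) F)] {ν ν' : Fin n → ℕ}
    (hm : Monotone ν) (hs : ∑ i, ν i = n) (hs' : ∑ i, ν' i = n) :
    classInner (unipotentCharacterGL n F ν) (unipotentCharacterGL n F ν') =
      alt (fun i => ν i + i.val) (fun i => ν' i + i.val) := by
  have h1 : ∑ i, (ν i + i.val) = n + ∑ i : Fin n, i.val := by rw [Finset.sum_add_distrib, hs]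
  have h2 : ∑ i, (ν' i + i.val) = n + ∑ i : Fin n, i.val := by rw [Finset.sum_add_distrib, hs']
  rw [unipotent_eq, unipotent_eq, classInner_altSum (classInner_parabolic F), altSum_young_eq h1,
    altSum_young_eq h2, classInner_smul_left, classInner_smul_right, conj_sg, ← mul_assoc,
    sg_mul_self, one_mul, classInner_chi_eq_alt le_rfl
      (chi_ne_zero (strictMono_add hm).injective (mem_TT_of h1))]

theorem young_one : youngSubgroup (fun _ : Fin n => 1) = ⊥ := by
  have h : ∀ i : Fin n, compLabel (fun _ : Fin n => 1) i = i.val := by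
    intro i
    have h1 := compLabel_lt_iff (fun _ : Fin n => 1) i (t := i.val) i.2.le
    have h2 := compLabel_lt_iff (fun _ : Fin n => 1) i (t := i.val + 1) i.2
    rw [Finset.sum_const, smul_eq_mul, mul_one, card_filter_val_lt (by omega)] at h1 h2
    omega
  rw [eq_bot_iff]
  intro σ hσ
  rw [Subgroup.mem_bot]
  ext i
  have := hσ i
  rwa [h, h] at this

theorem classInner_fixed_bot {G : Type*} [Group G] [Fintype G] (φ : G → ℂ) :
    classInner φ (fixedPointCharacter (⊥ : Subgroup G)) = φ 1 := by
  unfold classInner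
  rw [Finset.sum_eq_single 1]
  · have : fixedPointCharacter (⊥ : Subgroup G) 1 = Nat.card G := by
      unfold fixedPointCharacter
      rw [MulAction.fixedBy_one_eq_univ, Nat.card_univ, ← Subgroup.index, Subgroup.index_bot]
    rw [this]
    have := card_ne_zero G
    simp only [map_natCast]
    field_simp
  · intro g _ hg
    have : fixedPointCharacter (⊥ : Subgroup G) g = 0 := by
      unfold fixedPointCharacter
      have : IsEmpty (MulAction.fixedBy (G ⧸ (⊥ : Subgroup G)) g) := ⟨fun ⟨q, hq⟩ => by
        induction q using QuotientGroup.induction_on with | _ a => ?_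
        have h : ((g * a : G) : G ⧸ (⊥ : Subgroup G)) = a := hq
        rw [QuotientGroup.eq, Subgroup.mem_bot] at h
        apply hg
        have h2 : a * ((g * a)⁻¹ * a) * a⁻¹ = g⁻¹ := by group
        rw [h] at h2
        simpa using h2⟩
      simp
    simp [this]
  · simp

theorem isIrr_unipotent (F : Type*) [Field F] [Finite F] {ν : Fin n → ℕ}
    (hm : Monotone ν) (hs : ∑ i, ν i = n) :
    IsIrrCharacter (GL (Fin n) F) (unipotentCharacterGL n F ν) := by
  classical
  have := Fintype.ofFinite (GL (Fin n) F)
  have h1 : ∑ i, (ν i + i.val) = n + ∑ i : Fin n, i.val := by rw [Finset.sum_add_distrib, hs]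
  have hg : IsGeneralizedCharacter (GL (Fin n) F) (unipotentCharacterGL n F ν) := by
    rw [unipotent_eq]
    exact isGeneralizedCharacter_altSum (fun μ => isCharacter_fixed _) _
  rcases hg.irr_or_neg_irr (by
    rw [classInner_unipotent F hm hs hs, alt_self (strictMono_add hm).injective]) with h | h
  · exact h
  exfalso
  obtain ⟨m, hm'⟩ := h.isCharacter.exists_nat_classInner
    (isCharacter_fixed (parabolicGL n F fun _ => 1))
  rw [classInner_neg_left, unipotent_eq,
    classInner_altSum_left (fun μ => classInner_parabolic F μ fun _ => 1), young_one,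
    classInner_fixed_bot, altSum_young_eq h1, Pi.smul_apply,
    chi_one_of_strictMono (strictMono_add hm) h1, smul_eq_mul, mul_left_comm, sg_mul_self,
    mul_one] at hm'
  have hp := NP_pos Nat.one_pos (strictMono_add hm).injective
  have : (((m + NP 1 fun i => ν i + i.val : ℕ)) : ℂ) = 0 := by
    push_cast; rw [← hm']; ring
  have := Nat.cast_eq_zero.1 this
  omega

theorem unipotent_injective (F : Type*) [Field F] [Finite F] {ν ν' : Fin n → ℕ}
    (hm : Monotone ν) (hs : ∑ i, ν i = n) (hm' : Monotone ν') (hs' : ∑ i, ν' i = n)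
    (h : unipotentCharacterGL n F ν = unipotentCharacterGL n F ν') : ν = ν' := by
  classical
  have := Fintype.ofFinite (GL (Fin n) F)
  have h1 := classInner_unipotent F hm hs hs'
  rw [← h, classInner_unipotent F hm hs hs, alt_self (strictMono_add hm).injective] at h1
  obtain ⟨w, hw⟩ := exists_of_alt_ne_zero (h1 ▸ one_ne_zero)
  have hw' : StrictMono w := fun i j hij => by
    have := strictMono_add hm' hij
    rw [hw] at this
    exact (strictMono_add hm).lt_iff_lt.1 this
  have hid : ∀ i, w i = i := fun i => by
    have := hw'.orderIsoOfSurjective _ w.surjective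
    exact Fin.ext (Fin.coe_orderIso_apply (hw'.orderIsoOfSurjective _ w.surjective) i)
  funext i
  have := congrFun hw i
  simp only [Function.comp_apply, hid] at this
  omega

end Cfsg.Lib.Char.GLFlag
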