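import Cfsg.Agent.Char.HallSymNum
import Cfsg.Agent.Char.Wreath
import Cfsg.Agent.Solv.Hall
import Cfsg.Agent.Solv.KegelWielandtA
import Cfsg.Agent.Perm.JordanSet
import Cfsg.Agent.Local.InvolCount

/-! Hall subgroups of symmetric and alternating groups: tools and the primitive case. -/

set_option autoImplicit false

namespace Cfsg.Lib.Char.HallSym

open Equiv Equiv.Perm MulAction Wreath Cfsg.Lib.Solv Cfsg.Lib.Perm
open scoped Pointwise

variable {Ω ι : Type*}

/-- Permutations preserving every fibre of `f`. -/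
def fixFun (f : Ω → ι) : Subgroup (Perm Ω) where
  carrier := {g | ∀ x, f (g x) = f x}
  one_mem' := fun _ => rfl
  mul_mem' := fun {g h} hg hh x => (hg _).trans (hh x)
  inv_mem' := fun {g} hg x => by simpa using (hg (g⁻¹ x)).symm

theorem fixFun_le (f : Ω → ι) : fixFun f ≤ partStab f := fun _ hg => mem_of_lift 1 hg

theorem card_fixFun [Fintype Ω] [Fintype ι] (f : Ω → ι) :
    Nat.card (fixFun f) = ∏ i, (Nat.card {x // f x = i}).factorial := by
  classical
  have := DomMulAct.stabilizer_card f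
  simp only [← Nat.card_eq_fintype_card] at this
  rw [← this]
  exact Nat.card_congr (Equiv.subtypeEquivRight fun g => (funext_iff (f := f ∘ g)).symm)

theorem card_partStab_dvd [Fintype Ω] [Fintype ι] {f : Ω → ι} {a : ℕ} (ha : 0 < a)
    (hf : ∀ i, Nat.card {x // f x = i} = a) :
    Nat.card (partStab f) ∣ (Fintype.card ι).factorial * a.factorial ^ Fintype.card ι := by
  classical
  have hs : ∀ i, ∃ x, f x = i := fun i => (exists_fibre hf ∅ ha i).imp fun _ h => h.1
  choose s hs using hs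
  let _ : MulAction (partStab f) ι :=
    { smul := fun g i => f (g.1 (s i))
      one_smul := hs
      mul_smul := fun g h i => (g.2 _ _).1 (hs _).symm }
  have hk : (toPermHom (partStab f) ι).ker = (fixFun f).subgroupOf (partStab f) := by
    ext g
    rw [MonoidHom.mem_ker, Equiv.ext_iff]
    refine ⟨fun h x => ?_, fun h i => (h _).trans (hs i)⟩
    exact ((g.2 _ _).1 (hs (f x))).symm.trans (h (f x))
  rw [← (toPermHom (partStab f) ι).ker.index_mul_card, Subgroup.index_ker, hk,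
    Nat.card_congr (Subgroup.subgroupOfEquivOfLe (fixFun_le f)).toEquiv, card_fixFun]
  simp only [hf, Finset.prod_const, Finset.card_univ]
  refine Nat.mul_dvd_mul_right ?_ _
  rw [← Fintype.card_perm, ← Nat.card_eq_fintype_card]
  exact Subgroup.card_subgroup_dvd_card _

variable [Fintype Ω] [DecidableEq Ω]

/-- A `π`-subgroup of the symmetric group whose even part is a Hall subgroup of `Alt`. -/
def Good (π : Set ℕ) (M : Subgroup (Perm Ω)) : Prop :=
  IsPiSubgroup π M ∧ ∀ p : ℕ, p.Prime → p ∈ π → ¬ p ∣ M.relIndex (alternatingGroup Ω)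

variable {π : Set ℕ} {M : Subgroup (Perm Ω)}

theorem Good.hall (h : Good π M) :
    IsPiHallOf π (M ⊓ alternatingGroup Ω) (alternatingGroup Ω) :=
  ⟨inf_le_right, isPiSubgroup_of_le h.1 inf_le_left, by
    rw [Subgroup.inf_relIndex_right]; exact h.2⟩

theorem relIndex_alt {X : Subgroup (Perm Ω)} (hX : ¬ X ≤ alternatingGroup Ω) :
    X.relIndex (alternatingGroup Ω) = X.index := by
  have : Nontrivial Ω := by
    by_contra hc
    rw [not_nontrivial_iff_subsingleton] at hc
    exact hX fun g _ => by rw [Subsingleton.elim g 1]; exact one_mem _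
  have h1 := Subgroup.relIndex_mul_index (inf_le_right : X ⊓ alternatingGroup Ω ≤ _)
  have h2 := Subgroup.relIndex_mul_index (inf_le_left : X ⊓ alternatingGroup Ω ≤ _)
  have h3 := Subgroup.relIndex_dvd_index_of_normal (alternatingGroup Ω) X
  rw [Subgroup.inf_relIndex_right, alternatingGroup.index_eq_two] at h1
  rw [Subgroup.inf_relIndex_left] at h2
  rw [alternatingGroup.index_eq_two, Nat.dvd_prime Nat.prime_two, Subgroup.relIndex_eq_one] at h3
  rw [h3.resolve_left hX] at h2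
  omega

theorem Good.not_dvd_index (h : Good π M) {X : Subgroup (Perm Ω)} (hMX : M ≤ X)
    (hX : ¬ X ≤ alternatingGroup Ω) {q : ℕ} (hq : q.Prime) (hπ : q ∈ π) : ¬ q ∣ X.index :=
  fun hd => h.2 q hq hπ ((relIndex_alt hX ▸ hd).trans (Subgroup.relIndex_dvd_of_le_left _ hMX))

theorem restrict {H Y : Subgroup (Perm Ω)} (hH : IsPiHallOf π H Y) (p : Ω → Prop) [DecidablePred p]
    (hY : ∀ g, sign g = 1 → (∀ x, ¬ p x → g x = x) → g ∈ Y)
    (hinv : ∀ g ∈ H, ∀ x, p (g x) ↔ p x) :
    Good π (H.comap (ofSubtype : Perm {x // p x} →* Perm Ω)) := by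
  set N := (alternatingGroup {x // p x}).map (ofSubtype : Perm {x // p x} →* Perm Ω)
  have hN : ∀ g, g ∈ N ↔ sign g = 1 ∧ ∀ x, ¬ p x → g x = x := fun g => by
    constructor
    · rintro ⟨k, hk, rfl⟩
      exact ⟨by rw [sign_ofSubtype]; exact hk, fun x hx => ofSubtype_apply_of_not_mem k hx⟩
    · rintro ⟨h1, h2⟩
      have h3 : ∀ x, p (g x) ↔ p x := fun x => by
        by_cases hx : p x
        · refine iff_of_true (by_contra fun hc => hc ?_) hx
          rwa [g.injective (h2 _ hc)]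
        · rw [h2 x hx]
      have h4 := ofSubtype_subtypePerm h3 fun x hx => by_contra fun hc => hx (h2 x hc)
      exact ⟨g.subtypePerm h3, by
        rw [SetLike.mem_coe, mem_alternatingGroup, ← sign_ofSubtype, h4, h1], h4⟩
  have h1 := isPiHallOf_inf_of_le_normalizer hH (N := N)
    (fun g hg => hY g ((hN g).1 hg).1 ((hN g).1 hg).2) fun g hg =>
      Subgroup.mem_normalizer_fintype fun n hn => (hN _).2 ⟨by simp [((hN n).1 hn).1],
        fun x hx => by
          have : ¬ p (g⁻¹ x) := fun hc => hx ((hinv _ (inv_mem hg) x).1 hc)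
          simp only [Perm.mul_apply]
          rw [((hN n).1 hn).2 _ this]; simp⟩
  refine ⟨fun q hq hd => hH.2.1 q hq
    (hd.trans (Subgroup.card_comap_dvd_of_injective H _ ofSubtype_injective)), ?_⟩
  rw [Subgroup.relIndex_comap, ← Subgroup.inf_relIndex_right]
  exact h1.2.2

theorem Good.exists_conj (h : Good π M) {q : ℕ} (hq : q.Prime) (hπ : q ∈ π)
    {Q : Subgroup (Perm Ω)} (hQ : IsPGroup q Q) (hA : Q ≤ alternatingGroup Ω) :
    ∃ g : Perm Ω, ∀ x ∈ Q, g * x * g⁻¹ ∈ M := by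
  have := Fact.mk hq
  obtain ⟨g, hg⟩ := KW.exists_le_conj_of_not_dvd_index (B := M.subgroupOf (alternatingGroup Ω))
    (hQ.comap_subtype (K := alternatingGroup Ω)) (h.2 q hq hπ)
  refine ⟨g.1⁻¹, fun x hx => ?_⟩
  obtain ⟨y, hy, e⟩ := hg (x := ⟨x, hA hx⟩) hx
  have e' : g.1 * y.1 * g.1⁻¹ = x := congrArg Subtype.val e
  rw [← e']
  simpa [mul_assoc] using Subgroup.mem_subgroupOf.1 hy

theorem Good.exists_cycle (h : Good π M) {q : ℕ} (hq : q.Prime) (hπ : q ∈ π) (h2 : q ≠ 2)
    (hn : q ≤ Fintype.card Ω) : ∃ c ∈ M, c.IsCycle ∧ c.support.card = q := by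
  obtain ⟨c, hc⟩ := (exists_with_cycleType_iff (α := Ω) (m := {q})).2
    ⟨by simpa using hn, by simpa using hq.two_le⟩
  have h1 : c.IsCycle := card_cycleType_eq_one.1 (by simp [hc])
  have h3 : c.support.card = q := by rw [← sum_cycleType, hc]; simp
  obtain ⟨g, hg⟩ := h.exists_conj hq hπ (Q := Subgroup.zpowers c)
    (IsPGroup.of_card (n := 1) (by rw [Nat.card_zpowers, h1.orderOf, h3, pow_one]))
    (Subgroup.zpowers_le.2 (by
      rw [mem_alternatingGroup, h1.sign, h3, (hq.odd_of_ne_two h2).neg_one_pow, neg_neg]))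
  exact ⟨_, hg c (Subgroup.mem_zpowers c), h1.conj, by rw [card_support_conj, h3]⟩

theorem jset_of_cycle {c : Perm Ω} (hc : c.IsCycle) (hM : c ∈ M) : JSet M c.support :=
  fun x hx y hy => by
    obtain ⟨i, hi⟩ := hc.exists_zpow_eq (mem_support.1 hx) (mem_support.1 hy)
    exact ⟨⟨c ^ i, zpow_mem hM i⟩, fun z hz => zpow_apply_eq_self_of_apply_eq_self
      (notMem_support.1 hz) i, hi⟩

theorem Good.exists_jset_four (h : Good π M) (hπ : 2 ∈ π) (hn : 4 ≤ Fintype.card Ω) :
    ∃ A : Finset Ω, A.card = 4 ∧ JSet M A := by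
  obtain ⟨e⟩ : Nonempty (Fin 4 ↪ Ω) := Function.Embedding.nonempty_of_card_le (by simpa using hn)
  let V : Subgroup (Perm (Fin 4)) :=
    { carrier := {g | g = 1 ∨ g = swap 0 1 * swap 2 3 ∨ g = swap 0 2 * swap 1 3 ∨
        g = swap 0 3 * swap 1 2}
      one_mem' := .inl rfl
      mul_mem' := by
        rintro _ _ (rfl | rfl | rfl | rfl) (rfl | rfl | rfl | rfl) <;>
          simp only [Set.mem_ofPred_eq] <;> decide
      inv_mem' := by
        rintro _ (rfl | rfl | rfl | rfl) <;> simp only [Set.mem_ofPred_eq] <;> decide }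
  have hV : IsPGroup 2 V := by
    rintro ⟨_, rfl | rfl | rfl | rfl⟩ <;> exact ⟨1, Subtype.ext (by decide)⟩
  have hVA : ∀ g ∈ V, sign g = 1 := by
    rintro _ (rfl | rfl | rfl | rfl) <;> decide
  have hVt : ∀ i j : Fin 4, ∃ g ∈ V, g i = j := fun i j => by
    have : ∀ i j : Fin 4, (1 : Perm (Fin 4)) i = j ∨ (swap 0 1 * swap 2 3 : Perm (Fin 4)) i = j ∨
      (swap 0 2 * swap 1 3 : Perm (Fin 4)) i = j ∨ (swap 0 3 * swap 1 2 : Perm (Fin 4)) i = j := by
      decide
    rcases this i j with h | h | h | h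
    · exact ⟨_, .inl rfl, h⟩
    · exact ⟨_, .inr (.inl rfl), h⟩
    · exact ⟨_, .inr (.inr (.inl rfl)), h⟩
    · exact ⟨_, .inr (.inr (.inr rfl)), h⟩
  obtain ⟨g, hg⟩ := h.exists_conj Nat.prime_two hπ (hV.map (viaEmbeddingHom e)) (by
    rintro _ ⟨v, hv, rfl⟩
    rw [mem_alternatingGroup, viaEmbeddingHom_apply, viaEmbedding, sign_extendDomain]
    exact hVA v hv)
  refine ⟨Finset.univ.map (e.trans g.toEmbedding), by simp, fun x hx y hy => ?_⟩
  obtain ⟨i, -, rfl⟩ := Finset.mem_map.1 hx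
  obtain ⟨j, -, rfl⟩ := Finset.mem_map.1 hy
  obtain ⟨v, hv, hij⟩ := hVt i j
  refine ⟨⟨_, hg _ ⟨v, hv, rfl⟩⟩, fun z hz => ?_, ?_⟩
  · show g (viaEmbedding v e (g⁻¹ z)) = z
    rw [viaEmbedding_apply_of_notMem]
    · simp
    · rintro ⟨i, hi⟩
      exact hz (Finset.mem_map.2 ⟨i, Finset.mem_univ _, by simp [hi]⟩)
  · show g (viaEmbedding v e (g⁻¹ (g (e i)))) = g (e j)
    simp [viaEmbedding_apply, hij]

theorem desc_dvd {k : ℕ} (h : IsMultiplyPretransitive M Ω k) (hk : k ≤ Fintype.card Ω) :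
    (Fintype.card Ω).descFactorial k ∣ Nat.card M := by
  obtain ⟨e⟩ : Nonempty (Fin k ↪ Ω) := Function.Embedding.nonempty_of_card_le (by simpa using hk)
  have h1 := @index_stabilizer_of_transitive M _ _ _ e ⟨fun x y => h.exists_smul_eq x y⟩
  rw [Nat.card_eq_fintype_card, Fintype.card_embedding_eq, Fintype.card_fin] at h1
  rw [← h1]; exact Subgroup.index_dvd_card _

theorem prime_dvd_card_alt {q : ℕ} (hq : q.Prime) (h4 : 4 ≤ Fintype.card Ω)
    (hn : q ≤ Fintype.card Ω) : q ∣ Nat.card (alternatingGroup Ω) := by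
  have : Nontrivial Ω := Fintype.one_lt_card_iff_nontrivial.1 (by omega)
  have h1 := two_mul_nat_card_alternatingGroup (α := Ω)
  rw [Nat.card_perm, Nat.card_eq_fintype_card (α := Ω)] at h1
  by_cases h2 : q = 2
  · subst h2
    have : 2 * 2 ∣ 2 * Nat.card (alternatingGroup Ω) :=
      h1 ▸ (show 2 * 2 ∣ Nat.factorial 4 by decide).trans (Nat.factorial_dvd_factorial h4)
    exact Nat.dvd_of_mul_dvd_mul_left (by norm_num) this
  · exact ((Nat.coprime_primes hq Nat.prime_two).2 h2).dvd_of_dvd_mul_left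
      (h1 ▸ (hq.dvd_factorial).2 hn)

/-- Two different primes of `π` are at most `n`. -/
def Two (π : Set ℕ) (n : ℕ) : Prop :=
  ∃ r s : ℕ, r.Prime ∧ s.Prime ∧ r ≠ s ∧ r ∈ π ∧ s ∈ π ∧ r ≤ n ∧ s ≤ n

/-- Some prime at most `n` is not in `π`. -/
def NotAll (π : Set ℕ) (n : ℕ) : Prop := ∃ r : ℕ, r.Prime ∧ r ≤ n ∧ r ∉ π

theorem five_le {n : ℕ} (h2 : Two π n) (h : NotAll π n) : 5 ≤ n := by
  obtain ⟨r, s, hr, hs, hrs, hr', hs', h1, h2⟩ := h2
  obtain ⟨t, ht, h3, ht'⟩ := h
  by_contra! hc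
  have key : ∀ x : ℕ, x.Prime → x ≤ n → x = 2 ∨ x = 3 := fun x hx h => by
    have := hx.two_le
    have : x ≠ 4 := by rintro rfl; norm_num at hx
    omega
  have h4 : t ≠ r := fun e => ht' (e ▸ hr')
  have h5 : t ≠ s := fun e => ht' (e ▸ hs')
  have := key r hr h1
  have := key s hs h2
  have := key t ht h3
  omega

theorem Good.not_primitive (h : Good π M) (h2 : Two π (Fintype.card Ω))
    (hn : NotAll π (Fintype.card Ω)) : ¬ IsPreprimitive M Ω := fun hp => by
  have h5 := five_le h2 hn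
  have hA : ¬ alternatingGroup Ω ≤ M := fun hc => by
    obtain ⟨t, ht, h3, ht'⟩ := hn
    exact ht' (h.1 t ht ((prime_dvd_card_alt ht (by omega) h3).trans (Subgroup.card_dvd_of_le hc)))
  have h3 : 3 ∉ π := fun h3 => by
    obtain ⟨c, hc, -, h4⟩ := h.exists_cycle Nat.prime_three h3 (by norm_num) (by omega)
    exact hA (alternatingGroup_le_of_isPreprimitive_of_isThreeCycle_mem hp
      (card_support_eq_three_iff.1 h4) hc)
  have h3' : ¬ 3 ∣ Nat.card M := fun hd => h3 (h.1 3 Nat.prime_three hd)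
  by_cases h2' : 2 ∈ π
  · obtain ⟨A, hA4, hJ⟩ := h.exists_jset_four h2' (by omega)
    have t2 := hJ.two_trans hp (by omega) (by omega)
    have d2 := desc_dvd t2 (by omega)
    by_cases h8 : 8 ≤ Fintype.card Ω
    · refine h3' (Dvd.dvd.trans ?_ (desc_dvd (hJ.three_trans t2 (by omega) (by omega)) (by omega)))
      exact (show 3 ∣ Nat.factorial 3 by decide).trans (Nat.factorial_dvd_descFactorial _ _)
    obtain e | e | e : Fintype.card Ω = 5 ∨ Fintype.card Ω = 6 ∨ Fintype.card Ω = 7 := by omega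
    · rw [e] at d2
      have h5 : 5 ∈ π := h.1 5 (by norm_num) ((by decide : 5 ∣ Nat.descFactorial 5 2).trans d2)
      have : IsSimpleGroup (alternatingGroup Ω) := alternatingGroup.isSimpleGroup (by simp [e])
      have hc : Nat.card (alternatingGroup Ω) = 60 := by
        have : Nontrivial Ω := Fintype.one_lt_card_iff_nontrivial.1 (by omega)
        have h1 := two_mul_nat_card_alternatingGroup (α := Ω)
        rw [Nat.card_perm, Nat.card_eq_fintype_card (α := Ω), e] at h1
        simp only [Nat.factorial] at h1; omega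
      have h6 := Lib.Local.card_dvd_factorial_index (H := M.subgroupOf (alternatingGroup Ω))
        (fun hc => hA (Subgroup.subgroupOf_eq_top.1 hc))
      have h7 := (M.subgroupOf (alternatingGroup Ω)).index_dvd_card
      have h8 := h.2 2 Nat.prime_two h2'
      have h9 := h.2 5 (by norm_num) h5
      rw [Subgroup.relIndex] at h8 h9
      rw [hc] at h6 h7
      generalize (M.subgroupOf (alternatingGroup Ω)).index = i at *
      have := Nat.le_of_dvd (by norm_num) h7
      interval_cases i <;> simp_all [Nat.factorial]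
    · rw [e] at d2; exact h3' ((by decide : 3 ∣ Nat.descFactorial 6 2).trans d2)
    · rw [e] at d2; exact h3' ((by decide : 3 ∣ Nat.descFactorial 7 2).trans d2)
  · obtain ⟨r, hr, hr', hlt⟩ : ∃ r : ℕ, r.Prime ∧ r ∈ π ∧ r < Fintype.card Ω := by
      obtain ⟨r, s, hr, hs, hrs, hr', hs', h1, h2⟩ := h2
      rcases lt_or_gt_of_ne hrs with h | h
      · exact ⟨r, hr, hr', by omega⟩
      · exact ⟨s, hs, hs', by omega⟩
    obtain ⟨c, hc, h1, h4⟩ := h.exists_cycle hr hr' (fun e => h2' (e ▸ hr')) hlt.le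
    have t2 := (jset_of_cycle h1 hc).two_trans hp (h4 ▸ hr.one_lt) (h4 ▸ hlt)
    exact h2' (h.1 2 Nat.prime_two (((show 2 ∣ Nat.factorial 2 by decide).trans
      (Nat.factorial_dvd_descFactorial _ _)).trans (desc_dvd t2 (by omega))))

omit [DecidableEq Ω] in
theorem exists_blocks (ht : IsPretransitive M Ω) (hp : ¬ IsPreprimitive M Ω) :
    ∃ (a b : ℕ) (f : Ω → Fin b), 2 ≤ a ∧ 2 ≤ b ∧ (∀ i, Nat.card {x // f x = i} = a) ∧
      M ≤ partStab f := by
  obtain ⟨B, hB, hB'⟩ : ∃ B : Set Ω, IsBlock M B ∧ ¬ IsTrivialBlock B := by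
    by_contra! hc
    exact hp ⟨fun hB => hc _ hB⟩
  rw [IsTrivialBlock, not_or, Set.not_subsingleton_iff] at hB'
  obtain ⟨x0, hx0⟩ := hB'.1.nonempty
  have ex : ∀ x, ∃ C : orbit M B, x ∈ C.1 := fun x => by
    obtain ⟨g, rfl⟩ := exists_smul_eq M x0 x
    exact ⟨⟨g • B, g, rfl⟩, Set.smul_mem_smul_set hx0⟩
  choose f hf using ex
  have hu : ∀ x (C : orbit M B), f x = C ↔ x ∈ C.1 := fun x C => by
    refine ⟨fun e => e ▸ hf x, fun hx => ?_⟩
    have h1 := hf x
    obtain ⟨_, g, rfl⟩ := C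
    generalize f x = D at h1
    obtain ⟨_, k, rfl⟩ := D
    exact Subtype.ext (isBlock_iff_smul_eq_smul_of_nonempty.1 hB ⟨x, h1, hx⟩)
  let e := Finite.equivFin (orbit M B)
  refine ⟨B.ncard, _, e ∘ f, (Set.one_lt_ncard_iff_nontrivial).2 hB'.1, ?_, fun i => ?_,
    fun g hg x y => ?_⟩
  · obtain ⟨y, hy⟩ := (Set.ne_univ_iff_exists_notMem B).1 hB'.2
    have : Nontrivial (orbit M B) := ⟨f y, ⟨B, mem_orbit_self B⟩, fun e => hy ((hu _ _).1 e)⟩
    exact Finite.one_lt_card
  · obtain ⟨⟨_, g, rfl⟩, rfl⟩ := e.surjective i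
    rw [← Set.ncard_smul_set g B, ← Nat.card_coe_set_eq]
    exact Nat.card_congr (Equiv.subtypeEquivRight fun x => e.injective.eq_iff.trans (hu _ _))
  · have key : ∀ g ∈ M, ∀ x y, f x = f y → f (g x) = f (g y) := fun g hg x y h => by
      have h1 : ∀ z, f (g z) = (⟨g, hg⟩ : M) • f z := fun z =>
        (hu _ _).2 (Set.smul_mem_smul_set (a := (⟨g, hg⟩ : M)) (hf z))
      rw [h1, h1, h]
    simp only [Function.comp, e.injective.eq_iff]
    exact ⟨key g hg x y, fun h => by simpa using key _ (inv_mem hg) _ _ h⟩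

end Cfsg.Lib.Char.HallSym
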