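import Cfsg.Agent.Char.HallSymA

/-! Hall subgroups of symmetric and alternating groups: the classification. -/

set_option autoImplicit false

namespace Cfsg.Lib.Char.HallSym

open Equiv Equiv.Perm MulAction Wreath Cfsg.Lib.Solv Cfsg.Lib.Perm
open scoped Pointwise

universe u

/-- The numerical condition for a proper Hall subgroup with two primes. -/
def Num (π : Set ℕ) (n : ℕ) : Prop :=
  (n.Prime ∧ ∀ r : ℕ, r.Prime → r ≤ n → (r ∈ π ↔ r < n)) ∨
    ((n = 7 ∨ n = 8) ∧ ∀ r : ℕ, r.Prime → r ≤ n → (r ∈ π ↔ (r = 2 ∨ r = 3)))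

variable {π : Set ℕ}

theorem Two.three_le {n : ℕ} (h : Two π n) : 3 ≤ n := by
  obtain ⟨r, s, hr, hs, hrs, -, -, h1, h2⟩ := h
  have := hr.two_le
  have := hs.two_le
  omega

theorem num_step {m k : ℕ} (hk : 1 ≤ k) (hkm : k ≤ m) (h2 : Two π m) (hN : NotAll π m → Num π m)
    (h : ∀ q : ℕ, q.Prime → q ∈ π → ¬ q ∣ (m + k).choose k) :
    (∀ r : ℕ, r.Prime → r ≤ m → r ∈ π) ∧ ((k = 1 ∧ (m + 1).Prime) ∨ (k = 3 ∧ m = 4)) := by
  have h3 := h2.three_le
  have : ∀ r : ℕ, r.Prime → r ≤ m → r ∈ π := by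
    by_contra! hc
    refine not_coprime_succ hk hkm fun q hq hd => h q hq ?_
    rcases hN hc with ⟨h4, h5⟩ | ⟨rfl | rfl, h5⟩
    · have := h4.eq_two_or_odd
      have := two_mul_le_of_not_prime (by omega) (fun hp => by
        have := hp.eq_two_or_odd; omega) hq hd
      exact (h5 q hq (by omega)).2 (by omega)
    · obtain rfl := (Nat.prime_dvd_prime_iff_eq hq Nat.prime_two).1
        (hq.dvd_of_dvd_pow (n := 3) hd)
      exact (h5 2 hq (by omega)).2 (.inl rfl)
    · obtain rfl := (Nat.prime_dvd_prime_iff_eq hq Nat.prime_three).1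
        (hq.dvd_of_dvd_pow (n := 2) hd)
      exact (h5 3 hq (by omega)).2 (.inr rfl)
  exact ⟨this, choose_cases hk hkm fun q hq hle => h q hq (this q hq hle)⟩

theorem two_three {n : ℕ} (hn : n ≤ 8) (h : ∀ r : ℕ, r.Prime → r ≤ 4 → r ∈ π)
    (h' : ∀ q : ℕ, q.Prime → q ∈ π → ¬ q ∣ (4 + 3).choose 3) (r : ℕ) (hr : r.Prime) (hrn : r ≤ n) :
    r ∈ π ↔ (r = 2 ∨ r = 3) := by
  refine ⟨fun hπ => ?_, fun e => h r hr (by omega)⟩
  have h1 := h' r hr hπ
  have : r ≤ 8 := by omega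
  interval_cases r <;> simp_all (config := {decide := true}) [Nat.choose]

variable {Ω : Type u} [Fintype Ω] [DecidableEq Ω]

/-- The proper Hall subgroups of the symmetric group with at least two primes. -/
def Shape (π : Set ℕ) (X : Subgroup (Perm Ω)) : Prop :=
  Num π (Fintype.card Ω) ∧ ∃ f : Ω → Fin 2,
    (2 ∈ π ∧ (Fintype.card Ω).Prime ∧
      (∀ r : ℕ, r.Prime → r ≤ Fintype.card Ω → (r ∈ π ↔ r < Fintype.card Ω)) ∧
      Nat.card {x // f x = 1} = 1 ∧ X = fixFun f) ∨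
    ((∀ r : ℕ, r.Prime → r ≤ Fintype.card Ω → (r ∈ π ↔ (r = 2 ∨ r = 3))) ∧
      ((Fintype.card Ω = 7 ∧ Nat.card {x // f x = 1} = 3 ∧ X = fixFun f) ∨
      (Fintype.card Ω = 8 ∧ Nat.card {x // f x = 1} = 4 ∧ X = partStab f)))

omit [DecidableEq Ω] in
theorem card_add (f : Ω → Fin 2) :
    Nat.card {x // f x = 0} + Nat.card {x // f x = 1} = Fintype.card Ω := by
  rw [← Nat.card_eq_fintype_card, ← Nat.card_congr (Equiv.sigmaFiberEquiv f), Nat.card_sigma,
    Fin.sum_univ_two]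

omit [DecidableEq Ω] in
theorem index_fixFun (f : Ω → Fin 2) : (fixFun f).index =
    (Nat.card {x // f x = 0} + Nat.card {x // f x = 1}).choose (Nat.card {x // f x = 1}) := by
  have h1 := (fixFun f).index_mul_card
  rw [card_fixFun, Fin.prod_univ_two, Nat.card_perm, Nat.card_eq_fintype_card (α := Ω), ← card_add f,
    ← Nat.add_choose_mul_factorial_mul_factorial, mul_assoc] at h1
  exact Nat.eq_of_mul_eq_mul_right (by positivity) h1

theorem not_le_alt {ι : Type*} {f : Ω → ι} {i : ι} (h : 2 ≤ Nat.card {x // f x = i}) :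
    ¬ fixFun f ≤ alternatingGroup Ω := fun hc => by
  obtain ⟨⟨u, hu⟩, ⟨v, hv⟩, huv⟩ := Finite.one_lt_card_iff_nontrivial.1 h
  have h1 : u ≠ v := fun e => huv (Subtype.ext e)
  have := hc (x := swap u v) (apply_swap (hu.trans hv.symm))
  simp [sign_swap h1] at this

theorem classify_aux (n : ℕ) : ∀ (Ω : Type u) [Fintype Ω] [DecidableEq Ω], Fintype.card Ω = n →
    ∀ M : Subgroup (Perm Ω), Good π M → Two π n → NotAll π n → ∃ X, Shape π X ∧ M ≤ X := by
  induction n using Nat.strong_induction_on with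
  | _ n ih =>
  intro Ω _ _ hn M hM h2 hna
  have h5 := five_le h2 hna
  have sub : ∀ {H Y : Subgroup (Perm Ω)} (p : Ω → Prop) {m : ℕ}, Nat.card {x // p x} = m → m < n →
      IsPiHallOf π H Y → (∀ g, sign g = 1 → (∀ x, ¬ p x → g x = x) → g ∈ Y) →
      (∀ g ∈ H, ∀ x, p (g x) ↔ p x) → Two π m → NotAll π m → Num π m := by
    intro H Y p m hm hlt hH hY hinv h2 h3
    classical
    rw [Nat.card_eq_fintype_card] at hm
    obtain ⟨X, hX, -⟩ := ih m hlt _ hm _ (restrict hH p hY hinv) h2 h3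
    exact hm ▸ hX.1
  by_cases ht : IsPretransitive M Ω
  · obtain ⟨a, b, f, ha, hb, hf, hle⟩ := exists_blocks ht (hM.not_primitive (hn ▸ h2) (hn ▸ hna))
    obtain ⟨a, rfl⟩ : ∃ c, a = c + 1 := ⟨a - 1, by omega⟩
    have hab : n = (a + 1) * b := by
      obtain ⟨e, -⟩ := exists_equiv hf
      rw [← hn, Fintype.card_congr e]; simp [mul_comm]
    have hnA : ¬ partStab f ≤ alternatingGroup Ω := fun hc =>
      not_le_alt (i := ⟨0, by omega⟩) (by rw [hf]; omega) ((fixFun_le f).trans hc)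
    have hch : ∀ j < b, ∀ q : ℕ, q.Prime → q ∈ π → ¬ q ∣ ((a + 1) * j + a).choose a := by
      intro j hj q hq hπ hd
      refine hM.not_dvd_index hle hnA hq hπ
        ((hd.trans (Finset.dvd_prod_of_mem (fun j => ((a + 1) * j + a).choose a)
          (Finset.mem_range.2 hj))).trans ?_)
      obtain ⟨c, hc⟩ := card_partStab_dvd (by omega) hf
      have h1 := (partStab f).index_mul_card
      rw [Nat.card_perm, Nat.card_eq_fintype_card (α := Ω), hn, hab, factorial_mul_eq] at h1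
      rw [Fintype.card_fin] at hc
      rw [hc, mul_comm, mul_assoc] at h1
      exact Dvd.intro_left c (Nat.eq_of_mul_eq_mul_left Nat.card_pos h1).symm
    have hle' : ∀ q : ℕ, q.Prime → q ∈ π → q ≤ n → q ≤ a + 1 := fun q hq hπ hqn => by
      by_contra! hc
      have h1 := Nat.div_add_mod q (a + 1)
      have h3 := Nat.mod_lt q (by omega : 0 < a + 1)
      have h4 : q % (a + 1) ≠ 0 := fun e => by
        have := (Nat.dvd_prime hq).1 (Nat.dvd_of_mod_eq_zero e); omega
      refine hch (q / (a + 1)) ?_ q hq hπ (hq.dvd_choose (by omega) (by omega) (by omega))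
      by_contra! h6
      have := Nat.mul_le_mul_left (a + 1) h6
      omega
    have h2' : Two π (a + 1) := by
      obtain ⟨r, s, hr, hs, hrs, hr', hs', h1, h3⟩ := h2
      exact ⟨r, s, hr, hs, hrs, hr', hs', hle' r hr hr' h1, hle' s hs hs' h3⟩
    have hN1 := isPiHallOf_inf_of_le_normalizer hM.hall (N := fixFun f ⊓ alternatingGroup Ω)
      inf_le_right fun g hg => Subgroup.mem_normalizer_fintype fun k hk =>
        ⟨fun x => by
          have := (hle hg.1 _ _).1 (hk.1 (g⁻¹ x))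
          simpa using this, by simp [mem_alternatingGroup.1 hk.2]⟩
    obtain ⟨h6, h7⟩ := num_step (k := a) (by omega) (by omega) h2'
      (sub (fun x => f x = ⟨0, by omega⟩) (hf _) (by nlinarith) hN1 (fun g hg h => ⟨fun x => by
        by_cases hx : f x = ⟨0, by omega⟩
        · by_contra hc
          rw [hx] at hc
          exact hc (by rw [g.injective (h _ hc)]; exact hx)
        · rw [h x hx], hg⟩) (fun g hg x => by rw [hg.2.1 x]) h2')
      (by simpa using hch 1 (by omega))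
    have := h2'.three_le
    obtain rfl : a = 3 := by omega
    obtain rfl : b = 2 := by
      by_contra hc
      exact hch 2 (by omega) 3 Nat.prime_three (h6 3 Nat.prime_three (by omega)) (by decide)
    have h8 := two_three (π := π) (n := Fintype.card Ω) (by omega) h6 (by simpa using hch 1 (by omega))
    exact ⟨_, ⟨.inr ⟨.inr (by omega), h8⟩, f, .inr ⟨h8, .inr ⟨by omega, hf 1, rfl⟩⟩⟩, hle⟩
  · obtain ⟨f, hf, h1, h3⟩ : ∃ f : Ω → Fin 2, M ≤ fixFun f ∧ 1 ≤ Nat.card {x // f x = 1} ∧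
        Nat.card {x // f x = 1} ≤ Nat.card {x // f x = 0} := by
      classical
      obtain ⟨x, y, hxy⟩ : ∃ x y : Ω, y ∉ orbit M x := by
        by_contra! hc
        exact ht ⟨fun x y => hc x y⟩
      have inv : ∀ g ∈ M, ∀ z, g z ∈ orbit M x ↔ z ∈ orbit M x := fun g hg z => by
        rw [← orbit_eq_iff, ← orbit_eq_iff, ← orbit_smul (⟨g, hg⟩ : M) z]; rfl
      have pos : ∀ {p : Ω → Prop} (z : Ω), p z → 1 ≤ Nat.card {x // p x} := fun z hz =>
        Nat.card_pos_iff.2 ⟨⟨⟨z, hz⟩⟩, inferInstance⟩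
      rcases le_total (Nat.card {z // z ∈ orbit M x}) (Nat.card {z // z ∉ orbit M x}) with h | h
      · refine ⟨fun z => if z ∈ orbit M x then 1 else 0, fun g hg z => by simp only [inv g hg],
          pos x (by simp), ?_⟩
        simpa using h
      · refine ⟨fun z => if z ∈ orbit M x then 0 else 1, fun g hg z => by simp only [inv g hg],
          pos y (by simp [hxy]), ?_⟩
        simpa using h
    have hmk := (card_add f).trans hn
    have hch : ∀ q : ℕ, q.Prime → q ∈ π → ¬ q ∣ (Nat.card {x // f x = 0} +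
        Nat.card {x // f x = 1}).choose (Nat.card {x // f x = 1}) := fun q hq hπ =>
      index_fixFun f ▸ hM.not_dvd_index hf (not_le_alt (i := 0) (by omega)) hq hπ
    have h2' : Two π (Nat.card {x // f x = 0}) := by
      obtain ⟨r, s, hr, hs, hrs, hr', hs', h4, h6⟩ := h2
      exact ⟨r, s, hr, hs, hrs, hr', hs', prime_le_of_not_dvd h3 hr (by omega) (hch r hr hr'),
        prime_le_of_not_dvd h3 hs (by omega) (hch s hs hs')⟩
    obtain ⟨h6, ⟨h7, h8⟩ | ⟨h7, h8⟩⟩ := num_step h1 h3 h2'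
      (sub (fun x => f x = 0) rfl (by omega) hM.hall (fun g hg _ => hg)
        (fun g hg x => by rw [hf hg.1 x]) h2') hch
    · have e : Nat.card {x // f x = 0} + 1 = Fintype.card Ω := by omega
      have h9 : ∀ r : ℕ, r.Prime → r ≤ Fintype.card Ω → (r ∈ π ↔ r < Fintype.card Ω) :=
        fun r hr hle => ⟨fun hπ => by
          obtain ⟨t, ht, h9, ht'⟩ := hna
          have : ¬ t ≤ Nat.card {x // f x = 0} := fun h => ht' (h6 t ht h)
          have : r ≠ t := fun e => ht' (e ▸ hπ)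
          omega, fun h => h6 r hr (by omega)⟩
      exact ⟨_, ⟨.inl ⟨e ▸ h8, h9⟩, f, .inl ⟨h6 2 Nat.prime_two (by omega), e ▸ h8, h9, h7, rfl⟩⟩, hf⟩
    · rw [h7, h8] at hch
      rw [h8] at h6
      have h9 := two_three (π := π) (n := Fintype.card Ω) (by omega) h6 hch
      exact ⟨_, ⟨.inr ⟨.inl (by omega), h9⟩, f, .inr ⟨h9, .inl ⟨by omega, h7, rfl⟩⟩⟩, hf⟩

theorem Good.classify {M : Subgroup (Perm Ω)} (h : Good π M) (h2 : Two π (Fintype.card Ω))
    (hn : NotAll π (Fintype.card Ω)) : ∃ X, Shape π X ∧ M ≤ X :=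
  classify_aux _ Ω rfl M h h2 hn

theorem Shape.hall {X : Subgroup (Perm Ω)} (h : Shape π X) :
    IsPiHall π X ∧ ¬ X ≤ alternatingGroup Ω := by
  obtain ⟨-, f, h⟩ := h
  have h0 := card_add f
  have h23 : ∀ {n : ℕ}, 7 ≤ n → (∀ r : ℕ, r.Prime → r ≤ n → (r ∈ π ↔ (r = 2 ∨ r = 3))) →
      (∀ p : ℕ, p.Prime → p ∣ 1152 → p ∈ π) ∧ ∀ p : ℕ, p.Prime → p ∈ π → ¬ p ∣ 35 := fun h7 h => by
    constructor
    · intro p hp hd
      have : p = 2 ∨ p = 3 := by
        rcases (Nat.Prime.dvd_mul hp).1 (show p ∣ 2 ^ 7 * 3 ^ 2 from hd) with h | h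
        · exact .inl ((Nat.prime_dvd_prime_iff_eq hp Nat.prime_two).1 (hp.dvd_of_dvd_pow h))
        · exact .inr ((Nat.prime_dvd_prime_iff_eq hp Nat.prime_three).1 (hp.dvd_of_dvd_pow h))
      exact (h p hp (by omega)).2 this
    · intro p hp hπ hd
      have : p = 5 ∨ p = 7 := by
        rcases (Nat.Prime.dvd_mul hp).1 (show p ∣ 5 * 7 from hd) with h | h
        · exact .inl ((Nat.prime_dvd_prime_iff_eq hp (by norm_num)).1 h)
        · exact .inr ((Nat.prime_dvd_prime_iff_eq hp (by norm_num)).1 h)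
      have := (h p hp (by omega)).1 hπ
      omega
  rcases h with ⟨h1, h2, h3, h4, rfl⟩ | ⟨h1, ⟨h2, h3, rfl⟩ | ⟨h2, h3, rfl⟩⟩
  · have h5 : 2 < Fintype.card Ω := (h3 2 Nat.prime_two h2.two_le).1 h1
    refine ⟨⟨fun p hp hd => ?_, fun p hp hπ hd => ?_⟩, not_le_alt (i := 0) (by omega)⟩
    · rw [card_fixFun, Fin.prod_univ_two, h4, Nat.factorial_one, mul_one, hp.dvd_factorial] at hd
      exact (h3 p hp (by omega)).2 (by omega)
    · rw [index_fixFun, h0, h4, Nat.choose_one_right, Nat.prime_dvd_prime_iff_eq hp h2] at hd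
      have := (h3 p hp hd.le).1 hπ
      omega
  · have h4 : Nat.card {x // f x = 0} = 4 := by omega
    refine ⟨⟨fun p hp hd => (h23 h2.ge h1).1 p hp (hd.trans ?_), ?_⟩, not_le_alt (i := 0) (by omega)⟩
    · rw [card_fixFun, Fin.prod_univ_two, h4, h3]; decide
    · rw [index_fixFun, h4, h3]; exact (h23 h2.ge h1).2
  · have hf : ∀ i, Nat.card {x // f x = i} = 4 := by
      rw [Fin.forall_fin_two]; omega
    have h4 := card_partStab_dvd (by norm_num) hf
    have h5 := Subgroup.card_dvd_of_le (fixFun_le f)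
    have h6 : Nat.card (fixFun f) = 576 := by rw [card_fixFun, Fin.prod_univ_two, hf, hf]; rfl
    have h7 : Nat.card (partStab f) ≠ 576 := fun e => by
      obtain ⟨g, hg⟩ := exists_lift hf (swap 0 1)
      obtain ⟨x, -, -, hx, -⟩ := exists_two (by norm_num) hf 0
      have h8 : g ∈ fixFun f := by
        rw [Subgroup.eq_of_le_of_card_ge (fixFun_le f) (by omega)]; exact mem_of_lift _ hg
      have := (hg x).symm.trans (h8 x)
      simp [hx] at this
    have h8 : Nat.card (partStab f) = 1152 := by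
      rw [h6] at h5
      obtain ⟨c, hc⟩ := h5
      have h9 : Nat.card (partStab f) ≤ 1152 := Nat.le_of_dvd (by norm_num) h4
      have : 0 < Nat.card (partStab f) := Nat.card_pos
      have : c = 1 ∨ c = 2 := by omega
      omega
    have h9 := (partStab f).index_mul_card
    rw [h8, Nat.card_perm, Nat.card_eq_fintype_card (α := Ω), h2] at h9
    have h10 : (partStab f).index = 35 := by simp only [Nat.factorial] at h9; omega
    exact ⟨⟨h8 ▸ (h23 (by omega) h1).1, h10 ▸ (h23 (by omega) h1).2⟩,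
      fun hc => not_le_alt (i := 0) (by rw [hf]; omega) ((fixFun_le f).trans hc)⟩

theorem Shape.conj {X Y : Subgroup (Perm Ω)} (hX : Shape π X) (hY : Shape π Y) :
    ∃ g ∈ alternatingGroup Ω, Y = X.map (MulAut.conj g).toMonoidHom := by
  obtain ⟨g, hg⟩ : ∃ g : Perm Ω, ∀ k, k ∈ X ↔ g * k * g⁻¹ ∈ Y := by
    obtain ⟨-, f, hf⟩ := hX
    obtain ⟨-, f', hf'⟩ := hY
    have key : Nat.card {x // f x = 1} = Nat.card {x // f' x = 1} → ∃ g : Perm Ω,
        (∀ k, k ∈ fixFun f ↔ g * k * g⁻¹ ∈ fixFun f') ∧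
          ∀ k, k ∈ partStab f ↔ g * k * g⁻¹ ∈ partStab f' := fun h => by
      have h1 := card_add f
      have h2 := card_add f'
      have h3 : ∀ i, Nonempty ({x // f x = i} ≃ {x // f' x = i}) := fun i =>
        Finite.card_eq.1 (by revert i; rw [Fin.forall_fin_two]; omega)
      let g := Equiv.ofFiberEquiv fun i => (h3 i).some
      have hg : ∀ x, f' (g x) = f x := Equiv.ofFiberEquiv_map _
      refine ⟨g, fun k => ?_, fun k => ?_⟩
      · show (∀ x, _) ↔ ∀ x, _
        rw [g.surjective.forall (p := fun x => f' ((g * k * g⁻¹ : Perm Ω) x) = f' x)]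
        simp [hg]
      · rw [mem_partStab, mem_partStab, g.surjective.forall₂
          (p := fun x y => f' x = f' y ↔ f' ((g * k * g⁻¹ : Perm Ω) x) = f' ((g * k * g⁻¹ : Perm Ω) y))]
        simp [hg]
    have h5 : ∀ {n : ℕ}, 7 ≤ n → (∀ r : ℕ, r.Prime → r ≤ n → (r ∈ π ↔ r < n)) →
        (∀ r : ℕ, r.Prime → r ≤ n → (r ∈ π ↔ (r = 2 ∨ r = 3))) → False := fun h a b => by
      have := (b 5 (by norm_num) (by omega)).1 ((a 5 (by norm_num) (by omega)).2 (by omega))
      omega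
    rcases hf with ⟨h1, h2, h3, h4, rfl⟩ | ⟨h1, ⟨h2, h3, rfl⟩ | ⟨h2, h3, rfl⟩⟩ <;>
      rcases hf' with ⟨k1, k2, k3, k4, rfl⟩ | ⟨k1, ⟨k2, k3, rfl⟩ | ⟨k2, k3, rfl⟩⟩
    · exact (key (by omega)).imp fun _ h => h.1
    · exact (h5 (by omega) h3 k1).elim
    · exact (h5 (by omega) h3 k1).elim
    · exact (h5 (by omega) k3 h1).elim
    · exact (key (by omega)).imp fun _ h => h.1
    · omega
    · exact (h5 (by omega) k3 h1).elim
    · omega
    · exact (key (by omega)).imp fun _ h => h.2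
  have key : ∀ g : Perm Ω, (∀ k, k ∈ X ↔ g * k * g⁻¹ ∈ Y) → Y = X.map (MulAut.conj g).toMonoidHom :=
    fun g hg => by
      ext y
      refine ⟨fun hy => ⟨g⁻¹ * y * g, (hg _).2 (by simpa [mul_assoc] using hy), by simp [mul_assoc]⟩, ?_⟩
      rintro ⟨k, hk, rfl⟩
      exact (hg k).1 hk
  rcases Int.units_eq_one_or (sign g) with hs | hs
  · exact ⟨g, hs, key g hg⟩
  · obtain ⟨t, ht, ht'⟩ := SetLike.not_le_iff_exists.1 hX.hall.2
    refine ⟨g * t, by simp [hs, (Int.units_eq_one_or (sign t)).resolve_left ht'], key _ fun k => ?_⟩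
    rw [show g * t * k * (g * t)⁻¹ = g * (t * k * t⁻¹) * g⁻¹ by group, ← hg,
      mul_mem_cancel_right (inv_mem ht), mul_mem_cancel_left ht]

theorem exists_shape (h : Num π (Fintype.card Ω)) (h2 : Two π (Fintype.card Ω)) :
    ∃ X : Subgroup (Perm Ω), Shape π X := by
  have key : ∀ k ≤ Fintype.card Ω, ∃ f : Ω → Fin 2, Nat.card {x // f x = 1} = k := fun k hk => by
    obtain ⟨s, -, hs⟩ := Finset.exists_subset_card_eq (s := Finset.univ) hk
    exact ⟨fun x => if x ∈ s then 1 else 0, by simpa using hs⟩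
  have h3 := h2.three_le
  rcases id h with ⟨h4, h5⟩ | ⟨h4 | h4, h5⟩
  · obtain ⟨f, hf⟩ := key 1 (by omega)
    exact ⟨_, h, f, .inl ⟨(h5 2 Nat.prime_two (by omega)).2 (by omega), h4, h5, hf, rfl⟩⟩
  · obtain ⟨f, hf⟩ := key 3 (by omega)
    exact ⟨_, h, f, .inr ⟨h5, .inl ⟨h4, hf, rfl⟩⟩⟩
  · obtain ⟨f, hf⟩ := key 4 (by omega)
    exact ⟨_, h, f, .inr ⟨h5, .inr ⟨h4, hf, rfl⟩⟩⟩

theorem hallD_congr {G : Type*} [Group G] [Finite G] {π π' : Set ℕ}
    (h : ∀ p : ℕ, p.Prime → p ∣ Nat.card G → (p ∈ π ↔ p ∈ π')) (hD : HallD π' G) : HallD π G := by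
  obtain ⟨H, hH, hK⟩ := hD
  refine ⟨H, ⟨fun p hp hd => (h p hp (hd.trans H.card_subgroup_dvd_card)).2 (hH.1 p hp hd),
    fun p hp hπ hd => hH.2 p hp ((h p hp (hd.trans H.index_dvd_card)).1 hπ) hd⟩, fun K hK' =>
    hK K fun p hp hd => (h p hp (hd.trans K.card_subgroup_dvd_card)).1 (hK' p hp hd)⟩

theorem hallD_of_not {G : Type*} [Group G] [Finite G] {n : ℕ} (hG : Nat.card G ∣ n.factorial)
    (h : ¬ (Two π n ∧ NotAll π n)) : HallD π G := by
  have hle : ∀ p : ℕ, p.Prime → p ∣ Nat.card G → p ≤ n := fun p hp hd =>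
    hp.dvd_factorial.1 (hd.trans hG)
  rcases not_and_or.1 h with h | h
  · by_cases h1 : ∃ r : ℕ, r.Prime ∧ r ∈ π ∧ r ≤ n
    · obtain ⟨r, hr, hπ, hn⟩ := h1
      have := Fact.mk hr
      refine hallD_congr (fun p hp hd => ⟨fun hp' => ?_, fun e => by rwa [e]⟩) (hallD_singleton r G)
      by_contra hc
      exact h ⟨p, r, hp, hr, hc, hp', hπ, hle p hp hd, hn⟩
    · exact hallD_of_isPiNum_compl fun p hp hd hπ => h1 ⟨p, hp, hπ, hle p hp hd⟩
  · exact hallD_of_isPiNum fun p hp hd => by_contra fun hc => h ⟨p, hp, hle p hp hd, hc⟩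

omit [DecidableEq Ω] in
theorem card_perm_dvd : Nat.card (Perm Ω) ∣ (Fintype.card Ω).factorial := by
  rw [Nat.card_perm, Nat.card_eq_fintype_card]

theorem card_alt_dvd : Nat.card (alternatingGroup Ω) ∣ (Fintype.card Ω).factorial :=
  (Subgroup.card_subgroup_dvd_card _).trans card_perm_dvd

theorem good_of_hall {M : Subgroup (Perm Ω)} (h : IsPiHall π M) : Good π M :=
  ⟨h.1, (Subgroup.inf_relIndex_right M _) ▸ (isPiHallOf_inf_of_normal h _).2.2⟩

theorem good_of_hall_alt {M : Subgroup (alternatingGroup Ω)} (h : IsPiHall π M) :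
    Good π (M.map (alternatingGroup Ω).subtype) :=
  (isPiHallOf_map_subtype_iff.2 h).2

theorem hall_subgroupOf {M : Subgroup (Perm Ω)} (h : IsPiHall π M) :
    IsPiHall π (M.subgroupOf (alternatingGroup Ω)) := by
  have := (isPiHallOf_iff_subgroupOf.1 (isPiHallOf_inf_of_normal h (alternatingGroup Ω))).2
  rwa [Subgroup.inf_subgroupOf_right] at this

theorem eq_shape (h2 : Two π (Fintype.card Ω)) (hn : NotAll π (Fintype.card Ω))
    {M : Subgroup (Perm Ω)} (h : IsPiHall π M) : Shape π M := by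
  obtain ⟨X, hX, hle⟩ := (good_of_hall h).classify h2 hn
  rwa [eq_of_isPiHall_of_le h hX.hall.1.1 hle]

theorem eq_shape_alt (h2 : Two π (Fintype.card Ω)) (hn : NotAll π (Fintype.card Ω))
    {M : Subgroup (alternatingGroup Ω)} (h : IsPiHall π M) :
    ∃ X, Shape π X ∧ M = X.subgroupOf (alternatingGroup Ω) := by
  obtain ⟨X, hX, hle⟩ := (good_of_hall_alt h).classify h2 hn
  exact ⟨X, hX, eq_of_isPiHall_of_le h (hall_subgroupOf hX.hall.1).1 fun g hg => hle ⟨g, hg, rfl⟩⟩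

theorem exists_hall_of_alt {M : Subgroup (alternatingGroup Ω)} (h : IsPiHall π M) :
    ∃ M₀ : Subgroup (Perm Ω), IsPiHall π M₀ ∧ M = M₀.subgroupOf (alternatingGroup Ω) := by
  by_cases hc : Two π (Fintype.card Ω) ∧ NotAll π (Fintype.card Ω)
  · obtain ⟨X, hX, e⟩ := eq_shape_alt hc.1 hc.2 h
    exact ⟨X, hX.hall.1, e⟩
  · obtain ⟨X, hX, hle⟩ := (hallD_of_not card_perm_dvd hc).exists_isPiHall_ge (good_of_hall_alt h).1
    exact ⟨X, hX, eq_of_isPiHall_of_le h (hall_subgroupOf hX).1 fun g hg => hle ⟨g, hg, rfl⟩⟩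

theorem isCPi_perm (h : IsEPiGroup π (Perm Ω)) : IsCPiGroup π (Perm Ω) := by
  by_cases hc : Two π (Fintype.card Ω) ∧ NotAll π (Fintype.card Ω)
  · refine ⟨h, fun H K hH hK => ?_⟩
    obtain ⟨g, -, e⟩ := (eq_shape hc.1 hc.2 hH).conj (eq_shape hc.1 hc.2 hK)
    exact ⟨g, e⟩
  · exact (hallD_of_not card_perm_dvd hc).isCPiGroup

theorem isCPi_alt (h : IsEPiGroup π (alternatingGroup Ω)) : IsCPiGroup π (alternatingGroup Ω) := by
  by_cases hc : Two π (Fintype.card Ω) ∧ NotAll π (Fintype.card Ω)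
  · refine ⟨h, fun H K hH hK => ?_⟩
    obtain ⟨X, hX, rfl⟩ := eq_shape_alt hc.1 hc.2 hH
    obtain ⟨Y, hY, rfl⟩ := eq_shape_alt hc.1 hc.2 hK
    obtain ⟨g, hg, rfl⟩ := hX.conj hY
    refine ⟨⟨g, hg⟩, ?_⟩
    ext y
    constructor
    · rintro ⟨k, hk, e⟩
      have : k ∈ alternatingGroup Ω := by
        have h1 : g * k * g⁻¹ ∈ alternatingGroup Ω := by
          have h2 : g * k * g⁻¹ = y.1 := e
          exact h2 ▸ y.2
        exact (mul_mem_cancel_left hg).1 ((mul_mem_cancel_right (inv_mem hg)).1 h1)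
      exact ⟨⟨k, this⟩, hk, Subtype.ext e⟩
    · rintro ⟨k, hk, rfl⟩
      exact ⟨k.1, hk, rfl⟩
  · exact (hallD_of_not card_alt_dvd hc).isCPiGroup

theorem not_hallD (h2 : Two π (Fintype.card Ω)) (hn : NotAll π (Fintype.card Ω)) :
    ¬ HallD π (alternatingGroup Ω) := fun hD => by
  have h5 := five_le h2 hn
  obtain ⟨M, hM, hK⟩ := hD
  obtain ⟨X, ⟨-, f, hX⟩, rfl⟩ := eq_shape_alt h2 hn hM
  have hK' : ∀ K : Subgroup (Perm Ω), IsPiSubgroup π K → ∃ g : Perm Ω,
      ∀ k ∈ K, sign k = 1 → g * k * g⁻¹ ∈ X := fun K h => by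
    obtain ⟨g, hg⟩ := hK _ (isPiSubgroup_subgroupOf h (alternatingGroup Ω))
    exact ⟨g, fun k hk hs => hg (Subgroup.smul_mem_pointwise_smul (⟨k, hs⟩ : alternatingGroup Ω)
      (MulAut.conj g) _ hk)⟩
  have h0 := card_add f
  rcases hX with ⟨h1, -, h3, h4, rfl⟩ | ⟨h1, h3⟩
  · obtain ⟨s, -, hs⟩ := Finset.exists_subset_card_eq (s := (Finset.univ : Finset Ω))
      (n := 2) (by simp; omega)
    let f' : Ω → Fin 2 := fun x => if x ∈ s then 1 else 0
    have e1 : Nat.card {x // f' x = 1} = 2 := by simpa [f'] using hs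
    have e0 := card_add f'
    obtain ⟨g, hg⟩ := hK' (fixFun f') fun p hp hd => by
      rw [card_fixFun, Fin.prod_univ_two, hp.dvd_mul, hp.dvd_factorial, hp.dvd_factorial] at hd
      exact (h3 p hp (by omega)).2 (by omega)
    obtain ⟨⟨x, hx⟩, hx'⟩ := Nat.card_eq_one_iff_exists.1 h4
    have two : ∀ i, ∀ y : Ω, ∃ u, f' u = i ∧ u ≠ y := fun i y => by
      have : 2 ≤ Nat.card {x // f' x = i} := by revert i; rw [Fin.forall_fin_two]; omega
      have := Finite.one_lt_card_iff_nontrivial.1 this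
      by_cases hy : f' y = i
      · obtain ⟨u, hu⟩ := exists_ne (⟨y, hy⟩ : {x // f' x = i})
        exact ⟨u.1, u.2, fun e => hu (Subtype.ext e)⟩
      · obtain ⟨u⟩ : Nonempty {x // f' x = i} := inferInstance
        exact ⟨u.1, u.2, fun e => hy (e ▸ u.2)⟩
    obtain ⟨y', hy, hy'⟩ := two (f' (g⁻¹ x)) (g⁻¹ x)
    obtain ⟨i, hi⟩ := exists_ne (f' (g⁻¹ x))
    obtain ⟨u, hu, -⟩ := two i x
    obtain ⟨v, hv, huv⟩ := two i u
    have h6 := hg (swap (g⁻¹ x) y' * swap u v) (mul_mem (apply_swap hy.symm)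
      (apply_swap (hu.trans hv.symm))) (by rw [map_mul, sign_swap hy'.symm, sign_swap huv.symm]; simp) x
    have h7 : swap u v (g⁻¹ x) = g⁻¹ x :=
      swap_apply_of_ne_of_ne (fun e => hi (by rw [e, hu])) (fun e => hi (by rw [e, hv]))
    simp only [Perm.mul_apply, h7, swap_apply_left] at h6
    have h8 : g y' = x := congrArg Subtype.val (hx' ⟨_, h6.trans hx⟩)
    exact hy' (by rw [← h8]; simp)
  · have hX : X ≤ partStab f := by
      rcases h3 with ⟨-, -, rfl⟩ | ⟨-, -, rfl⟩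
      exacts [fixFun_le f, le_rfl]
    have h7 : 7 ≤ Fintype.card Ω := by omega
    have h4 : ∀ i, Nat.card {x // f x = i} ≤ 4 := by rw [Fin.forall_fin_two]; omega
    obtain ⟨e⟩ : Nonempty (Fin 2 × Fin 3 ↪ Ω) :=
      Function.Embedding.nonempty_of_card_le (by simp; omega)
    have hf : ∀ i, Nat.card {x : Fin 2 × Fin 3 // x.1 = i} = 3 := by
      simp only [Nat.card_eq_fintype_card]; decide
    obtain ⟨g, hg⟩ := hK' ((partStab (Prod.fst : Fin 2 × Fin 3 → Fin 2)).map (viaEmbeddingHom e))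
      (isPiSubgroup_map (fun p hp hd => by
        have h8 : p ∣ 2 ^ 3 * 3 ^ 2 := hd.trans (card_partStab_dvd (by norm_num) hf)
        have : p = 2 ∨ p = 3 := by
          rcases (Nat.Prime.dvd_mul hp).1 h8 with h | h
          · exact .inl ((Nat.prime_dvd_prime_iff_eq hp Nat.prime_two).1 (hp.dvd_of_dvd_pow h))
          · exact .inr ((Nat.prime_dvd_prime_iff_eq hp Nat.prime_three).1 (hp.dvd_of_dvd_pow h))
        exact (h1 p hp (by omega)).2 this) _)
    obtain ⟨z, hz⟩ : ∃ z, z ∉ Set.range e := by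
      by_contra! hc
      have := Fintype.card_le_of_surjective e hc
      simp at this; omega
    have h8 : ∀ j, f (g (e j)) = f (g (e (0, 0))) := fun j => by
      obtain ⟨k, hk, hj⟩ : ∃ k ∈ partStab (Prod.fst : Fin 2 × Fin 3 → Fin 2) ⊓ alternatingGroup _,
          k (0, 0) = j := by
        obtain ⟨j', hj', e'⟩ : ∃ j', j ≠ j' ∧ j.1 = j'.1 := by revert j; decide
        obtain ⟨k, hk, h, -⟩ := exists_pair_even (a := 3) (by norm_num) le_rfl (.inl le_rfl) hf
          (x := (0, 0)) (y := (0, 1)) (by decide) hj' (by simp [e'])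
        exact ⟨k, hk, h⟩
      have h9 := hX (hg _ ⟨k, hk.1, rfl⟩ (by
        rw [viaEmbeddingHom_apply, viaEmbedding, sign_extendDomain]; exact hk.2)) (g (e (0, 0))) (g z)
      have ii : ∀ y, g⁻¹ (g y) = y := fun y => by simp
      simp only [Perm.mul_apply, viaEmbeddingHom_apply, ii,
        viaEmbedding_apply_of_notMem _ _ _ hz, viaEmbedding_apply, hj] at h9
      revert h9
      generalize f (g (e j)) = a, f (g (e (0, 0))) = b, f (g z) = c
      revert a b c; decide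
    have := (Nat.card_le_card_of_injective (fun j => (⟨g (e j), h8 j⟩ : {x // f x = _}))
      fun a b h => e.injective (g.injective (congrArg Subtype.val h))).trans (h4 _)
    simp at this

end Cfsg.Lib.Char.HallSym
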