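import Mathlib.Data.Nat.Choose.Basic
import Mathlib.Data.Nat.Choose.Factorization
import Mathlib.NumberTheory.Divisors
import Mathlib.Data.Finset.NatDivisors
import Mathlib.Data.Nat.Choose.Dvd
import Mathlib.Tactic

/-! Binomial coefficients without small prime factors. -/

set_option autoImplicit false

namespace Cfsg.Lib.Char.HallSym

theorem top_dvd (n k j : ℕ) (hj : j < k) :
    n - j ∣ n.choose k * k.descFactorial (j + 1) := by
  have h := Nat.choose_mul (n := n) (k := k) (s := j + 1) hj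
  have h1 : n.choose k * k.descFactorial (j + 1) =
      n.descFactorial (j + 1) * (n - (j + 1)).choose (k - (j + 1)) := by
    rw [Nat.descFactorial_eq_factorial_mul_choose, Nat.descFactorial_eq_factorial_mul_choose,
      mul_left_comm, h, mul_assoc]
  rw [h1, Nat.descFactorial_succ, mul_assoc]
  exact dvd_mul_right _ _

theorem bot_dvd (m k j : ℕ) : m + j + 1 ∣ (m + k).choose k * k.descFactorial (j + 1) := by
  have : ∀ j, ∃ c, (m + k).choose m * k.descFactorial j = (m + k).choose (m + j) * c := fun j => by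
    induction j with
    | zero => exact ⟨1, by simp⟩
    | succ j ih =>
      obtain ⟨c, hc⟩ := ih
      refine ⟨(m + j + 1) * c, ?_⟩
      rw [Nat.descFactorial_succ, mul_left_comm, hc, ← mul_assoc, ← mul_assoc, ← add_assoc,
        Nat.choose_succ_right_eq, mul_comm (k - j)]
      congr 2; omega
  obtain ⟨c, hc⟩ := this j
  rw [← Nat.choose_symm_add, Nat.descFactorial_succ, mul_left_comm, hc, ← mul_assoc, mul_comm (k - j),
    show k - j = m + k - (m + j) by omega, ← Nat.choose_succ_right_eq]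
  exact ((dvd_mul_left _ _).mul_right _)

theorem dvd_of_primes {x C F : ℕ} (h : ∀ q, q.Prime → q ∣ x → ¬ q ∣ C) (hd : x ∣ C * F) : x ∣ F :=
  (Nat.coprime_of_dvd h).dvd_of_dvd_mul_left hd

theorem two_mul_le_of_not_prime {x q : ℕ} (hx0 : x ≠ 0) (hx : ¬ x.Prime) (hq : q.Prime)
    (h : q ∣ x) : 2 * q ≤ x := by
  obtain ⟨c, rfl⟩ := h
  rcases c with _ | _ | c
  · simp at hx0
  · simp [hq] at hx
  · nlinarith

theorem small_one : ∀ k ∈ Finset.Icc 4 23, ∃ q ∈ [2, 3, 5], q ∣ (2 * k - 2 + k).choose k := by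
  decide +kernel

theorem small_two : ∀ d ∈ Nat.divisors 470400, d % 3 = 2 → 17 ≤ d →
    (Nat.sqrt (13 * ((d - 5) / 3) * ((d - 5) / 3) + 9 - 18 * ((d - 5) / 3))) ^ 2 =
      13 * ((d - 5) / 3) * ((d - 5) / 3) + 9 - 18 * ((d - 5) / 3) → d = 32 := by
  have : Nat.divisors 470400 = (Nat.divisors 128 ×ˢ Nat.divisors 3675).image fun p => p.1 * p.2 := by
    rw [show 470400 = 128 * 3675 by norm_num, Nat.divisors_mul, Finset.mul_def]
  rw [this]
  simp only [Finset.forall_mem_image]
  decide +kernel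

/-- If no prime `q ≤ m` divides `(m + k).choose k` with `1 ≤ k ≤ m`, then `k = 1` or
`(k, m) = (3, 4)`. -/
theorem choose_cases {m k : ℕ} (hk : 1 ≤ k) (hkm : k ≤ m)
    (h : ∀ q, q.Prime → q ≤ m → ¬ q ∣ (m + k).choose k) :
    (k = 1 ∧ (m + 1).Prime) ∨ (k = 3 ∧ m = 4) := by
  have key : ∀ x F, x ≠ 0 → x ≤ m + k → ¬ x.Prime → x ∣ (m + k).choose k * F → x ∣ F :=
    fun x F h0 h1 h2 h3 => dvd_of_primes (fun q hq hd => h q hq (by
      have := two_mul_le_of_not_prime h0 h2 hq hd; omega)) h3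
  have p1 : (m + 1).Prime := by
    by_contra hc
    have := Nat.le_of_dvd (by simp; omega) (key _ _ (by omega) (by omega) hc (bot_dvd m k 0))
    simp at this; omega
  by_cases k1 : k = 1
  · exact .inl ⟨k1, p1⟩
  right
  have p2 : (m + k).Prime := by
    by_contra hc
    have := Nat.le_of_dvd (by simp; omega)
      (key _ _ (by omega) (by omega) hc (top_dvd (m + k) k 0 (by omega)))
    simp at this; omega
  have o1 := p1.eq_two_or_odd
  have o2 := p2.eq_two_or_odd
  have ev : ∀ x, x % 2 = 0 → 2 < x → ¬ x.Prime := fun x h1 h2 hp => by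
    have := hp.eq_two_or_odd; omega
  obtain ⟨k, rfl⟩ : ∃ j, k = j + 3 := ⟨k - 3, by omega⟩
  have d1 : m + 2 ∣ (k + 3) * (k + 2) := by
    have := key _ _ (by omega) (by omega) (ev _ (by omega) (by omega)) (bot_dvd m (k + 3) 1)
    simpa [Nat.descFactorial_succ, mul_comm] using this
  have d2 : m + 2 + k ∣ (k + 3) * (k + 2) := by
    have := key _ _ (by omega) (by omega) (ev _ (by omega) (by omega))
      (top_dvd (m + (k + 3)) (k + 3) 1 (by omega))
    rw [show m + (k + 3) - 1 = m + 2 + k by omega] at this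
    simpa [Nat.descFactorial_succ, mul_comm] using this
  by_cases k0 : k = 0
  · subst k0
    have := Nat.le_of_dvd (by norm_num) d1
    refine ⟨rfl, ?_⟩
    have : m = 3 ∨ m = 4 := by omega
    omega
  exfalso
  obtain ⟨k, rfl⟩ : ∃ j, k = j + 2 := ⟨k - 2, by omega⟩
  have g1 : Nat.gcd (m + 2) (m + 2 + (k + 2)) ∣ 6 := by
    set g := Nat.gcd (m + 2) (m + 2 + (k + 2))
    have a1 : g ∣ k + 2 := (Nat.dvd_add_right (Nat.gcd_dvd_left _ _)).1 (Nat.gcd_dvd_right _ _)
    have a2 : g ∣ (k + 2 + 3) * (k + 2 + 2) := (Nat.gcd_dvd_left _ _).trans d1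
    rw [show (k + 2 + 3) * (k + 2 + 2) = (k + 2) * (k + 7) + 6 by ring] at a2
    exact (Nat.dvd_add_right (a1.mul_right _)).1 a2
  obtain ⟨w, hw⟩ : (m + 2) * (m + 2 + (k + 2)) ∣ 6 * ((k + 2 + 3) * (k + 2 + 2)) := by
    rw [← Nat.gcd_mul_lcm]
    exact Nat.mul_dvd_mul g1 (Nat.lcm_dvd d1 d2)
  have d3 : m + 4 ∣ (k + 5) * (k + 4) * (k + 3) * (k + 2) := by
    have := key _ _ (by omega) (by omega) (ev _ (by omega) (by omega)) (bot_dvd m (k + 2 + 3) 3)
    convert this using 1
    simp [Nat.descFactorial_succ]; ring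
  have d4 : m + 2 + k ∣ (k + 5) * (k + 4) * (k + 3) * (k + 2) := by
    have := key _ _ (by omega) (by omega) (ev _ (by omega) (by omega))
      (top_dvd (m + (k + 2 + 3)) (k + 2 + 3) 3 (by omega))
    rw [show m + (k + 2 + 3) - 3 = m + 2 + k by omega] at this
    convert this using 1
    simp [Nat.descFactorial_succ]; ring
  have w3 : w < 3 := by
    by_contra! hc
    have : (k + 7) * (2 * k + 9) * 3 ≤ (m + 2) * (m + 2 + (k + 2)) * w :=
      Nat.mul_le_mul (Nat.mul_le_mul (by omega) (by omega)) hc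
    nlinarith
  obtain rfl | rfl | rfl : w = 0 ∨ w = 1 ∨ w = 2 := by omega
  · simp at hw
  · have e : m = 2 * k + 8 := by
      have : ((m : ℤ) - (2 * k + 8)) * (m + 3 * k + 14) = 0 := by
        zify at hw; linear_combination -hw
      rcases mul_eq_zero.1 this with h1 | h1 <;> omega
    subst e
    have a1 : k + 6 ∣ 24 := by
      have a2 : k + 6 ∣ (k + 5) * (k + 4) * (k + 3) * (k + 2) :=
        (Dvd.intro_left 2 (by ring)).trans d3
      rw [show (k + 5) * (k + 4) * (k + 3) * (k + 2) = (k + 6) * (k ^ 3 + 8 * k ^ 2 + 23 * k + 16) + 24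
        by ring] at a2
      exact (Nat.dvd_add_right (dvd_mul_right _ _)).1 a2
    have a2 := Nat.le_of_dvd (by norm_num) a1
    obtain ⟨q, hq, hd⟩ := small_one (k + 5) (by simp; omega)
    rw [show 2 * (k + 5) - 2 + (k + 5) = 2 * k + 8 + (k + 2 + 3) by omega] at hd
    simp only [List.mem_cons, List.not_mem_nil, or_false] at hq
    rcases hq with rfl | rfl | rfl <;> exact h _ (by norm_num) (by omega) hd
  · have e : (m + 4) * (m + 2 + k) = (3 * k + 20) * (k + 3) := by nlinarith
    have g2 : Nat.gcd (m + 4) (m + 2 + k) ∣ 840 := by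
      set g := Nat.gcd (m + 4) (m + 2 + k)
      have a1 : (g : ℤ) ∣ k - 2 := by
        have := dvd_sub (Int.natCast_dvd_natCast.2 (Nat.gcd_dvd_right (m + 4) (m + 2 + k)))
          (Int.natCast_dvd_natCast.2 (Nat.gcd_dvd_left (m + 4) (m + 2 + k)))
        exact this.trans (dvd_of_eq (by push_cast; ring))
      have a2 := Int.natCast_dvd_natCast.2 ((Nat.gcd_dvd_left _ (m + 2 + k)).trans d3)
      have a3 := dvd_sub a2 (a1.mul_right (k ^ 3 + 16 * k ^ 2 + 103 * k + 360))
      rw [← Int.natCast_dvd_natCast]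
      exact a3.trans (dvd_of_eq (by push_cast; ring))
    have a1 : (3 * k + 20) * (k + 3) ∣ 840 * ((k + 5) * (k + 4) * (k + 3) * (k + 2)) := by
      rw [← e, ← Nat.gcd_mul_lcm]
      exact Nat.mul_dvd_mul g2 (Nat.lcm_dvd d3 d4)
    have a2 : 3 * k + 20 ∣ 840 * ((k + 5) * (k + 4) * (k + 2)) :=
      Nat.dvd_of_mul_dvd_mul_right (by omega : 0 < k + 3) (by convert a1 using 1; ring)
    have a3 : 3 * k + 20 ∣ 470400 := by
      have a4 : (3 * k + 20) * (840 * (9 * k ^ 2 + 39 * k + 82)) =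
        27 * (840 * ((k + 5) * (k + 4) * (k + 2))) + 470400 := by ring
      exact (Nat.dvd_add_right (a2.mul_left 27)).1 (a4 ▸ dvd_mul_right _ _)
    have a4 := small_two _ (Nat.mem_divisors.2 ⟨a3, by norm_num⟩) (by omega) (by omega) (by
      rw [show (3 * k + 20 - 5) / 3 = k + 5 by omega,
        show 13 * (k + 5) * (k + 5) + 9 - 18 * (k + 5) = (2 * m + k + 6) ^ 2 by
          apply Nat.sub_eq_of_eq_add; nlinarith, Nat.sqrt_eq'])
    obtain rfl : k = 4 := by omega
    obtain rfl : m = 10 := by nlinarith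
    exact h 2 (by norm_num) (by norm_num) (by decide)

theorem not_coprime_succ {m k : ℕ} (hk : 1 ≤ k) (hkm : k ≤ m)
    (h : ∀ q, q.Prime → q ∣ m + 1 → ¬ q ∣ (m + k).choose k) : False := by
  have := Nat.le_of_dvd (by simp; omega) (dvd_of_primes h (bot_dvd m k 0))
  simp at this; omega

theorem prime_le_of_not_dvd {m k q : ℕ} (hkm : k ≤ m) (hq : q.Prime) (hqn : q ≤ m + k)
    (h : ¬ q ∣ (m + k).choose k) : q ≤ m := by
  by_contra! hc
  exact h (hq.dvd_choose (hkm.trans_lt hc) (by omega) hqn)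

theorem factorial_mul_eq (a b : ℕ) : ((a + 1) * b).factorial =
    b.factorial * (a + 1).factorial ^ b * ∏ j ∈ Finset.range b, ((a + 1) * j + a).choose a := by
  induction b with
  | zero => simp
  | succ b ih =>
    have h := Nat.add_choose_mul_factorial_mul_factorial ((a + 1) * b) a
    rw [Finset.prod_range_succ, show (a + 1) * (b + 1) = (a + 1) * b + a + 1 by ring,
      Nat.factorial_succ, ← h, ih, Nat.factorial_succ b, Nat.factorial_succ a]
    ring

end Cfsg.Lib.Char.HallSym
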