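import Cfsg.Agent.Char.IsaacsCentral
import Cfsg.Agent.Char.GlaubermanRel
import Cfsg.Agent.Solv.CoprimeBasic

/-!
# The step of the Isaacs correspondence across an abelian section
-/

set_option autoImplicit false

open scoped ComplexConjugate commutatorElement
open Cfsg

namespace Cfsg.Lib.Char

universe u

section CliffordHom

variable {N G T : Type*} [Group N] [Group G] [Group T] [Finite G] {i : N →* G} {θ : N → ℂ}
  {j : T →* G} {k : N →* T}

theorem indFun_toRange_eq [Fintype G] (hi : Function.Injective i) (hN : i.range.Normal)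
    (hj : Function.Injective j) (hk : ∀ n, j (k n) = i n) (hθ : IsIrrCharacter N θ)
    (hT : ∀ g, InvBy i θ g → g ∈ j.range) {χ : G → ℂ} {ψ : T → ℂ} (hχ : IsIrrCharacter G χ)
    (hψ : IsIrrCharacter T ψ) (h1 : Over k ψ θ) (h2 : Over j χ ψ) :
    indFun j.range (toRange hj ψ) = χ := by
  have := Fintype.ofFinite i.range
  have := Fintype.ofFinite j.range
  have hNT : i.range ≤ j.range := by
    rintro _ ⟨n, rfl⟩
    exact ⟨k n, hk n⟩
  refine clifford_indFun_eq hNT (fun g hg =>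
    hT g ((invBy_toRange hi).1 (invBy_subtype_iff.2 hg))) (isIrr_toRange hi hθ)
    (isIrr_toRange hj hψ) ?_ hχ (over_subtype_iff.1 ((over_toRange hj).2 h2))
  rw [← over_inclusion_iff hNT]
  refine (Over.congr (MonoidHom.ofInjective hi) (fun n => ?_)
    (fun n => (toRange_ofInjective hi θ n).symm)).1 h1
  rw [← toRange_apply hj ψ (k n)]
  congr 1
  exact Subtype.ext (hk n)

theorem classInner_clifford_left [Fintype G] [Fintype T] (hi : Function.Injective i)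
    (hN : i.range.Normal) (hj : Function.Injective j) (hk : ∀ n, j (k n) = i n)
    (hθ : IsIrrCharacter N θ) (hT : ∀ g, InvBy i θ g → g ∈ j.range) {χ : G → ℂ} {ψ : T → ℂ}
    (hχ : IsIrrCharacter G χ) (hψ : IsIrrCharacter T ψ) (h1 : Over k ψ θ) (h2 : Over j χ ψ)
    {α : G → ℂ} (hα : IsClassFunction G α) :
    classInner α χ = classInner (fun t => α (j t)) ψ := by
  have := Fintype.ofFinite j.range
  rw [← indFun_toRange_eq hi hN hj hk hθ hT hχ hψ h1 h2, classInner_indFun_right _ _ hα,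
    ← classInner_comp_equiv (MonoidHom.ofInjective hj)]
  simp only [toRange_ofInjective]
  rfl

theorem classInner_clifford_hom {D : Type*} [Group D] [Fintype D] (hi : Function.Injective i)
    (hN : i.range.Normal) (hj : Function.Injective j) (hk : ∀ n, j (k n) = i n)
    (hθ : IsIrrCharacter N θ) (hT : ∀ g, InvBy i θ g → g ∈ j.range) {χ : G → ℂ} {ψ : T → ℂ}
    (hχ : IsIrrCharacter G χ) (hψ : IsIrrCharacter T ψ) (h1 : Over k ψ θ) (h2 : Over j χ ψ)
    (m : D →* T) {l : N →* D} (hl : ∀ n, m (l n) = k n) {ξ : D → ℂ} (hξ : IsIrrCharacter D ξ)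
    (h3 : Over l ξ θ) :
    classInner (fun d => χ (j (m d))) ξ = classInner (fun d => ψ (m d)) ξ := by
  have := Fintype.ofFinite G
  have := Fintype.ofFinite i.range
  have hNT : i.range ≤ j.range := by
    rintro _ ⟨n, rfl⟩
    exact ⟨k n, hk n⟩
  have h4 : Over (Subgroup.inclusion hNT) (toRange hj ψ) (toRange hi θ) := by
    refine (Over.congr (MonoidHom.ofInjective hi) (fun n => ?_)
      (fun n => (toRange_ofInjective hi θ n).symm)).1 h1
    rw [← toRange_apply hj ψ (k n)]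
    congr 1
    exact Subtype.ext (hk n)
  have := classInner_clifford_comp (isIrr_toRange hi hθ) hNT (fun g hg =>
    hT g ((invBy_toRange hi).1 (invBy_subtype_iff.2 hg))) (isIrr_toRange hj hψ)
    ((over_inclusion_iff hNT).1 h4) ((MonoidHom.ofInjective hj).toMonoidHom.comp m)
    (l.comp (MonoidHom.ofInjective hi).symm.toMonoidHom) (fun n => by
      obtain ⟨n, rfl⟩ := (MonoidHom.ofInjective hi).surjective n
      simp [hl, hk, MonoidHom.ofInjective_apply]) hξ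
    (over_iff.1 ((Over.congr (MonoidHom.ofInjective hi) (fun n => by simp)
      (fun n => (toRange_ofInjective hi θ n).symm)).1 h3))
  rw [indFun_toRange_eq hi hN hj hk hθ hT hχ hψ h1 h2] at this
  simpa only [MonoidHom.comp_apply, MulEquiv.coe_toMonoidHom, toRange_ofInjective,
    MonoidHom.ofInjective_apply] using this

end CliffordHom

section Defs

variable {Γ : Type*} [Group Γ]

/-- `χ` is an `S`-invariant irreducible character of `X` over `φ`. -/
def SIrr (S : Subgroup Γ) {L X : Subgroup Γ} (h : L ≤ X) (φ : L → ℂ) (χ : X → ℂ) : Prop :=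
  IsIrrCharacter X χ ∧ (∀ s ∈ S, InvBy X.subtype χ s) ∧ Over (Subgroup.inclusion h) χ φ

/-- The stabilizer of `(L, φ)`. -/
def invStab (L : Subgroup Γ) (φ : L → ℂ) : Subgroup Γ where
  carrier := {g | g ∈ Subgroup.normalizer (L : Set Γ) ∧ InvBy L.subtype φ g}
  one_mem' := ⟨Subgroup.one_mem _, fun n n' h => by
    rw [one_mul, inv_one, mul_one] at h; rw [Subtype.ext h]⟩
  mul_mem' ha hb := ⟨Subgroup.mul_mem _ ha.1 hb.1, ha.2.mul hb.2 fun n =>
    ⟨⟨_, Solv.conj_mem_of_mem_normalizer hb.1 n.2⟩, rfl⟩⟩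
  inv_mem' ha := ⟨Subgroup.inv_mem _ ha.1, ha.2.inv⟩

theorem forall_sup_conj_iff {L S N : Subgroup Γ} [hL : L.Normal] (hLN : L ≤ N) (g : Γ) :
    (∀ m ∈ L ⊔ S, g⁻¹ * (m * g * m⁻¹) ∈ N) ↔ ∀ s ∈ S, g⁻¹ * (s * g * s⁻¹) ∈ N := by
  refine ⟨fun h s hs => h s (Subgroup.mem_sup_right hs), fun h m hm => ?_⟩
  obtain ⟨l, hl, s, hs, rfl⟩ := (Solv.mem_sup_of_le_normalizer fun x _ =>
    Subgroup.le_normalizer_of_normal (Subgroup.mem_top x)).1 hm
  have := N.mul_mem (N.mul_mem (hLN (hL.conj_mem l hl g⁻¹)) (h s hs)) (hLN (L.inv_mem hl))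
  convert this using 1
  group

theorem forall_sup_invBy_iff {L S X : Subgroup Γ} (hLX : L ≤ X)
    (hS : S ≤ Subgroup.normalizer (X : Set Γ)) {χ : X → ℂ} (hχ : IsClassFunction X χ) :
    (∀ m ∈ L ⊔ S, InvBy X.subtype χ m) ↔ ∀ s ∈ S, InvBy X.subtype χ s :=
  ⟨fun h s hs => h s (Subgroup.mem_sup_right hs), invBy_sup (hLX.trans Subgroup.le_normalizer) hS
    fun l hl => invBy_self hχ l (hLX hl)⟩

/-- The hypotheses of the Isaacs correspondence step. -/
structure IsaacsHyp (G S K L H : Subgroup Γ) : Prop where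
  cop : (Nat.card G).Coprime (Nat.card S)
  solv : Group.IsSolvable G
  odd : Odd (Nat.card G)
  LK : L ≤ K
  KG : K ≤ G
  nK : G ≤ Subgroup.normalizer (K : Set Γ)
  nL : G ≤ Subgroup.normalizer (L : Set Γ)
  sL : S ≤ Subgroup.normalizer (L : Set Γ)
  ab : ∀ x ∈ K, ∀ y ∈ K, ⁅x, y⁆ ∈ L
  triv : ∀ g ∈ G, ∀ s ∈ S, g⁻¹ * (s * g * s⁻¹) ∈ K
  mem_H : ∀ g, g ∈ H ↔ g ∈ G ∧ ∀ s ∈ S, g⁻¹ * (s * g * s⁻¹) ∈ L
  red : ∀ g ∈ K, g ∈ H → g ∈ L

end Defs

namespace CTriple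

theorem isSolvable {N G A K : Type*} [Group N] [Group G] [Group A] [Group K] {i : N →* G}
    {θ : N → ℂ} {ι : A →* K} {lam : A →* ℂˣ} (T : CTriple i θ ι lam) (h : Group.IsSolvable G) :
    Group.IsSolvable K := by
  have : Group.IsSolvable A := Group.isSolvable_of_comm T.comm_A
  have : Group.IsSolvable T.Γ := Group.isSolvable_of_ker_le_range T.b T.π T.range_b.ge
  exact Group.isSolvable_of_surjective T.q_surj

variable {Γ Γ' : Type*} [Group Γ] [Group Γ'] {L : Subgroup Γ} {φ : L → ℂ} {A : Subgroup Γ'}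
  {lam : A →* ℂˣ} {T : CTriple L.subtype φ A.subtype lam} {X Y M : Subgroup Γ}
  {X' Y' M' : Subgroup Γ'}

theorem Rel.forall_conj_iff (hM : T.Rel M M') (hX : T.Rel X X') (γ : T.Γ) :
    (∀ m ∈ M, (T.π γ)⁻¹ * (m * T.π γ * m⁻¹) ∈ X) ↔
      ∀ m ∈ M', (T.q γ)⁻¹ * (m * T.q γ * m⁻¹) ∈ X' := by
  rw [T.π_surj.forall, T.q_surj.forall]
  refine forall_congr' fun δ => imp_congr (hM δ) ?_
  simpa only [map_mul, map_inv] using hX (γ⁻¹ * (δ * γ * δ⁻¹))

theorem Corr.invBy_iff (hX : T.Rel X X') {χ : X → ℂ} {β : X' → ℂ} (hc : (restrict hX).Corr χ β)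
    {δ : T.Γ} (hδ : T.π δ ∈ Subgroup.normalizer (X : Set Γ)) :
    InvBy X.subtype χ (T.π δ) ↔ InvBy X'.subtype β (T.q δ) := by
  have hδ' := (hX.normalizer δ).1 hδ
  rw [invBy_iff_conjAut hδ, invBy_iff_conjAut hδ']
  exact (Corr.conj hX hX δ (fun _ hx => Solv.conj_mem_of_mem_normalizer hδ hx)
    (fun _ hx => Solv.conj_mem_of_mem_normalizer hδ' hx) hc).eq_iff hc

theorem relBij_corr (hX : T.Rel X X') (hLX : L ≤ X) (hAX : A ≤ X') {S : Subgroup Γ}
    {S' : Subgroup Γ'} (hM : T.Rel (L ⊔ S) (A ⊔ S')) (hS : S ≤ Subgroup.normalizer (X : Set Γ)) :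
    RelBij (SIrr S hLX φ) (SIrr S' hAX fun x => (lam x : ℂ)) (restrict hX).Corr := by
  have := T.finite_G
  have := T.finite_K
  have := Fintype.ofFinite L
  have := Fintype.ofFinite A
  have h1 : L ⊔ S ≤ Subgroup.normalizer (X : Set Γ) := sup_le (hLX.trans Subgroup.le_normalizer) hS
  have h2 : S' ≤ Subgroup.normalizer (X' : Set Γ') :=
    le_sup_right.trans ((hM.le_iff hX.normalizer).1 h1)
  have key : ∀ χ β, (restrict hX).Corr χ β → IsIrrCharacter X χ → IsIrrCharacter X' β →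
      ((∀ s ∈ S, InvBy X.subtype χ s) ↔ ∀ s ∈ S', InvBy X'.subtype β s) := by
    intro χ β hc hχ hβ
    rw [← forall_sup_invBy_iff hLX hS hχ.isClassFunction,
      ← forall_sup_invBy_iff hAX h2 hβ.isClassFunction, T.π_surj.forall, T.q_surj.forall]
    exact forall_congr' fun δ => ⟨fun h h' => (hc.invBy_iff hX (h1 ((hM δ).2 h'))).1
      (h ((hM δ).2 h')), fun h h' => (hc.invBy_iff hX (h1 h')).2 (h ((hM δ).1 h'))⟩
  refine ⟨fun χ ⟨h3, h4, h5⟩ => ?_, fun β ⟨h3, h4, h5⟩ => ?_⟩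
  · obtain ⟨β, h6, h7⟩ := (restrict hX).exists_corr_of_irr h3 ((over_inclusion_iff hLX).1 h5)
    exact ⟨β, ⟨⟨h6, (key χ β h7 h3 h6).1 h4, (over_inclusion_iff hAX).2
      ((liesOverLin_iff (restrict hX).central h6).1 h7.liesOver)⟩, h7⟩,
      fun β' h8 => h8.2.right_unique h7⟩
  · obtain ⟨χ, h6, h7⟩ := (restrict hX).exists_corr_of_irr' h3 ((over_inclusion_iff hAX).1 h5)
    exact ⟨χ, ⟨⟨h6, (key χ β h7 h6 h3).2 h4, (over_inclusion_iff hLX).2 (h7.lies_over h6)⟩, h7⟩,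
      fun χ' h8 => h8.2.left_unique h7⟩

theorem Corr.gcor_iff (hX : T.Rel X X') (hY : T.Rel Y Y') (h : Y ≤ X) (h' : Y' ≤ X') {χ : X → ℂ}
    {β : X' → ℂ} (hc : (restrict hX).Corr χ β) {ψ : Y → ℂ} {η : Y' → ℂ}
    (hd : (restrict hY).Corr ψ η) (p : ℕ) :
    GCor p (Subgroup.inclusion h) χ ψ ↔ GCor p (Subgroup.inclusion h') β η := by
  have := T.finite_G
  have := T.finite_K
  have := Fintype.ofFinite Y
  have := Fintype.ofFinite Y'
  rw [gcor_iff_classInner, gcor_iff_classInner]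
  have := (Corr.res_le hY hX h hc).classInner_eq hd
  exact exists_congr fun m => and_congr_right fun _ => Eq.congr_left this

end CTriple

section Clifford

variable {Γ : Type*} [Group Γ]

/-- The inclusion of `Y ⊓ X`, seen in `X`, into `Y`. -/
def toSub (X Y : Subgroup Γ) : Y.subgroupOf X →* Y := X.subtype.subgroupComap Y

theorem toSub_injective (X Y : Subgroup Γ) : Function.Injective (toSub X Y) := fun _ _ h =>
  Subtype.ext (Subtype.ext (congrArg (fun y : Y => (y : Γ)) h))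

theorem mem_normalizer_subgroupOf {X Y : Subgroup Γ} {x : X}
    (h : (x : Γ) ∈ Subgroup.normalizer (Y : Set Γ)) :
    x ∈ Subgroup.normalizer (Y.subgroupOf X : Set X) := fun y => h y

theorem le_invStab {L : Subgroup Γ} {φ : L → ℂ} (hφ : IsClassFunction L φ) : L ≤ invStab L φ :=
  fun x hx => ⟨Subgroup.le_normalizer hx, invBy_self hφ x hx⟩

theorem over_conjAut {L Y : Subgroup Γ} (h : L ≤ Y) {s : Γ} {φ : L → ℂ} (hs : s ∈ invStab L φ)
    (hY : s ∈ Subgroup.normalizer (Y : Set Γ)) {χ : Y → ℂ} :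
    Over (Subgroup.inclusion h) (fun y => χ (conjAut Y hY y)) φ ↔
      Over (Subgroup.inclusion h) χ φ :=
  Over.congr (conjAut L hs.1) (fun _ => rfl) fun n => (hs.2 n _ rfl).symm

variable [Finite Γ] {L Y S : Subgroup Γ} {φ : L → ℂ}

omit [Finite Γ] in
theorem mem_range_toSub (hn : Y ≤ Subgroup.normalizer (L : Set Γ)) (hφ : IsIrrCharacter L φ)
    (hLY : L.subgroupOf (invStab L φ) ≤ Y.subgroupOf (invStab L φ)) (y : Y)
    (hy : InvBy ((toSub (invStab L φ) Y).comp (Subgroup.inclusion hLY))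
      (fun n => φ (toSub _ L n)) y) : y ∈ (toSub (invStab L φ) Y).range :=
  ⟨⟨⟨y, hn y.2, fun n n' e => hy ⟨⟨n, le_invStab hφ.isClassFunction n.2⟩, n.2⟩
    ⟨⟨n', le_invStab hφ.isClassFunction n'.2⟩, n'.2⟩ (Subtype.ext e)⟩, y.2⟩, rfl⟩

omit [Finite Γ] in
theorem normal_range_toSub {X : Subgroup Γ} (hn : Y ≤ Subgroup.normalizer (L : Set Γ)) (hX : L ≤ X)
    (hLY : L.subgroupOf X ≤ Y.subgroupOf X) :
    ((toSub X Y).comp (Subgroup.inclusion hLY)).range.Normal := ⟨by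
  rintro _ ⟨n, rfl⟩ y
  have := Solv.conj_mem_of_mem_normalizer (H := L) (hn y.2) n.2
  exact ⟨⟨⟨_, hX this⟩, this⟩, rfl⟩⟩

theorem relBij_clifford (hLY : L ≤ Y) (hn : Y ≤ Subgroup.normalizer (L : Set Γ))
    (hS : S ≤ Subgroup.normalizer (Y : Set Γ)) (hφ : IsIrrCharacter L φ) (hSX : S ≤ invStab L φ)
    (hLY' : L.subgroupOf (invStab L φ) ≤ Y.subgroupOf (invStab L φ)) :
    RelBij (SIrr S hLY φ) (SIrr (S.subgroupOf (invStab L φ)) hLY' fun n => φ (toSub _ L n))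
      (Over (toSub (invStab L φ) Y)) := by
  have hLX := le_invStab hφ.isClassFunction
  let f := Subgroup.subgroupOfEquivOfLe hLX
  obtain ⟨e, he, -⟩ := exists_clifford_equiv
    ((toSub_injective _ Y).comp (Subgroup.inclusion_injective hLY')) (normal_range_toSub hn hLX hLY')
    (toSub_injective _ Y) (k := Subgroup.inclusion hLY') (fun _ => rfl) (hφ.comp_equiv f)
    (mem_range_toSub hn hφ hLY')
  have h1 : ∀ χ, Over ((toSub _ Y).comp (Subgroup.inclusion hLY')) χ (fun n => φ (toSub _ L n)) ↔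
      Over (Subgroup.inclusion hLY) χ φ := fun χ => Over.congr f (fun _ => rfl) fun _ => rfl
  have key : ∀ χ η, IsIrrCharacter Y χ → Over (Subgroup.inclusion hLY) χ φ → IsIrrCharacter _ η →
      Over (Subgroup.inclusion hLY') η (fun n => φ (toSub _ L n)) → Over (toSub _ Y) χ η →
      ((∀ s ∈ S, InvBy Y.subtype χ s) ↔ ∀ s ∈ S.subgroupOf (invStab L φ),
        InvBy (Y.subgroupOf (invStab L φ)).subtype η s) := by
    intro χ η hχ ho hη ho' hj
    have k2 : ∀ s : invStab L φ, (s : Γ) ∈ S → (InvBy Y.subtype χ s ↔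
        InvBy (Y.subgroupOf (invStab L φ)).subtype η s) := by
      intro s hs
      have n1 := mem_normalizer_subgroupOf (hS hs)
      rw [invBy_iff_conjAut (hS hs), invBy_iff_conjAut n1]
      have e1 := (he ⟨⟨η, hη⟩, ho'⟩ ⟨⟨χ, hχ⟩, (h1 χ).2 ho⟩).2 hj
      have e2 := (he ⟨⟨_, hη.comp_equiv (conjAut _ n1)⟩, (over_conjAut hLY' (s := s)
        ⟨mem_normalizer_subgroupOf s.2.1, fun n n' e =>
          s.2.2 (toSub _ L n) (toSub _ L n') (congrArg Subtype.val e)⟩ n1).2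
          ho'⟩ ⟨⟨_, hχ.comp_equiv (conjAut _ (hS hs))⟩,
        (h1 _).2 ((over_conjAut hLY s.2 (hS hs)).2 ho)⟩).2
        ((Over.congr (conjAut _ n1) (fun _ => rfl) fun _ => rfl).2 hj)
      constructor
      · intro h
        exact congrArg (fun x => x.1.1) (e.injective (e2.trans
          ((Subtype.ext (Subtype.ext h)).trans e1.symm)))
      · intro h
        exact congrArg (fun x => x.1.1) (e2.symm.trans
          ((congrArg e (Subtype.ext (Subtype.ext h))).trans e1))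
    exact ⟨fun h s hs => (k2 s hs).1 (h s hs), fun h s hs => (k2 ⟨s, hSX hs⟩ hs).2 (h _ hs)⟩
  refine ⟨fun χ ⟨h3, h4, h5⟩ => ?_, fun η ⟨h3, h4, h5⟩ => ?_⟩
  · obtain ⟨η, hη⟩ := e.surjective ⟨⟨χ, h3⟩, (h1 χ).2 h5⟩
    have h6 := (he _ _).1 hη
    refine ⟨η.1.1, ⟨⟨η.1.2, (key χ _ h3 h5 η.1.2 η.2 h6).1 h4, η.2⟩, h6⟩, fun η' h7 => ?_⟩
    exact congrArg (fun x => x.1.1) (e.injective
      (((he ⟨⟨η', h7.1.1⟩, h7.1.2.2⟩ _).2 h7.2).trans hη.symm))
  · let χ := e ⟨⟨η, h3⟩, h5⟩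
    have h6 := (he _ χ).1 rfl
    have h7 := (h1 _).1 χ.2
    refine ⟨χ.1.1, ⟨⟨χ.1.2, (key _ η χ.1.2 h7 h3 h5 h6).2 h4, h7⟩, h6⟩, fun χ' h8 => ?_⟩
    exact congrArg (fun x => x.1.1)
      ((he ⟨⟨η, h3⟩, h5⟩ ⟨⟨χ', h8.1.1⟩, (h1 _).2 h8.1.2.2⟩).2 h8.2).symm

theorem gcor_clifford {H : Subgroup Γ} (hHY : H ≤ Y)
    (hn : Y ≤ Subgroup.normalizer (L : Set Γ)) (hφ : IsIrrCharacter L φ)
    (hLY' : L.subgroupOf (invStab L φ) ≤ Y.subgroupOf (invStab L φ))
    (hLH' : L.subgroupOf (invStab L φ) ≤ H.subgroupOf (invStab L φ))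
    (hHY' : H.subgroupOf (invStab L φ) ≤ Y.subgroupOf (invStab L φ))
    {χ : Y → ℂ} {η : Y.subgroupOf (invStab L φ) → ℂ} {ψ : H → ℂ}
    {ξ : H.subgroupOf (invStab L φ) → ℂ} (hχ : IsIrrCharacter _ χ) (hη : IsIrrCharacter _ η)
    (hψ : IsIrrCharacter _ ψ) (hξ : IsIrrCharacter _ ξ)
    (h1 : Over (Subgroup.inclusion hLY') η fun n => φ (toSub _ L n))
    (h2 : Over (Subgroup.inclusion hLH') ξ fun n => φ (toSub _ L n))
    (h3 : Over (toSub _ Y) χ η) (h4 : Over (toSub _ H) ψ ξ) (p : ℕ) :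
    GCor p (Subgroup.inclusion hHY) χ ψ ↔ GCor p (Subgroup.inclusion hHY') η ξ := by
  have hLX := le_invStab hφ.isClassFunction
  have hφ' := hφ.comp_equiv (Subgroup.subgroupOfEquivOfLe hLX)
  have := Fintype.ofFinite H
  have := Fintype.ofFinite (H.subgroupOf (invStab L φ))
  rw [gcor_iff_classInner, gcor_iff_classInner, classInner_clifford_left
    ((toSub_injective _ H).comp (Subgroup.inclusion_injective hLH'))
    (normal_range_toSub (hHY.trans hn) hLX hLH') (toSub_injective _ H)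
    (k := Subgroup.inclusion hLH') (fun _ => rfl) hφ' (mem_range_toSub (hHY.trans hn) hφ hLH')
    hψ hξ h2 h4 (hχ.isClassFunction.comp (Subgroup.inclusion hHY)),
    ← classInner_clifford_hom ((toSub_injective _ Y).comp (Subgroup.inclusion_injective hLY'))
    (normal_range_toSub hn hLX hLY') (toSub_injective _ Y)
    (k := Subgroup.inclusion hLY') (fun _ => rfl) hφ' (mem_range_toSub hn hφ hLY') hχ hη h1 h3
    (Subgroup.inclusion hHY') (l := Subgroup.inclusion hLH') (fun _ => rfl) hξ h2]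
  rfl

end Clifford

namespace IsaacsHyp

variable {Γ : Type u} [Group Γ] {G S K L H : Subgroup Γ} (h : IsaacsHyp G S K L H)
include h

theorem HG : H ≤ G := fun g hg => ((h.mem_H g).1 hg).1

theorem LG : L ≤ G := h.LK.trans h.KG

theorem LH : L ≤ H := fun g hg => (h.mem_H g).2 ⟨h.LG hg, fun _ hs =>
  L.mul_mem (L.inv_mem hg) (Solv.conj_mem_of_mem_normalizer (h.sL hs) hg)⟩

variable [Finite Γ]

theorem sG : S ≤ Subgroup.normalizer (G : Set Γ) := fun s hs =>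
  Solv.mem_normalizer_of_conj_mem fun g hg => by
    simpa using G.mul_mem hg (h.KG (h.triv g hg s hs))

theorem sK : S ≤ Subgroup.normalizer (K : Set Γ) := fun s hs =>
  Solv.mem_normalizer_of_conj_mem fun g hg => by
    simpa using K.mul_mem hg (h.triv g (h.KG hg) s hs)

theorem sH : S ≤ Subgroup.normalizer (H : Set Γ) := fun s hs =>
  Solv.mem_normalizer_of_conj_mem fun g hg => by
    simpa using H.mul_mem hg (h.LH (((h.mem_H g).1 hg).2 s hs))

omit [Finite Γ] in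
theorem mem_of_centralizer {c : Γ} (hc : c ∈ G) (hc' : c ∈ Subgroup.centralizer (S : Set Γ)) :
    c ∈ H := (h.mem_H c).2 ⟨hc, fun s hs => by
  rw [hc' s hs, mul_inv_cancel_right, inv_mul_cancel]; exact L.one_mem⟩

theorem exists_mul {U : Subgroup Γ} (hU : U ≤ G) (hS : S ≤ Subgroup.normalizer (U : Set Γ)) {g : Γ}
    (hg : ∀ s ∈ S, g⁻¹ * (s * g * s⁻¹) ∈ U) :
    ∃ u ∈ U, g * u ∈ Subgroup.centralizer (S : Set Γ) :=
  Solv.Coprime.exists_mul_mem_centralizer hS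
    (h.cop.symm.coprime_dvd_right (Subgroup.card_dvd_of_le hU))
    (Or.inr (by
      have := h.solv
      exact Group.isSolvable_of_isSolvable_injective (Subgroup.inclusion_injective hU))) hg

theorem central (hL : L ≤ Subgroup.center Γ) {lam : L →* ℂˣ} (hlam : Function.Injective lam) :
    RelBij (SIrr S h.LG fun x => (lam x : ℂ)) (SIrr S h.LH fun x => (lam x : ℂ))
      (GCor 2 (Subgroup.inclusion h.HG)) := by
  have hS : ∀ s ∈ S, ∀ g ∈ G, s * g * s⁻¹ ∈ G := fun s hs g hg =>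
    Solv.conj_mem_of_mem_normalizer (h.sG hs) hg
  have hC : H = G ⊓ Subgroup.centralizer (S : Set Γ) := by
    refine le_antisymm (fun g hg => ⟨h.HG hg, ?_⟩) fun g hg => h.mem_of_centralizer hg.1 hg.2
    obtain ⟨l, hl, h1⟩ := h.exists_mul h.LG h.sL ((h.mem_H g).1 hg).2
    exact (Subgroup.mul_mem_cancel_right _ (Subgroup.center_le_centralizer _ (hL hl))).1 h1
  have : (K.subgroupOf G).Normal := (Subgroup.normal_subgroupOf_iff_le_normalizer h.KG).2 h.nK
  refine (isaacs_central (φ := conjHom G S hS) h.cop h.odd h.solv (K.subgroupOf G)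
    (fun s g hg => Solv.conj_mem_of_mem_normalizer (H := K) (h.sK s.2) hg)
    (isFixedEmb_conjHom hS hC h.HG) (iA := Subgroup.inclusion h.LH)
    (Subgroup.inclusion_injective _)
    (fun x g => Subtype.ext (Subgroup.mem_center_iff.1 (hL x.2) g).symm) (fun x => h.LK x.2)
    (fun g => ?_) (fun x hx => ⟨⟨x, h.red x hx x.2⟩, rfl⟩)
    (fun x hx y hy => ⟨⟨_, h.ab x hx y hy⟩, rfl⟩) hlam).congr (fun χ => ?_) fun ψ => ?_
  · obtain ⟨k, hk, h1⟩ := h.exists_mul h.KG h.sK (h.triv g g.2)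
    have h2 : (g : Γ) * k⁻¹ * (g : Γ)⁻¹ ∈ K :=
      Solv.conj_mem_of_mem_normalizer (h.nK g.2) (K.inv_mem hk)
    exact ⟨⟨⟨_, h.KG h2⟩, h2⟩, ⟨_, h.mem_of_centralizer (G.mul_mem g.2 (h.KG hk)) h1⟩,
      Subtype.ext (by simp [mul_assoc])⟩
  · rw [isInv_conjHom_iff]; rfl
  · exact ⟨fun h1 => ⟨h1.1, fun s hs => invBy_of_mem_centralizer _ fun x hx =>
      ((hC.le hx).2 s hs).symm, h1.2⟩, fun h1 => ⟨h1.1, h1.2.2⟩⟩

theorem invariant [hL : L.Normal] {φ : L → ℂ} (hφ : IsIrrCharacter L φ)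
    (hinv : ∀ g, InvBy L.subtype φ g) :
    RelBij (SIrr S h.LG φ) (SIrr S h.LH φ) (GCor 2 (Subgroup.inclusion h.HG)) := by
  obtain ⟨d, hd⟩ := hφ.isCharacter.exists_nat_degree
  obtain ⟨Γ', _, _, A, lam, T, hA, hAc, hlam, hcard⟩ := exists_cTriple L hφ
    (fun g n => hinv g n _ rfl) hd
  have hAn : A.Normal := hA.normal_iff.1 hL
  have rel : ∀ {X : Subgroup Γ}, L ≤ X → T.Rel X (T.star X) := fun hX =>
    T.rel_star fun n => hX n.2
  have hAL : Nat.card A ∣ Nat.card G * Nat.card G := hcard.trans (mul_dvd_mul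
    ((irr_degree_dvd_card hφ hd).trans (Subgroup.card_dvd_of_le h.LG))
    ((detOrder_dvd_card φ).trans (Subgroup.card_dvd_of_le h.LG)))
  have hM := rel (le_sup_left : L ≤ L ⊔ S)
  have hidx : A.relIndex (T.star (L ⊔ S)) ∣ Nat.card S := by
    rw [← hA.relIndex_eq hM]; exact relIndex_sup_dvd_card h.sL
  obtain ⟨S', -, hS1, -, hS2⟩ := Solv.exists_complement_ambient A (T.star (L ⊔ S))
    ((hA.le_iff hM).1 le_sup_left) (fun x _ => Subgroup.le_normalizer_of_normal (Subgroup.mem_top x))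
    (((h.cop.mul_left h.cop).coprime_dvd_left hAL).coprime_dvd_right hidx)
  rw [← hS1] at hM
  have hG := rel h.LG
  have hK := rel h.LK
  have hH := rel h.LH
  have hG' : Nat.card (T.star G) ∣ Nat.card G * (Nat.card G * Nat.card G) :=
    (Dvd.intro _ hG.card_mul.symm).trans (mul_dvd_mul_left _ hAL)
  have conj_iff : ∀ {N : Subgroup Γ} {N' : Subgroup Γ'}, T.Rel N N' → ∀ γ,
      (∀ s ∈ S, (T.π γ)⁻¹ * (s * T.π γ * s⁻¹) ∈ N) ↔
        ∀ s ∈ S', (T.q γ)⁻¹ * (s * T.q γ * s⁻¹) ∈ N' := fun hN γ => by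
    rw [← forall_sup_conj_iff (L := L) (fun x hx => hN.i_mem ⟨x, hx⟩),
      ← forall_sup_conj_iff (L := A) (fun x hx => hN.ι_mem ⟨x, hx⟩), hM.forall_conj_iff hN]
  have h' : IsaacsHyp (T.star G) S' (T.star K) A (T.star H) :=
    { cop := ((h.cop.mul_left (h.cop.mul_left h.cop)).coprime_dvd_left hG').coprime_dvd_right
        (hS2 ▸ hidx)
      solv := (CTriple.restrict hG).isSolvable h.solv
      odd := (h.odd.mul (h.odd.mul h.odd)).of_dvd_nat hG'
      LK := (hA.le_iff hK).1 h.LK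
      KG := (hK.le_iff hG).1 h.KG
      nK := (hG.le_iff hK.normalizer).1 h.nK
      nL := fun x _ => Subgroup.le_normalizer_of_normal (Subgroup.mem_top x)
      sL := fun x _ => Subgroup.le_normalizer_of_normal (Subgroup.mem_top x)
      ab := fun x hx y hy => by
        obtain ⟨x, rfl⟩ := T.q_surj x
        obtain ⟨y, rfl⟩ := T.q_surj y
        rw [← map_commutatorElement, ← hA, map_commutatorElement]
        exact h.ab _ ((hK x).2 hx) _ ((hK y).2 hy)
      triv := fun x hx => by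
        obtain ⟨x, rfl⟩ := T.q_surj x
        exact (conj_iff hK x).1 (h.triv _ ((hG x).2 hx))
      mem_H := fun x => by
        obtain ⟨x, rfl⟩ := T.q_surj x
        rw [← hH, ← hG, ← conj_iff hA, h.mem_H]
      red := fun x hx hx' => by
        obtain ⟨x, rfl⟩ := T.q_surj x
        exact (hA x).1 (h.red _ ((hK x).2 hx) ((hH x).2 hx')) }
  exact (CTriple.relBij_corr hG h.LG h'.LG hM h.sG).transport
    (CTriple.relBij_corr hH h.LH h'.LH hM h.sH)
    (fun _ _ _ _ _ _ _ _ hc hd => hc.gcor_iff hG hH h.HG h'.HG hd 2) (h'.central hAc hlam)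

omit [Finite Γ] in
theorem subgroupOf {X : Subgroup Γ} (hS : S ≤ X) : IsaacsHyp (G.subgroupOf X) (S.subgroupOf X)
    (K.subgroupOf X) (L.subgroupOf X) (H.subgroupOf X) where
  cop := (h.cop.coprime_dvd_left (Subgroup.card_dvd_of_injective _
    (toSub_injective X G))).coprime_dvd_right (Subgroup.card_dvd_of_injective _
      (toSub_injective X S))
  solv := by
    have := h.solv
    exact Group.isSolvable_of_isSolvable_injective (toSub_injective X G)
  odd := h.odd.of_dvd_nat (Subgroup.card_dvd_of_injective _ (toSub_injective X G))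
  LK := fun _ hx => h.LK hx
  KG := fun _ hx => h.KG hx
  nK := fun _ hx => mem_normalizer_subgroupOf (h.nK hx)
  nL := fun _ hx => mem_normalizer_subgroupOf (h.nL hx)
  sL := fun _ hx => mem_normalizer_subgroupOf (h.sL hx)
  ab := fun x hx y hy => h.ab x hx y hy
  triv := fun x hx s hs => h.triv x hx s hs
  mem_H := fun x => (h.mem_H x).trans (and_congr_right fun _ =>
    ⟨fun h1 s hs => h1 s hs, fun h1 s hs => h1 ⟨s, hS hs⟩ hs⟩)
  red := fun x hx hx' => h.red x hx hx'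

theorem relative {φ : L → ℂ} (hφ : IsIrrCharacter L φ) (hinv : ∀ s ∈ S, InvBy L.subtype φ s) :
    RelBij (SIrr S h.LG φ) (SIrr S h.LH φ) (GCor 2 (Subgroup.inclusion h.HG)) := by
  have hSX : S ≤ invStab L φ := fun s hs => ⟨h.sL hs, hinv s hs⟩
  have h' := h.subgroupOf hSX
  have hLX := le_invStab hφ.isClassFunction
  have : (L.subgroupOf (invStab L φ)).Normal :=
    (Subgroup.normal_subgroupOf_iff_le_normalizer hLX).2 fun x hx => hx.1
  exact (relBij_clifford h.LG h.nL h.sG hφ hSX h'.LG).transport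
    (relBij_clifford h.LH (h.HG.trans h.nL) h.sH hφ hSX h'.LH)
    (fun _ _ _ _ h1 h2 h3 h4 hc hd => gcor_clifford h.HG h.nL hφ h'.LG h'.LH h'.HG
      h1.1 h2.1 h3.1 h4.1 h2.2.2 h4.2.2 hc hd 2)
    (h'.invariant (hφ.comp_equiv (Subgroup.subgroupOfEquivOfLe hLX))
      fun g n n' e => g.2.2 _ _ (congrArg Subtype.val e))

theorem exists_under {Y : Subgroup Γ} (hLY : L ≤ Y) (hY : Y ≤ G)
    (hS : S ≤ Subgroup.normalizer (Y : Set Γ)) {χ : Y → ℂ} (hχ : IsIrrCharacter Y χ)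
    (hi : ∀ s ∈ S, InvBy Y.subtype χ s) : ∃ φ : L → ℂ, IsIrrCharacter L φ ∧
      (∀ s ∈ S, InvBy L.subtype φ s) ∧ Over (Subgroup.inclusion hLY) χ φ := by
  have hS' : ∀ s ∈ S, ∀ g ∈ Y, s * g * s⁻¹ ∈ Y := fun s hs g hg =>
    Solv.conj_mem_of_mem_normalizer (hS hs) hg
  have : (L.subgroupOf Y).Normal :=
    (Subgroup.normal_subgroupOf_iff_le_normalizer hLY).2 (hY.trans h.nL)
  have := Fintype.ofFinite (L.subgroupOf Y)
  have := h.solv
  have : Group.IsSolvable Y :=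
    Group.isSolvable_of_isSolvable_injective (Subgroup.inclusion_injective hY)
  obtain ⟨θ, h1, h2, h3⟩ := exists_isInv_under (φ := conjHom Y S hS') (L.subgroupOf Y)
    (fun s g hg => Solv.conj_mem_of_mem_normalizer (H := L) (h.sL s.2) hg) ⊥
    (fun s hs => ⟨1, Subgroup.one_mem _, fun g => by rw [Subgroup.mem_bot.1 hs, map_one]; simp⟩)
    (by
      rw [Subgroup.index_bot]
      exact h.cop.symm.coprime_dvd_right ((Subgroup.index_dvd_card _).trans
        (Subgroup.card_dvd_of_le hY)))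
    (Or.inr inferInstance) hχ ((isInv_conjHom_iff hS' χ).2 hi)
  let f := (Subgroup.subgroupOfEquivOfLe hLY).symm
  refine ⟨fun n => θ (f n), h1.comp_equiv f, fun s hs n n' e => ?_,
    (Over.congr f (fun _ => rfl) fun _ => rfl).2 (over_subtype_iff.2 h3)⟩
  exact (congrArg θ (Subtype.ext (Subtype.ext e))).trans (h2 ⟨s, hs⟩ (f n))

theorem exists_conj {φ φ' : L → ℂ} (hi : ∀ s ∈ S, InvBy L.subtype φ s) (hi' : ∀ s ∈ S, InvBy L.subtype φ' s) {g : Γ} (hg : g ∈ G)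
    (e : ∀ n n' : L, (n' : Γ) = g * n * g⁻¹ → φ' n = φ n') :
    ∃ c ∈ H, ∀ n n' : L, (n' : Γ) = c * n * c⁻¹ → φ' n = φ n' := by
  have hSX : S ≤ invStab L φ := fun s hs => ⟨h.sL hs, hi s hs⟩
  obtain ⟨t, ht, h1⟩ := h.exists_mul (inf_le_left : G ⊓ invStab L φ ≤ G)
    (Solv.le_normalizer_inf h.sG (hSX.trans Subgroup.le_normalizer)) (g := g⁻¹) fun s hs => by
      have h2 : g⁻¹⁻¹ * (s * g⁻¹ * s⁻¹) ∈ G := h.KG (h.triv _ (G.inv_mem hg) s hs)
      refine ⟨h2, h.nL h2, fun n n' e' => ?_⟩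
      have a1 := Solv.inv_conj_mem_of_mem_normalizer (h.sL hs) n.2
      have a2 := Solv.inv_conj_mem_of_mem_normalizer (h.nL hg) a1
      have a3 := Solv.conj_mem_of_mem_normalizer (h.sL hs) a2
      rw [← e ⟨_, a3⟩ n' (by rw [show (n' : Γ) = _ from e']; simp [mul_assoc]),
        hi' s hs ⟨_, a2⟩ ⟨_, a3⟩ rfl, e ⟨_, a2⟩ ⟨_, a1⟩ (by simp [mul_assoc]),
        hi s hs ⟨_, a1⟩ n (by simp [mul_assoc])]
  refine ⟨(g⁻¹ * t)⁻¹, H.inv_mem (h.mem_of_centralizer (G.mul_mem (G.inv_mem hg) ht.1) h1),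
    fun n n' e' => ?_⟩
  have a1 := Solv.conj_mem_of_mem_normalizer (h.nL hg) n.2
  rw [e n ⟨_, a1⟩ rfl]
  exact ht.2.2 n' _ (by simp [e', mul_assoc])

theorem relBij : RelBij (fun χ : G → ℂ => IsIrrCharacter G χ ∧ ∀ s ∈ S, InvBy G.subtype χ s)
    (fun ψ : H → ℂ => IsIrrCharacter H ψ ∧ ∀ s ∈ S, InvBy H.subtype ψ s)
    (GCor 2 (Subgroup.inclusion h.HG)) := by
  refine ⟨fun χ ⟨h1, h2⟩ => ?_, fun ψ ⟨h1, h2⟩ => ?_⟩
  · obtain ⟨φ, h3, h4, h5⟩ := h.exists_under h.LG le_rfl h.sG h1 h2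
    obtain ⟨ψ, ⟨h6, h7⟩, hu⟩ := (h.relative h3 h4).right χ ⟨h1, h2, h5⟩
    refine ⟨ψ, ⟨⟨h6.1, h6.2.1⟩, h7⟩, fun ψ' ⟨h8, h9⟩ => hu ψ' ⟨⟨h8.1, h8.2, ?_⟩, h9⟩⟩
    obtain ⟨φ', a1, a2, a3⟩ := h.exists_under h.LH h.HG h.sH h8.1 h8.2
    obtain ⟨g, hg⟩ := Over.exists_conj (Subgroup.inclusion_injective h.LG)
      (normal_range_inclusion h.LG h.nL) h1 h3 a1 h5
      (Over.trans (k := Subgroup.inclusion h.LH) (fun _ => rfl) h1.isCharacter h8.1 a1.isCharacter
        h9.over a3)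
    obtain ⟨c, hc, a4⟩ := h.exists_conj h4 a2 g.2
      fun n n' e => hg n n' (Subtype.ext e)
    exact (Over.of_conj h8.1.isClassFunction (conjAut L (h.nL (h.HG hc))) (g := ⟨c, hc⟩)
      (fun _ => rfl) fun n => a4 n _ rfl).1 a3
  · obtain ⟨φ, h3, h4, h5⟩ := h.exists_under h.LH h.HG h.sH h1 h2
    obtain ⟨χ, ⟨h6, h7⟩, hu⟩ := (h.relative h3 h4).left ψ ⟨h1, h2, h5⟩
    exact ⟨χ, ⟨⟨h6.1, h6.2.1⟩, h7⟩, fun χ' ⟨h8, h9⟩ => hu χ' ⟨⟨h8.1, h8.2,
      Over.trans (k := Subgroup.inclusion h.LH) (fun _ => rfl) h8.1.isCharacter h1 h3.isCharacter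
        h9.over h5⟩, h9⟩⟩

end IsaacsHyp

end Cfsg.Lib.Char
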