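import Cfsg.Agent.Char.McKayNormal
import Cfsg.Agent.Char.InvOver
import Cfsg.Agent.Char.CharCenter
import Cfsg.Agent.Solv.BaerTrick

/-!
# The Isaacs correspondence step: the central case
-/

set_option autoImplicit false

open scoped ComplexConjugate commutatorElement
open Cfsg

namespace Cfsg.Lib.Char

universe u

/-- `R` is the graph of a bijection between `P` and `Q`. -/
structure RelBij {α β : Type*} (P : α → Prop) (Q : β → Prop) (R : α → β → Prop) : Prop where
  right : ∀ a, P a → ∃! b, Q b ∧ R a b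
  left : ∀ b, Q b → ∃! a, P a ∧ R a b

theorem RelBij.transport {α β α' β' : Type*} {P : α → Prop} {Q : β → Prop} {R : α → β → Prop}
    {P' : α' → Prop} {Q' : β' → Prop} {R' : α' → β' → Prop} {c : α → α' → Prop}
    {d : β → β' → Prop} (hc : RelBij P P' c) (hd : RelBij Q Q' d)
    (h : ∀ a a' b b', P a → P' a' → Q b → Q' b' → c a a' → d b b' → (R a b ↔ R' a' b'))
    (h' : RelBij P' Q' R') : RelBij P Q R where
  right a ha := by
    obtain ⟨a', ⟨h1, h2⟩, -⟩ := hc.right a ha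
    obtain ⟨b', ⟨h3, h4⟩, hu⟩ := h'.right a' h1
    obtain ⟨b, ⟨h5, h6⟩, hu'⟩ := hd.left b' h3
    refine ⟨b, ⟨h5, (h a a' b b' ha h1 h5 h3 h2 h6).2 h4⟩, fun y hy => ?_⟩
    obtain ⟨y', ⟨h7, h8⟩, -⟩ := hd.right y hy.1
    obtain rfl := hu y' ⟨h7, (h a a' y y' ha h1 hy.1 h7 h2 h8).1 hy.2⟩
    exact hu' y ⟨hy.1, h8⟩
  left b hb := by
    obtain ⟨b', ⟨h1, h2⟩, -⟩ := hd.right b hb
    obtain ⟨a', ⟨h3, h4⟩, hu⟩ := h'.left b' h1
    obtain ⟨a, ⟨h5, h6⟩, hu'⟩ := hc.left a' h3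
    refine ⟨a, ⟨h5, (h a a' b b' h5 h3 hb h1 h6 h2).2 h4⟩, fun y hy => ?_⟩
    obtain ⟨y', ⟨h7, h8⟩, -⟩ := hc.right y hy.1
    obtain rfl := hu y' ⟨h7, (h y y' b b' hy.1 h7 hb h1 h8 h2).1 hy.2⟩
    exact hu' y ⟨hy.1, h8⟩

theorem RelBij.congr {α β : Type*} {P P' : α → Prop} {Q Q' : β → Prop} {R : α → β → Prop}
    (h : RelBij P Q R) (hP : ∀ a, P a ↔ P' a) (hQ : ∀ b, Q b ↔ Q' b) : RelBij P' Q' R := by
  rwa [← (funext fun a => propext (hP a) : P = P'), ← (funext fun a => propext (hQ a) : Q = Q')]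

section AllInv

variable {G S : Type*} [Group G] [Finite G] [Group S] {φ : S →* MulAut G}

/-- If `S` acts trivially on `G / N` and fixes the invariant `θ`, it fixes everything over `θ`. -/
theorem isInv_of_over (hcop : (Nat.card G).Coprime (Nat.card S)) (N : Subgroup G) [hNn : N.Normal]
    (hN : ∀ s, ∀ g ∈ N, φ s g ∈ N) (htriv : ∀ s g, g⁻¹ * φ s g ∈ N) {θ : N → ℂ}
    (hθ : IsIrrCharacter N θ) (hθi : IsInv (restrictAut φ N hN) θ)
    (hinv : ∀ g, InvBy N.subtype θ g) {χ : G → ℂ} (hχ : IsIrrCharacter G χ)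
    (ho : Over N.subtype χ θ) : IsInv φ χ := by
  intro s g
  have hz : Subgroup.zpowers g ≤ Subgroup.normalizer (N : Set G) := fun x _ =>
    Subgroup.le_normalizer_of_normal (Subgroup.mem_top x)
  set U := N ⊔ Subgroup.zpowers g with hU
  have hNU : N ≤ U := le_sup_left
  have hUi : ∀ s, ∀ x ∈ U, φ s x ∈ U := fun s x hx => by
    have := U.mul_mem hx (hNU (htriv s x))
    rwa [mul_inv_cancel_left] at this
  have := Fintype.ofFinite U
  have := Fintype.ofFinite (N.subgroupOf U)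
  have hab : ⁅U, U⁆ ≤ N := commutator_sup_le_of_le hz (by
    rw [Subgroup.commutator_le]
    rintro _ ⟨m, rfl⟩ _ ⟨n, rfl⟩
    rw [commutatorElement_eq_one_iff_commute.2 (Commute.zpow_zpow_self g m n)]
    exact N.one_mem)
  have hab' := commutator_le_range_inclusion hNU hab
  let f := Subgroup.subgroupOfEquivOfLe hNU
  obtain ⟨ψ₀, h1, h2, h3⟩ := exists_isInv_over_of_comm (φ := restrictAut φ U hUi) (N.subgroupOf U)
    (fun s x hx => hN s x hx) ⊥ (fun s hs => ⟨1, fun g => by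
      rw [Subgroup.mem_bot.1 hs, map_one]; simp⟩)
    (by
      rw [Subgroup.index_bot]
      exact (hcop.symm.coprime_dvd_right ((Subgroup.index_dvd_card _).trans
        (Subgroup.card_subgroup_dvd_card U))))
    (by rwa [Subgroup.inclusion_range] at hab') (hθ.comp_equiv f) (fun s n => hθi s (f n))
  have h4 : Over (Subgroup.inclusion hNU) ψ₀ θ :=
    (Over.congr f (fun _ => rfl) (fun _ => rfl)).1 (over_subtype_iff.2 h3)
  have hn := normal_range_inclusion hNU fun x _ =>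
    Subgroup.le_normalizer_of_normal (Subgroup.mem_top x)
  have hgU : g ∈ U := Subgroup.mem_sup_right (Subgroup.mem_zpowers g)
  have key : ∀ ψ : IrrCharacter U, classInner (fun u : U => χ u) ψ.1 *
      ψ.1 (restrictAut φ U hUi s ⟨g, hgU⟩) = classInner (fun u : U => χ u) ψ.1 * ψ.1 ⟨g, hgU⟩ := by
    intro ψ
    by_cases h : Over U.subtype χ ψ.1
    · have h5 := (over_iff_of_over (k := Subgroup.inclusion hNU) (fun _ => rfl) N.subtype_injective
        (by rw [Subgroup.range_subtype]; exact hNn) hθ hinv hχ ψ.2 h).1 ho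
      obtain ⟨lam, h6, h7⟩ := Over.exists_monoidHom_mul (Subgroup.inclusion_injective _) hn hab' hθ
        h1 ψ.2 h4 h5
      rw [h7]
      simp only [Pi.mul_apply]
      rw [h2 s]
      have : restrictAut φ U hUi s ⟨g, hgU⟩ =
          ⟨g, hgU⟩ * Subgroup.inclusion hNU ⟨_, htriv s g⟩ := Subtype.ext (by simp)
      rw [this, map_mul, h6, mul_one]
    · rw [over_subtype_iff, not_not] at h
      rw [h, zero_mul, zero_mul]
  have h8 := (hχ.isClassFunction.res U).apply_eq_sum_irr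
  exact (h8 (restrictAut φ U hUi s ⟨g, hgU⟩)).trans
    ((Finset.sum_congr rfl fun ψ _ => key ψ).trans (h8 ⟨g, hgU⟩).symm)

end AllInv

section Proj

open Solv
open scoped IsMulCommutative

variable {K S A : Type*} [Group K] [Group S] [Finite S] [Group A]

theorem exists_proj {φ : S →* MulAut K} (hcop : (Nat.card K).Coprime (Nat.card S))
    (hodd : Odd (Nat.card K)) {a : A →* K} (ha : Function.Injective a)
    (hc : ∀ x k, a x * k = k * a x) (hfix : ∀ s x, φ s (a x) = a x)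
    (hfix' : ∀ k, (∀ s, φ s k = k) → k ∈ a.range) (hab : ∀ x y : K, ⁅x, y⁆ ∈ a.range) :
    ∃ f : K → A, (∀ x k, f (a x * k) = x * f k) ∧ (∀ k, f k⁻¹ = (f k)⁻¹) ∧
      (∀ x y, a (f (x * y)) ^ 2 = a (f x) ^ 2 * a (f y) ^ 2 * ⁅y, x⁆⁻¹) ∧
      (∀ s k, f (φ s k) = f k) ∧
      (∀ σ : MulAut K, (∀ s, σ * φ s = φ s * σ) → (∀ x, σ (a x) = a x) → ∀ k, f (σ k) = f k) ∧
      ∀ μ : Subgroup.center K →* ℂˣ, ∀ (z : Subgroup.center K) (w : Subgroup.center K),
        (w : K) = a (f z) → (∀ s (y : Subgroup.center K), (y : K) = φ s z → μ y = μ z) →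
        μ z ^ Nat.card S = μ w ^ Nat.card S := by
  have := Fintype.ofFinite S
  have : OddClassTwo K := ⟨hodd, fun x y z => by
    obtain ⟨c, hc'⟩ := hab x y
    rw [← hc']; exact hc c z⟩
  let N : Baer K →* Baer K := ∏ s, (Baer.aut (φ s)).toMonoidHom
  have hN : ∀ x, N x = ∏ s, Baer.aut (φ s) x := fun x => MonoidHom.finsetProd_apply _ _ _
  obtain ⟨m, hm'⟩ : ∃ m : ℤ, ∀ x : Baer K, (x ^ Nat.card S) ^ m = x :=
    ⟨_, (powCoprime (G := Baer K) hcop).left_inv⟩
  have hN1 : ∀ t x, Baer.aut (φ t) (N x) = N x := fun t x => by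
    rw [hN, map_prod, ← Equiv.prod_comp (Equiv.mulLeft t) fun s => Baer.aut (φ s) x]
    simp
  have hN2 : ∀ t x, N (Baer.aut (φ t) x) = N x := fun t x => by
    rw [hN, hN, ← Equiv.prod_comp (Equiv.mulRight t) fun s => Baer.aut (φ s) x]
    simp
  have hN3 : ∀ x, N (Baer.of (a x)) = Baer.of (a x) ^ Nat.card S := fun x => by
    rw [hN]; simp [hfix]
  have hex : ∀ k, ∃ x, Baer.of (a x) = N (Baer.of k) ^ m := fun k => by
    obtain ⟨x, hx⟩ := hfix' (Baer.of.symm (N (Baer.of k) ^ m)) fun s => by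
      apply Baer.of.injective
      rw [← Baer.aut_of, Equiv.apply_symm_apply, map_zpow, hN1]
    exact ⟨x, by rw [hx, Equiv.apply_symm_apply]⟩
  choose f hf using hex
  have hinj : ∀ {x y}, Baer.of (a x) = Baer.of (a y) → x = y := fun h => ha (Baer.of.injective h)
  have f1 : ∀ x k, f (a x * k) = x * f k := fun x k => hinj (by
    rw [hf, map_mul a, Baer.of_mul_of_commute (hc x k), Baer.of_mul_of_commute (hc x _), map_mul,
      mul_zpow, hN3, hm', hf])
  refine ⟨f, f1, fun k => hinj ?_, fun x y => ?_, fun s k => hinj ?_, fun σ h1 h2 k => hinj ?_,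
    fun μ z w hw hz => ?_⟩
  · rw [hf, map_inv a, Baer.of_inv, Baer.of_inv, map_inv, inv_zpow, hf]
  · obtain ⟨c, hc'⟩ := hab y x
    have h1 : c ^ Baer.half K * f (x * y) = f x * f y := hinj (by
      rw [← f1, hf, map_pow, hc', map_mul a, Baer.of_mul_of_commute (hc (f x) _), hf, hf, ← mul_zpow,
        ← map_mul, Baer.of_mul_of, ← hc', ← map_pow, hc])
    have h2 : ⁅y, x⁆ ^ Baer.half K * ⁅y, x⁆ ^ Baer.half K = ⁅y, x⁆ :=
      congrArg Subtype.val (Baer.pow_half_mul_pow_half (Baer.cc y x))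
    have h3 := congrArg a h1
    rw [map_mul, map_mul, map_pow, hc'] at h3
    rw [← (show Commute (a (f x)) (a (f y)) from hc _ _).mul_pow, ← h3,
      (show Commute (⁅y, x⁆ ^ Baer.half K) (a (f (x * y))) from (hc _ _).symm).mul_pow, pow_two
      (⁅y, x⁆ ^ _), h2, ← map_pow, ← hc, mul_inv_cancel_right]
  · rw [hf, hf, ← Baer.aut_of, hN2]
  · rw [hf, ← h2, ← Baer.aut_of, ← Baer.aut_of, hf, map_zpow, hN, hN, map_prod]
    congr 1
    refine Finset.prod_congr rfl fun s _ => ?_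
    rw [← MulAut.mul_apply, ← MulAut.mul_apply, ← map_mul, ← map_mul, h1]
  · let j : Subgroup.center K →* Baer K :=
      { toFun := fun y => Baer.of (y : K)
        map_one' := rfl
        map_mul' := fun y y' => Baer.of_mul_of_commute (Subgroup.mem_center_iff.1 y'.2 _) }
    have hj : Function.Injective j := fun y y' h => Subtype.ext (Baer.of.injective h)
    have hmem : ∀ s, φ s z ∈ Subgroup.center K := fun s => Subgroup.mem_center_iff.2 fun g => by
      obtain ⟨g, rfl⟩ := (φ s).surjective g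
      rw [← map_mul, ← map_mul, Subgroup.mem_center_iff.1 z.2 g]
    have h1 : ∏ s, (⟨φ s z, hmem s⟩ : Subgroup.center K) = w ^ Nat.card S := hj (by
      rw [map_prod, map_pow]
      change _ = Baer.of (w : K) ^ _
      rw [hw, hf, ← zpow_natCast, zpow_comm, zpow_natCast, hm', hN]
      rfl)
    rw [← map_pow μ w, ← h1, map_prod, Finset.prod_congr rfl fun s _ => hz s _ rfl,
      Finset.prod_const, Finset.card_univ, Nat.card_eq_fintype_card]

end Proj

theorem exists_glue_hom {G H : Type*} [Group G] [Group H] {K : Subgroup G} [hK : K.Normal]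
    (i : H →* G) (hsup : ∀ g, ∃ k : K, ∃ h, g = k * i h) (α : K →* G)
    (h1 : ∀ h (k : K), (k : G) = i h → α k = i h)
    (h2 : ∀ h (k k' : K), (k' : G) = i h * k * (i h)⁻¹ → α k' = i h * α k * (i h)⁻¹) :
    ∃ τ : G →* G, ∀ (k : K) h, τ (k * i h) = α k * i h := by
  choose κ η hκ using hsup
  have wd : ∀ (k k' : K) h h', (k : G) * i h = k' * i h' → α k * i h = α k' * i h' := by
    intro k k' h h' e
    have := h1 (h' * h⁻¹) (k'⁻¹ * k) (by
      rw [map_mul, map_inv, Subgroup.coe_mul, Subgroup.coe_inv, eq_mul_inv_iff_mul_eq, mul_assoc, e,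
        inv_mul_cancel_left])
    rwa [map_mul, map_mul, map_inv, map_inv, eq_mul_inv_iff_mul_eq, mul_assoc,
      inv_mul_eq_iff_eq_mul] at this
  have key : ∀ (k : K) h, α (κ (k * i h)) * i (η (k * i h)) = α k * i h := fun k h =>
    wd _ _ _ _ (hκ _).symm
  refine ⟨MonoidHom.mk' (fun g => α (κ g) * i (η g)) fun g g' => ?_, key⟩
  let c : K := ⟨i (η g) * κ g' * (i (η g))⁻¹, hK.conj_mem _ (κ g').2 _⟩
  have : g * g' = (κ g * c : K) * i (η g * η g') := by
    conv_lhs => rw [hκ g, hκ g']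
    simp [c, mul_assoc]
  rw [this, key, map_mul, map_mul, h2 (η g) (κ g') c rfl]
  simp [mul_assoc]

section Central

variable {G S H A : Type*} [Group G] [Finite G] [Group S] [Finite S] [Group H] [Group A]

omit [Finite S] in
theorem isInv_of_isInv_under {T : Type*} [Group T] {φ : S →* MulAut G}
    {ρ : T →* MulAut G} (hS : (Nat.card G).Coprime (Nat.card S))
    (hT : (Nat.card G).Coprime (Nat.card T)) (hsolv : Group.IsSolvable G) (K : Subgroup G)
    [K.Normal] (hK : ∀ s, ∀ g ∈ K, φ s g ∈ K) (hK' : ∀ s, ∀ g ∈ K, ρ s g ∈ K)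
    (htriv : ∀ s g, g⁻¹ * ρ s g ∈ K) {χ : G → ℂ} (hχ : IsIrrCharacter G χ) (hi : IsInv φ χ)
    (h : ∀ θ, IsIrrCharacter K θ → Over K.subtype χ θ → IsInv (restrictAut φ K hK) θ →
      IsInv (restrictAut ρ K hK') θ ∧ ∀ g, InvBy K.subtype θ g) : IsInv ρ χ := by
  have := Fintype.ofFinite K
  obtain ⟨θ, h1, h2, h3⟩ := exists_isInv_under K hK ⊥ (fun s hs => ⟨1, K.one_mem, fun g => by
      rw [Subgroup.mem_bot.1 hs, map_one]; simp⟩)
    (by rw [Subgroup.index_bot]; exact hS.symm.coprime_dvd_right K.index_dvd_card)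
    (Or.inr inferInstance) hχ hi
  have h4 := over_subtype_iff.2 h3
  exact isInv_of_over hT K hK' htriv h1 (h θ h1 h4 h2).1 (h θ h1 h4 h2).2 hχ h4

theorem eq_of_pow_eq_of_center {K : Type*} [Group K] [Finite K] {n : ℕ}
    (hn : (Nat.card K).Coprime n) (μ : Subgroup.center K →* ℂˣ) {z w : Subgroup.center K}
    (h : μ z ^ n = μ w ^ n) : μ z = μ w := by
  have h1 : (Nat.card (Subgroup.center K)).Coprime n :=
    hn.coprime_dvd_left (Subgroup.card_subgroup_dvd_card _)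
  have h2 : (Nat.card μ.range).Coprime n := h1.coprime_dvd_left (Subgroup.card_range_dvd μ)
  have := h2.pow_left_bijective.1 (a₁ := ⟨μ z, z, rfl⟩) (a₂ := ⟨μ w, w, rfl⟩) (Subtype.ext h)
  exact congrArg Subtype.val this

theorem isaacs_central {φ : S →* MulAut G} (hcop : (Nat.card G).Coprime (Nat.card S))
    (hodd : Odd (Nat.card G)) (hsolv : Group.IsSolvable G) (K : Subgroup G) [hKn : K.Normal]
    (hK : ∀ s, ∀ g ∈ K, φ s g ∈ K) {iH : H →* G} (hH : IsFixedEmb φ iH) {iA : A →* H}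
    (hA : Function.Injective iA) (hc : ∀ x g, iH (iA x) * g = g * iH (iA x))
    (hAK : ∀ x, iH (iA x) ∈ K) (hsup : ∀ g, ∃ k : K, ∃ h, g = k * iH h)
    (hred : ∀ h, iH h ∈ K → h ∈ iA.range)
    (hab : ∀ x ∈ K, ∀ y ∈ K, ⁅x, y⁆ ∈ (iH.comp iA).range) {lam : A →* ℂˣ}
    (hlam : Function.Injective lam) :
    RelBij (fun χ => IsIrrCharacter G χ ∧ IsInv φ χ ∧ Over (iH.comp iA) χ fun x => (lam x : ℂ))
      (fun ψ => IsIrrCharacter H ψ ∧ Over iA ψ fun x => (lam x : ℂ)) (GCor 2 iH) := by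
  classical
  have := Finite.of_injective _ hH.inj
  have := Finite.of_injective _ hA
  have := Fintype.ofFinite H
  have hKG : Nat.card K ∣ Nat.card G := Subgroup.card_subgroup_dvd_card K
  have hcop2 : (Nat.card G).Coprime 2 := hodd.coprime_two_right
  let a : A →* K := (iH.comp iA).codRestrict K hAK
  have ha : Function.Injective a := fun x y h => hA (hH.inj (congrArg Subtype.val h))
  have hca : ∀ x k, a x * k = k * a x := fun x k => Subtype.ext (hc x k)
  have hab' : ∀ x y : K, ⁅x, y⁆ ∈ a.range := fun x y => by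
    obtain ⟨c, hc'⟩ := hab x x.2 y y.2
    exact ⟨c, Subtype.ext hc'⟩
  obtain ⟨f, f1, f2, f3, f4, f5, f6⟩ := exists_proj (φ := restrictAut φ K hK) (a := a)
    (hcop.coprime_dvd_left hKG) (hodd.of_dvd_nat hKG) ha hca
    (fun s x => Subtype.ext (hH.apply s _))
    (fun k hk => by
      obtain ⟨h, hh⟩ := (hH.mem_iff k).2 fun s => congrArg Subtype.val (hk s)
      obtain ⟨x, rfl⟩ := hred h (hh ▸ k.2)
      exact ⟨x, Subtype.ext hh⟩) hab'
  have f0 : f 1 = 1 := by
    have h1 := f3 1 1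
    rw [one_mul, commutatorElement_one_left, inv_one, mul_one, left_eq_mul, ← map_pow] at h1
    exact (hcop2.coprime_dvd_left ((Subgroup.card_dvd_of_injective a ha).trans
      hKG)).pow_left_bijective.1 (by simpa using ha (h1.trans a.map_one.symm))
  have fa : ∀ x, f (a x) = x := fun x => by rw [← mul_one (a x), f1, f0, mul_one]
  let σ : H → MulAut K := fun h => MulAut.conjNormal (iH h)
  have f5' : ∀ h k, f (σ h k) = f k := fun h => f5 (σ h)
    (fun s => MulEquiv.ext fun k => Subtype.ext (by simp [σ, hH.apply]))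
    (fun x => Subtype.ext (by
      change iH h * iH (iA x) * (iH h)⁻¹ = iH (iA x)
      rw [← hc, mul_inv_cancel_right]))
  let τK : K →* K := MonoidHom.mk' (fun k => k⁻¹ * a (f k) ^ 2) fun x y => by
    obtain ⟨c, hc'⟩ := hab' y x
    have e1 : ∀ k, k * ⁅y, x⁆⁻¹ = ⁅y, x⁆⁻¹ * k := fun k => by rw [← hc', ← map_inv, hca]
    rw [f3, e1, ← map_pow, ← map_pow, mul_assoc x⁻¹, ← mul_assoc (a _), hca _ y⁻¹,
      commutatorElement_inv, commutatorElement_def]
    group
  have hτK : ∀ k, τK k = k⁻¹ * a (f k) ^ 2 := fun _ => rfl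
  have fτ : ∀ k, f (τK k) = f k := fun k => by
    rw [hτK, ← map_pow, ← hca, f1, f2, pow_two, mul_inv_cancel_right]
  have hττ : ∀ k, τK (τK k) = k := fun k => by
    rw [hτK (τK k), fτ, hτK, mul_inv_rev, inv_inv, ← map_pow, ← map_inv, hca, map_inv,
      inv_mul_cancel_right]
  obtain ⟨τ₀, hτ₀⟩ := exists_glue_hom iH hsup (K.subtype.comp τK)
    (fun h k e => by
      obtain ⟨x, rfl⟩ := hred h (e ▸ k.2)
      obtain rfl : k = a x := Subtype.ext e
      rw [MonoidHom.comp_apply, hτK, fa, pow_two, inv_mul_cancel_left]; rfl)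
    (fun h k k' e => by
      obtain rfl : k' = σ h k := Subtype.ext e
      rw [MonoidHom.comp_apply, MonoidHom.comp_apply, hτK, hτK, f5', ← map_pow]
      change (iH h * k * (iH h)⁻¹)⁻¹ * iH (iA _) = iH h * ((k : G)⁻¹ * iH (iA _)) * (iH h)⁻¹
      rw [mul_assoc (iH h) (_ * _) (iH h)⁻¹, mul_assoc (k : G)⁻¹, hc]
      group)
  have hτ₀' : ∀ g, τ₀ (τ₀ g) = g := fun g => by
    obtain ⟨k, h, rfl⟩ := hsup g
    rw [hτ₀]
    exact (hτ₀ (τK k) h).trans (by rw [MonoidHom.comp_apply, hττ]; rfl)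
  let τ : MulAut G := { τ₀ with invFun := τ₀, left_inv := hτ₀', right_inv := hτ₀' }
  have hτ : ∀ (k : K) h, τ (k * iH h) = τK k * iH h := hτ₀
  have hτ' : ∀ k : K, τ k = τK k := fun k => by simpa using hτ k 1
  have hτ2 : τ * τ = 1 := MulEquiv.ext hτ₀'
  have hcases : ∀ t : Subgroup.zpowers τ, t = 1 ∨ (t : MulAut G) = τ := by
    rintro ⟨_, n, rfl⟩
    have h2 : τ ^ (2 : ℤ) = 1 := by rw [zpow_two, hτ2]
    rcases Int.even_or_odd' n with ⟨m, rfl | rfl⟩
    · exact Or.inl (Subtype.ext (by simp only [zpow_mul, h2, one_zpow]; rfl))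
    · exact Or.inr (by simp only [zpow_add, zpow_mul, h2, one_zpow, one_mul, zpow_one])
  let ρ := (Subgroup.zpowers τ).subtype
  have hρ : ∀ {P : MulAut G → Prop}, P 1 → P τ → ∀ t, P (ρ t) := fun h1 h2 t => by
    rcases hcases t with rfl | h
    · exact h1
    · rw [show ρ t = τ from h]; exact h2
  have hp2 : IsPGroup 2 (Subgroup.zpowers τ) := fun t => ⟨1, Subtype.ext
    (hρ (P := fun u => u ^ 2 ^ 1 = 1) (one_pow _) (by rw [pow_one, pow_two, hτ2]) t)⟩
  have := Fact.mk Nat.prime_two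
  have hcopρ : (Nat.card G).Coprime (Nat.card (Subgroup.zpowers τ)) := by
    obtain ⟨n, hn⟩ := hp2.exists_card_eq
    rw [hn]; exact hcop2.pow_right n
  have hKρ : ∀ t, ∀ g ∈ K, ρ t g ∈ K := hρ (P := fun u => ∀ g ∈ K, u g ∈ K) (fun _ h => h)
    fun g hg => (hτ' ⟨g, hg⟩) ▸ (τK _).2
  have hfix : IsFixedEmb ρ iH := ⟨hH.inj, fun g => ⟨by
      rintro ⟨h, rfl⟩
      exact hρ (P := fun u => u (iH h) = iH h) rfl (by simpa using hτ 1 h), fun hg => by
      obtain ⟨k, h, rfl⟩ := hsup g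
      have h1 : τ _ = _ := hg ⟨τ, Subgroup.mem_zpowers τ⟩
      rw [hτ, mul_left_inj, ← Subtype.ext_iff, hτK, inv_mul_eq_iff_eq_mul, ← pow_two] at h1
      have h2 := (hcop2.coprime_dvd_left hKG).pow_left_bijective.1 h1
      exact ⟨iA (f k) * h, by rw [map_mul, ← h2, fa]; rfl⟩⟩⟩
  -- the common formula for invariant characters of `K`
  let P : (K → ℂ) → Prop := fun θ =>
    ∀ k, θ k = if k ∈ Subgroup.center K then θ 1 * lam (f k) else 0
  have hP : ∀ θ, IsIrrCharacter K θ → LiesOverLin a lam θ →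
      (∀ μ : Subgroup.center K →* ℂˣ, (∀ z : Subgroup.center K, θ z = θ 1 * μ z) →
        ∀ z w : Subgroup.center K, (w : K) = a (f z) → μ z = μ w) → P θ := by
    intro θ hθ hl hμ k
    split_ifs with hk
    · obtain ⟨μ, h1, -⟩ := hθ.exists_monoidHom_of_le_center le_rfl
      have h2 : a (f k) ∈ Subgroup.center K := Subgroup.mem_center_iff.2 fun g => (hca _ g).symm
      rw [h1 ⟨k, hk⟩, hμ μ h1 ⟨k, hk⟩ ⟨_, h2⟩ rfl, ← h1, hl.apply_ι, mul_comm]
    · rw [Subgroup.mem_center_iff, not_forall] at hk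
      obtain ⟨x, hx⟩ := hk
      obtain ⟨c, hc'⟩ := hab' x k
      refine hθ.isClassFunction.apply_eq_zero_of_commutator (x := x)
        (hθ.center_le_charCenter (Subgroup.mem_center_iff.2 fun g => by rw [← hc', hca])) ?_
      intro h
      rw [hθ.mem_charKer_iff, ← hc', hl.apply_ι, mul_eq_right₀ hθ.apply_one_ne_zero, Units.val_eq_one,
        ← lam.map_one] at h
      rw [hlam h, map_one, eq_comm, commutatorElement_eq_one_iff_mul_comm] at hc'
      exact hx hc'
  have hPinv : ∀ θ, P θ → ∀ u : MulAut K, (∀ k, f (u k) = f k) → ∀ k, θ (u k) = θ k := by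
    intro θ hθ u hu k
    have : u k ∈ Subgroup.center K ↔ k ∈ Subgroup.center K := by
      rw [Subgroup.mem_center_iff, Subgroup.mem_center_iff, u.surjective.forall]
      simp only [← map_mul, u.injective.eq_iff]
    rw [hθ (u k), hθ k, hu]
    simp only [this]
  have hPG : ∀ θ, IsIrrCharacter K θ → P θ → ∀ g, InvBy K.subtype θ g := by
    intro θ hθ h g
    obtain ⟨k, x, rfl⟩ := hsup g
    refine (invBy_of_mem K.subtype_injective hθ.isClassFunction k).mul (fun n n' e => ?_)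
      fun n => ⟨σ x n, rfl⟩
    obtain rfl : n' = σ x n := Subtype.ext e
    exact hPinv θ h _ (f5' x) n
  have hover : ∀ χ θ, IsIrrCharacter G χ → (Over (iH.comp iA) χ fun x => (lam x : ℂ)) →
      IsIrrCharacter K θ → Over K.subtype χ θ → LiesOverLin a lam θ := by
    intro χ θ hχ ho hθ ho'
    have := Fintype.ofFinite K
    have h1 := (over_iff_liesOverLin hc hχ).1 ho
    exact LiesOverLin.of_classInner_ne_zero (β := fun k : K => χ k) (fun x k => h1 x k) hca hθ
      (over_subtype_iff.1 ho')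
  have hiff : ∀ χ, IsIrrCharacter G χ → (Over (iH.comp iA) χ fun x => (lam x : ℂ)) →
      (IsInv φ χ ↔ IsInv ρ χ) := by
    intro χ hχ ho
    refine ⟨fun hi => isInv_of_isInv_under hcop hcopρ hsolv K hK hKρ ?_ hχ hi fun θ hθ h1 h2 => ?_,
      fun hi => isInv_of_isInv_under hcopρ hcop hsolv K hKρ hK ?_ hχ hi fun θ hθ h1 h2 => ?_⟩
    · refine hρ (P := fun u => ∀ g, g⁻¹ * u g ∈ K) (fun g => by simp) fun g => ?_
      obtain ⟨k, h, rfl⟩ := hsup g
      have := hKn.conj_mem _ (k⁻¹ * τK k).2 (iH h)⁻¹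
      rw [hτ]
      simpa [mul_assoc] using this
    · have h3 : P θ := hP θ hθ (hover χ θ hχ ho hθ h1) fun μ hμ z w hw =>
        eq_of_pow_eq_of_center (hcop.coprime_dvd_left hKG) μ (f6 μ z w hw fun s y hy => by
          have h4 := h2 s z
          rw [← hy, hμ, hμ, mul_right_inj' hθ.apply_one_ne_zero] at h4
          exact Units.ext h4)
      refine ⟨fun t => hPinv θ h3 _ fun k => ?_, hPG θ hθ h3⟩
      rcases hcases t with rfl | h
      · rw [map_one]; rfl
      · have : restrictAut ρ K hKρ t k = τK k := Subtype.ext (by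
          rw [coe_restrictAut_apply, ← hτ', show ρ t = τ from h])
        rw [this, fτ]
    · intro s g
      obtain ⟨k, h, rfl⟩ := hsup g
      have := hKn.conj_mem _ (K.mul_mem (K.inv_mem k.2) (hK s k k.2)) (iH h)⁻¹
      rw [map_mul, hH.apply]
      simpa [mul_assoc] using this
    · have h3 : P θ := hP θ hθ (hover χ θ hχ ho hθ h1) fun μ hμ z w hw =>
        eq_of_pow_eq_of_center (hcop2.coprime_dvd_left hKG) μ (by
          have h4 := h2 ⟨τ, Subgroup.mem_zpowers τ⟩ z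
          have h5 : restrictAut ρ K hKρ ⟨τ, Subgroup.mem_zpowers τ⟩ z = (z⁻¹ * w ^ 2 : _) := by
            rw [Subgroup.coe_mul, Subgroup.coe_inv, Subgroup.coe_pow, hw, ← hτK]
            exact Subtype.ext (hτ' z)
          rw [h5, hμ, hμ,
            mul_right_inj' hθ.apply_one_ne_zero, Units.val_inj, map_mul, map_inv, map_pow,
            inv_mul_eq_iff_eq_mul, ← pow_two] at h4
          exact h4.symm)
      exact ⟨fun s => hPinv θ h3 _ (f4 s), hPG θ hθ h3⟩
  have hG2 : ¬ 2 ∣ Nat.card G := hodd.not_two_dvd_nat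
  have hlam' : IsIrrCharacter A fun x => (lam x : ℂ) := isIrrCharacter_monoidHom lam
  have hov : ∀ χ ψ, IsIrrCharacter G χ → IsIrrCharacter H ψ → GCor 2 iH χ ψ →
      ((Over (iH.comp iA) χ fun x => (lam x : ℂ)) ↔ Over iA ψ fun x => (lam x : ℂ)) :=
    fun χ ψ hχ hψ h => over_iff_of_over (k := iA) (fun _ => rfl) (hH.inj.comp hA)
      ⟨by
        rintro _ ⟨x, rfl⟩ g
        exact ⟨x, by rw [MonoidHom.comp_apply, ← hc, mul_inv_cancel_right]⟩⟩ hlam'
      (fun g n n' e => by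
        rw [MonoidHom.comp_apply, MonoidHom.comp_apply, ← hc, mul_inv_cancel_right] at e
        rw [hA (hH.inj e)]) hχ hψ h.over
  refine ⟨fun χ ⟨h1, h2, h3⟩ => ?_, fun ψ ⟨h1, h2⟩ => ?_⟩
  · obtain ⟨ψ, h4, h5⟩ := glauberman_exists iH hG2 h1
    have h6 := (gcor_iff h1.isCharacter h4.isCharacter).2 h5
    exact ⟨ψ, ⟨⟨h4, (hov χ ψ h1 h4 h6).1 h3⟩, h6⟩, fun ψ' ⟨⟨h7, _⟩, h8⟩ =>
      glauberman_unique hp2 hfix hG2 h1 ((hiff χ h1 h3).1 h2) h7 h4
        ((gcor_iff h1.isCharacter h7.isCharacter).1 h8) h5⟩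
  · obtain ⟨χ, h3, h4, h5⟩ := glauberman_surj hp2 hfix hG2 h1
    have h6 := (gcor_iff h3.isCharacter h1.isCharacter).2 h5
    have h7 := (hov χ ψ h3 h1 h6).2 h2
    exact ⟨χ, ⟨⟨h3, (hiff χ h3 h7).2 h4, h7⟩, h6⟩, fun χ' ⟨⟨h8, h9, h10⟩, h11⟩ =>
      glauberman_inj hp2 hfix hG2 h8 h3 ((hiff χ' h8 h10).1 h9) h4 h1
        ((gcor_iff h8.isCharacter h1.isCharacter).1 h11) h5⟩

end Central

end Cfsg.Lib.Char
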