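import Cfsg.Agent.Char.DegBasic
import Cfsg.Agent.S0153
import Cfsg.Agent.S0163

/-! Characters afforded by representations over a subfield of `ℂ`; Brauer's splitting field
theorem. -/

set_option autoImplicit false

open Cfsg
open scoped ComplexConjugate

namespace Cfsg.Lib.Char

variable (K : Type) [Field K] [Algebra K ℂ] {G : Type*} [Group G]

/-- `φ` is the character of a representation over `K`. -/
def AffordedOver (φ : G → ℂ) : Prop :=
  ∃ (n : ℕ) (τ : Representation K G (Fin n → K)), φ = fun g => algebraMap K ℂ (τ.character g)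

/-- `φ` is the character of an irreducible representation over `K`. -/
def IrrAffordedOver (φ : G → ℂ) : Prop :=
  ∃ (V : Type) (_ : AddCommGroup V) (_ : Module K V) (_ : FiniteDimensional K V)
    (τ : Representation K G V), τ.IsIrreducible ∧ φ = fun g => algebraMap K ℂ (τ.character g)

variable {K}

theorem affordedOver_rep {V : Type*} [AddCommGroup V] [Module K V] [FiniteDimensional K V]
    (τ : Representation K G V) : AffordedOver K fun g => algebraMap K ℂ (τ.character g) :=
  ⟨_, (Module.finBasis K V).equivFun.conjRingEquiv.toRingHom.toMonoidHom.comp τ,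
    funext fun g => congrArg _ (LinearMap.trace_conj' (τ g) (Module.finBasis K V).equivFun).symm⟩

theorem IrrAffordedOver.affordedOver {φ : G → ℂ} (h : IrrAffordedOver K φ) : AffordedOver K φ := by
  obtain ⟨V, _, _, _, τ, -, rfl⟩ := h
  exact affordedOver_rep τ

/-- Extension of scalars of a matrix representation. -/
noncomputable def repExtend {n : ℕ} (τ : Representation K G (Fin n → K)) :
    Representation ℂ G (Fin n → ℂ) :=
  ((Matrix.toLinAlgEquiv' (R := ℂ) (n := Fin n)).toRingEquiv.toRingHom.toMonoidHom.comp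
    ((algebraMap K ℂ).mapMatrix.toMonoidHom.comp
      (LinearMap.toMatrixAlgEquiv' (R := K) (n := Fin n)).toRingEquiv.toRingHom.toMonoidHom)).comp τ

theorem toMatrix'_repExtend {n : ℕ} (τ : Representation K G (Fin n → K)) (g : G) :
    LinearMap.toMatrix' (repExtend τ g) = (LinearMap.toMatrix' (τ g)).map (algebraMap K ℂ) :=
  LinearMap.toMatrix'_toLin' _

theorem character_repExtend {n : ℕ} (τ : Representation K G (Fin n → K)) (g : G) :
    (repExtend τ).character g = algebraMap K ℂ (τ.character g) := by
  rw [Representation.character, Representation.character, ← Matrix.toLin'_toMatrix' (τ g),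
    ← Matrix.toLin'_toMatrix' (repExtend τ g), Matrix.trace_toLin'_eq, Matrix.trace_toLin'_eq,
    toMatrix'_repExtend, AddMonoidHom.map_trace]

theorem AffordedOver.isCharacter {φ : G → ℂ} (h : AffordedOver K φ) : IsCharacter G φ := by
  obtain ⟨n, τ, rfl⟩ := h
  exact ⟨n, repExtend τ, funext (character_repExtend τ)⟩

theorem affordedOver_zero : AffordedOver K (0 : G → ℂ) :=
  ⟨0, 1, funext fun g => by simp [Representation.character]⟩

theorem AffordedOver.add {φ ψ : G → ℂ} (h : AffordedOver K φ) (h' : AffordedOver K ψ) :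
    AffordedOver K (φ + ψ) := by
  obtain ⟨n, τ, rfl⟩ := h
  obtain ⟨m, σ, rfl⟩ := h'
  convert affordedOver_rep (τ.prod σ) using 1
  funext g
  rw [Pi.add_apply, ← map_add]
  exact congrArg _ (LinearMap.trace_prodMap' (τ g) (σ g)).symm

theorem affordedOver_indFun [Fintype G] (H : Subgroup G) (lam : H →* K) :
    AffordedOver K (indFun H fun h => algebraMap K ℂ (lam h)) := by
  classical
  have := Fintype.ofFinite (G ⧸ H)
  let f : G → K := fun x => if h : x ∈ H then lam ⟨x, h⟩ else 0
  have hf : ∀ x y, x ∈ H → f (x * y) = f x * f y := by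
    intro x y hx
    by_cases hy : y ∈ H
    · simp only [f, dif_pos hx, dif_pos hy, dif_pos (H.mul_mem hx hy), ← map_mul]
      rfl
    · simp only [f, dif_neg hy, dif_neg (mt (H.mul_mem_cancel_left hx).1 hy), mul_zero]
  let M : G →* Matrix (G ⧸ H) (G ⧸ H) K :=
    { toFun := fun g => Matrix.of fun a b => f (a.out⁻¹ * g * b.out)
      map_one' := by
        ext a b
        by_cases hab : a = b
        · subst hab
          simp only [f, Matrix.of_apply, mul_one, inv_mul_cancel, dif_pos H.one_mem,
            Matrix.one_apply_eq]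
          exact lam.map_one
        · rw [Matrix.of_apply, mul_one, Matrix.one_apply_ne hab]
          exact dif_neg fun h => hab (by simpa using QuotientGroup.eq.2 h)
      map_mul' := fun g h => by
        ext a c
        have h1 : ∀ b : G ⧸ H, a.out⁻¹ * g * b.out ∈ H ↔ b = ((g⁻¹ * a.out : G) : G ⧸ H) := by
          intro b
          rw [eq_comm]
          conv_rhs => rw [← b.out_eq]
          exact (QuotientGroup.eq.trans (by simp)).symm
        rw [Matrix.mul_apply, Finset.sum_eq_single ((g⁻¹ * a.out : G) : G ⧸ H)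
          (fun b _ hb => by
            rw [Matrix.of_apply, show f _ = 0 from dif_neg (mt (h1 b).1 hb), zero_mul]) (by simp),
          Matrix.of_apply, Matrix.of_apply, Matrix.of_apply, ← hf _ _ ((h1 _).2 rfl)]
        simp [mul_assoc] }
  convert affordedOver_rep
    ((Matrix.toLinAlgEquiv' (R := K) (n := G ⧸ H)).toRingEquiv.toRingHom.toMonoidHom.comp M) using 1
  funext g
  rw [indFun_eq_sum_cosets H (fun a b => by
    rw [map_mul lam, map_mul lam, mul_right_comm, ← map_mul lam]; simp)]
  refine Eq.trans ?_ (congrArg _ (Matrix.trace_toLin'_eq (M g)).symm)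
  rw [Matrix.trace, map_sum]
  refine Finset.sum_congr rfl fun a _ => ?_
  rw [extendByZero_eq_dite]
  change _ = algebraMap K ℂ (f _)
  simp only [f]
  split_ifs <;> simp

variable [Finite G]

theorem mem_closure_irrAffordedOver (n : ℕ) : ∀ {V : Type} [AddCommGroup V] [Module K V]
    [FiniteDimensional K V] (τ : Representation K G V), Module.finrank K V = n →
    (fun g => algebraMap K ℂ (τ.character g)) ∈
      AddSubgroup.closure {φ : G → ℂ | IrrAffordedOver K φ} := by
  induction n using Nat.strong_induction_on with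
  | _ n ih =>
  intro V _ _ _ ρ hn
  by_cases hirr : ρ.IsIrreducible
  · exact AddSubgroup.subset_closure ⟨V, _, _, inferInstance, ρ, hirr, rfl⟩
  rcases subsingleton_or_nontrivial V with hV | hV
  · convert AddSubgroup.zero_mem _ using 1
    funext g
    simp [Representation.character, Subsingleton.elim (ρ g) 0]
  have : Nontrivial (Subrepresentation ρ) :=
    ⟨⟨⊥, ⊤, fun h => (bot_ne_top (α := Submodule K V)) (congrArg Subrepresentation.toSubmodule h)⟩⟩
  obtain ⟨W, hb, ht⟩ : ∃ W : Subrepresentation ρ, W ≠ ⊥ ∧ W ≠ ⊤ := by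
    by_contra hcon
    exact hirr ⟨fun W => by by_contra h; exact hcon ⟨W, by tauto, by tauto⟩⟩
  have : CharZero K := (algebraMap K ℂ).charZero
  have : NeZero (Nat.card G : K) := ⟨by exact_mod_cast (Nat.card_pos (α := G)).ne'⟩
  obtain ⟨W', hW'⟩ := exists_isCompl W
  have h' : IsCompl W.toSubmodule W'.toSubmodule := by
    refine ⟨disjoint_iff.2 ?_, codisjoint_iff.2 ?_⟩
    · exact congrArg Subrepresentation.toSubmodule (disjoint_iff.1 hW'.1)
    · exact congrArg Subrepresentation.toSubmodule (codisjoint_iff.1 hW'.2)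
  have ht' : W'.toSubmodule ≠ ⊤ := by
    intro h
    rw [h] at h'
    exact hb (Subrepresentation.toSubmodule_injective (disjoint_top.1 h'.disjoint))
  convert add_mem (ih _ (hn ▸ Submodule.finrank_lt fun h =>
      ht (Subrepresentation.toSubmodule_injective h)) W.toRepresentation rfl)
    (ih _ (hn ▸ Submodule.finrank_lt ht') W'.toRepresentation rfl) using 1
  funext g
  rw [Pi.add_apply, ← map_add]
  congr 1
  refine Eq.trans ?_ (LinearMap.trace_prodMap' (W.toRepresentation g) (W'.toRepresentation g))
  refine (congrFun (Representation.char_iso (ρ := W.toRepresentation.prod W'.toRepresentation)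
    (Representation.Equiv.mk (Submodule.prodEquivOfIsCompl _ _ h') fun g => ?_)) g).symm
  ext v <;> simp [Representation.prod, Subrepresentation.toRepresentation]

theorem AffordedOver.mem_closure {φ : G → ℂ} (h : AffordedOver K φ) :
    φ ∈ AddSubgroup.closure {φ : G → ℂ | IrrAffordedOver K φ} := by
  obtain ⟨n, τ, rfl⟩ := h
  exact mem_closure_irrAffordedOver _ τ rfl

theorem IrrAffordedOver.classInner_of_ne [Fintype G] {φ ψ : G → ℂ} (h : IrrAffordedOver K φ)
    (h' : IrrAffordedOver K ψ) (hne : φ ≠ ψ) : classInner φ ψ = 0 := by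
  have hψ := h'.affordedOver.isCharacter
  obtain ⟨V, _, _, _, τ, hτ, rfl⟩ := h
  obtain ⟨W, _, _, _, σ, hσ, rfl⟩ := h'
  have : CharZero K := (algebraMap K ℂ).charZero
  have : Invertible (Nat.card G : K) :=
    invertibleOfNonzero (by exact_mod_cast (Nat.card_pos (α := G)).ne')
  have : IsEmpty (σ.Equiv τ) := ⟨fun e => hne (by rw [Representation.char_iso e])⟩
  have h1 := congrArg (algebraMap K ℂ) (Representation.card_inv_mul_sum_char_mul_char_eq_finrank σ τ)
  rw [Module.finrank_eq_zero_of_subsingleton] at h1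
  simp only [classInner, ← hψ.apply_inv]
  simpa using h1

/-- An irreducible character in the span of the characters over `K` is afforded over `K`. -/
theorem affordedOver_of_mem_closure {χ : G → ℂ} (hχ : IsIrrCharacter G χ)
    (h : χ ∈ AddSubgroup.closure {φ : G → ℂ | AffordedOver K φ}) : AffordedOver K χ := by
  classical
  have := Fintype.ofFinite G
  replace h : χ ∈ AddSubgroup.closure {φ : G → ℂ | IrrAffordedOver K φ} :=
    (AddSubgroup.closure_le _).2 (fun φ hφ => AffordedOver.mem_closure hφ) h
  obtain ⟨s, hs, hne⟩ : ∃ s, IrrAffordedOver K s ∧ classInner s χ ≠ 0 := by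
    by_contra hcon
    push Not at hcon
    have h1 : ∀ f ∈ AddSubgroup.closure {φ : G → ℂ | IrrAffordedOver K φ}, classInner f χ = 0 := by
      intro f hf
      induction hf using AddSubgroup.closure_induction with
      | mem f hf => exact hcon f hf
      | zero => exact classInner_zero_left _
      | add f g _ _ h1 h2 => rw [classInner_add_left, h1, h2, add_zero]
      | neg f _ h1 => rw [classInner_neg_left, h1, neg_zero]
    exact one_ne_zero (hχ.classInner_self.symm.trans (h1 χ h))
  have h1 : ∀ f ∈ AddSubgroup.closure {φ : G → ℂ | IrrAffordedOver K φ},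
      ∃ n : ℤ, classInner f s = n * classInner s s := by
    intro f hf
    induction hf using AddSubgroup.closure_induction with
    | mem f hf =>
      by_cases h2 : f = s
      · exact ⟨1, by simp [h2]⟩
      · exact ⟨0, by simp [hf.classInner_of_ne hs h2]⟩
    | zero => exact ⟨0, by simp⟩
    | add f g _ _ h1 h2 =>
      obtain ⟨a, ha⟩ := h1
      obtain ⟨b, hb⟩ := h2
      exact ⟨a + b, by rw [classInner_add_left, ha, hb, Int.cast_add, add_mul]⟩
    | neg f _ h1 =>
      obtain ⟨a, ha⟩ := h1
      exact ⟨-a, by rw [classInner_neg_left, ha, Int.cast_neg, neg_mul]⟩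
  have hsc := hs.affordedOver.isCharacter
  obtain ⟨n, hn⟩ := h1 χ h
  obtain ⟨c, hc, -, hc2⟩ := hsc.exists_nat_multiplicity
  rw [hχ.isGeneralizedCharacter.classInner_comm hsc.isGeneralizedCharacter, hc ⟨χ, hχ⟩, hc2] at hn
  have h2 : c ⟨χ, hχ⟩ ^ 2 ≤ ∑ ψ, c ψ ^ 2 :=
    Finset.single_le_sum (f := fun ψ => c ψ ^ 2) (fun _ _ => Nat.zero_le _) (Finset.mem_univ _)
  have h3 : c ⟨χ, hχ⟩ ≠ 0 := fun h0 => hne (by rw [hc ⟨χ, hχ⟩, h0, Nat.cast_zero])
  have h4 : (∑ ψ, c ψ ^ 2) ∣ c ⟨χ, hχ⟩ :=
    Int.natCast_dvd_natCast.1 ⟨n, by rw [mul_comm]; exact_mod_cast hn⟩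
  have h5 := Nat.le_of_dvd (Nat.pos_of_ne_zero h3) h4
  have h6 : ∑ ψ, c ψ ^ 2 = 1 := by
    have : c ⟨χ, hχ⟩ = 1 := by nlinarith [Nat.pos_of_ne_zero h3]
    rw [this] at h2 h5
    omega
  rw [h6, Nat.cast_one] at hc2
  rw [← (hsc.isIrrCharacter_of_classInner_self hc2).eq_of_classInner_ne_zero hχ hne]
  exact hs.affordedOver

/-- Brauer's splitting field theorem: if `K` contains all roots of unity of order dividing the
exponent of `G`, every character of `G` is afforded over `K`. -/
theorem affordedOver_of_roots (hK : ∀ z : ℂ, z ^ Monoid.exponent G = 1 → z ∈ (algebraMap K ℂ).range)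
    {χ : G → ℂ} (hχ : IsCharacter G χ) : AffordedOver K χ := by
  classical
  have := Fintype.ofFinite G
  refine hχ.induction_on affordedOver_zero fun ψ θ hψ _ h => AffordedOver.add ?_ h
  refine affordedOver_of_mem_closure hψ ?_
  obtain ⟨l, -, hl⟩ := Cfsg.Agent.S0163.result ψ hψ.isCharacter
  rw [hl]
  refine list_sum_mem fun f hf => ?_
  obtain ⟨⟨E, lam, n⟩, -, rfl⟩ := List.mem_map.1 hf
  rw [Int.cast_smul_eq_zsmul]
  refine zsmul_mem (AddSubgroup.subset_closure ?_) n
  have h1 : ∀ e : E, (lam e : ℂ) ∈ (algebraMap K ℂ).range := fun e => hK _ (by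
    rw [← Units.val_pow_eq_pow_val, ← map_pow, show e ^ Monoid.exponent G = 1 from
      Subtype.ext (Monoid.pow_exponent_eq_one (e : G)), map_one, Units.val_one])
  choose f hf using h1
  have hi := (algebraMap K ℂ).injective
  have h2 := affordedOver_indFun E
    { toFun := f
      map_one' := hi (by rw [hf]; simp)
      map_mul' := fun a b => hi (by rw [map_mul, hf, hf, hf]; simp) }
  simp only [MonoidHom.coe_mk, OneHom.coe_mk, hf] at h2
  exact h2

end Cfsg.Lib.Char
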