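import Cfsg.Agent.Char.TI
import Cfsg.Agent.Char.OrbitCount

/-!
# TI subgroups with Frobenius normalizer: elementary facts
-/

set_option autoImplicit false

namespace Cfsg.Lib.Char

open Cfsg

variable {G : Type*} [Group G]

/-- If `K` contains the centralizer of each of its non-identity elements and `x ∉ K` normalizes
`K`, then the order of `x` divides `|K| - 1`. -/
theorem orderOf_dvd_card_sub_one_of_centralizer_le [Finite G] (K : Subgroup G) {x : G}
    (hxN : x ∈ Subgroup.normalizer (K : Set G)) (hxK : x ∉ K)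
    (hC : ∀ k ∈ K, k ≠ 1 → ∀ g ∈ Subgroup.zpowers x, g * k = k * g → g ∈ K) :
    orderOf x ∣ Nat.card K - 1 := by
  have h := relIndex_dvd_card_of_centralizer ⊥ (Subgroup.zpowers x) ((K : Set G) \ {1})
    (fun g hg s hs => ⟨(Subgroup.mem_normalizer_iff.1 (Subgroup.zpowers_le.2 hxN hg) s).1 hs.1,
      fun h => hs.2 (by simpa using h)⟩) (fun s hs g hg => by
        rw [Subgroup.mem_bot, mul_inv_eq_iff_eq_mul]
        refine ⟨fun h => ?_, fun h => by simp [h]⟩
        by_contra hg1
        have hgK : g ∈ K := hC s hs.1 hs.2 g hg h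
        refine hxK (hC g hgK hg1 x (Subgroup.mem_zpowers x) ?_)
        obtain ⟨n, rfl⟩ := Subgroup.mem_zpowers_iff.1 hg
        exact (Commute.self_zpow x n).eq)
  rw [Nat.card_coe_set_eq, Set.ncard_sdiff_singleton_of_mem K.one_mem, Subgroup.relIndex_bot_left,
    Nat.card_zpowers] at h
  exact h

/-- No element of `N(K) \ K` is conjugate to an element of `K`. -/
theorem conj_notMem_of_centralizer_le [Finite G] (K : Subgroup G)
    (hC : ∀ k ∈ K, k ≠ 1 → Subgroup.centralizer ({k} : Set G) ≤ K) {x : G}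
    (hxN : x ∈ Subgroup.normalizer (K : Set G)) (hxK : x ∉ K) (g : G) : g * x * g⁻¹ ∉ K := by
  intro hg
  have h1 := orderOf_dvd_card_sub_one_of_centralizer_le K hxN hxK
    (fun k hk hk1 g _ h => hC k hk hk1 (Subgroup.mem_centralizer_singleton_iff.2 h))
  have h2 : orderOf x ∣ Nat.card K := by
    have := K.orderOf_dvd_natCard hg
    rwa [← MulAut.conj_apply, MulEquiv.orderOf_eq] at this
  have hpos : 0 < Nat.card K := Nat.card_pos
  have h3 : orderOf x ∣ 1 := by
    have := Nat.dvd_sub h2 h1
    rwa [Nat.sub_sub_self hpos] at this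
  rw [Nat.dvd_one, orderOf_eq_one_iff] at h3
  exact hxK (h3 ▸ K.one_mem)

/-- For a TI subgroup with Frobenius normalizer, a class function of the normalizer supported on
`K \ {1}` is the restriction of its induced function. -/
theorem indFun_apply_of_TIFN [Fintype G] (K : Subgroup G)
    (hTI : ∀ g : G, g ∉ Subgroup.normalizer (K : Set G) → ∀ k ∈ K, g * k * g⁻¹ ∈ K → k = 1)
    (hC : ∀ k ∈ K, k ≠ 1 → Subgroup.centralizer ({k} : Set G) ≤ K)
    {θ : Subgroup.normalizer (K : Set G) → ℂ}
    (hθ : IsClassFunction (Subgroup.normalizer (K : Set G)) θ)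
    (hθK : ∀ x : Subgroup.normalizer (K : Set G), (x : G) ∉ K → θ x = 0) (hθ1 : θ 1 = 0)
    (x : Subgroup.normalizer (K : Set G)) :
    indFun (Subgroup.normalizer (K : Set G)) θ x = θ x := by
  by_cases hx : (x : G) ∈ K
  · by_cases hx1 : x = 1
    · subst hx1
      rw [OneMemClass.coe_one, indFun_one, hθ1, mul_zero]
    · exact indFun_apply_of_TI _ K hTI hθ hθK x hx hx1
  · rw [hθK x hx]
    exact indFun_eq_zero_of_support _ θ K hθK (conj_notMem_of_centralizer_le K hC x.2 hx)

end Cfsg.Lib.Char
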