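import Cfsg.Agent.Char.TIFN
import Cfsg.Agent.Char.FrobChar
import Cfsg.Agent.Char.Isometry
import Cfsg.Agent.Char.DegBasic
import Cfsg.Prelude.Def_OddOrderChar

/-! Class functions constant on the non-identity elements of a Frobenius kernel, and coherent
extensions of induction from a Frobenius normalizer. -/

set_option autoImplicit false

open Cfsg
open scoped ComplexConjugate

namespace Cfsg.Lib.Char

section
variable {N : Type*} [Group N] [Fintype N] {K : Subgroup N} [K.Normal]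

omit [K.Normal] in
theorem const_of_classInner {f : N → ℂ} (hf : IsClassFunction N f) {c : ℂ}
    (h : ∀ χ, IsIrrCharacter N χ → ¬ K ≤ charKer χ → classInner f χ = c * χ 1) {k : N}
    (hk : k ∈ K) (hk1 : k ≠ 1) : f k = f 1 - c * Nat.card N := by
  have h1 := sum_irr_degree_mul (G := N) k
  have h2 := sum_irr_degree_mul (G := N) 1
  rw [if_neg hk1] at h1
  rw [if_pos rfl] at h2
  rw [hf.apply_eq_sum_irr k, hf.apply_eq_sum_irr 1, ← h2, ← sub_zero (∑ _, _), ← mul_zero c, ← h1,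
    Finset.mul_sum, Finset.mul_sum, ← Finset.sum_sub_distrib, ← Finset.sum_sub_distrib]
  refine Finset.sum_congr rfl fun χ _ => ?_
  by_cases hχ : K ≤ charKer χ.1
  · rw [apply_of_mem_charKer (hχ hk)]
  · rw [h χ.1 χ.2 hχ]; ring

theorem classInner_of_const (hF : ∀ g : N, g ∉ K → ∀ n ∈ K, n * g = g * n → n = 1) {f : N → ℂ}
    {d : ℂ} (h : ∀ k ∈ K, k ≠ 1 → f k = d) {χ : N → ℂ} (hχ : IsIrrCharacter N χ)
    (hK : ¬ K ≤ charKer χ) : Nat.card N * classInner f χ = (f 1 - d) * χ 1 := by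
  classical
  have h1 : χ ≠ fun _ => 1 := by
    rintro rfl
    exact hK fun _ _ _ => rfl
  have h2 : ∀ x, f x * conj (χ x) = d * conj (χ x) + if x = 1 then (f 1 - d) * χ 1 else 0 := by
    intro x
    split_ifs with hx
    · obtain ⟨n, hn⟩ := hχ.isCharacter.exists_nat_degree
      rw [hx, hn, map_natCast]; ring
    · by_cases hxK : x ∈ K
      · rw [h x hxK hx, add_zero]
      · simp [apply_eq_zero_of_fpf hχ hK (hF x hxK)]
  rw [card_mul_classInner]
  simp only [h2, Finset.sum_add_distrib, ← Finset.mul_sum, ← map_sum, hχ.sum_eq_zero h1]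
  simp

end

section
variable {G : Type*} [Group G] [Fintype G] {N : Subgroup G} [Fintype N] {K : Subgroup N}
  {S : Set (N → ℂ)} {star : (N → ℂ) → G → ℂ}

theorem star_comb (hS : ∀ χ ∈ S, IsCharacter N χ) (hstar : IsLinearIsometryOn (zspan S) star)
    (hext : ∀ α ∈ zspanOn S ({1}ᶜ : Set N), star α = indFun N α) {χ ξ : N → ℂ} (hχ : χ ∈ S)
    (hξ : ξ ∈ S) : ξ 1 • star χ - χ 1 • star ξ = indFun N (ξ 1 • χ - χ 1 • ξ) := by
  obtain ⟨a, ha⟩ := (hS χ hχ).exists_nat_degree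
  obtain ⟨b, hb⟩ := (hS ξ hξ).exists_nat_degree
  have h1 : χ ∈ zspan S := Submodule.subset_span hχ
  have h2 : ξ ∈ zspan S := Submodule.subset_span hξ
  have h3 : (b : ℤ) • χ ∈ zspan S := Submodule.smul_mem _ _ h1
  have h4 : (-a : ℤ) • ξ ∈ zspan S := Submodule.smul_mem _ _ h2
  have h5 := hext ((b : ℤ) • χ + (-a : ℤ) • ξ) ⟨Submodule.add_mem _ h3 h4, fun x hx => by
    obtain rfl : x = 1 := by simpa using hx
    simp [ha, hb, mul_comm]⟩
  rw [hstar.1 _ h3 _ h4, hstar.2.1 _ h1, hstar.2.1 _ h2] at h5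
  rw [ha, hb]
  convert h5 using 1
  · funext x; simp [sub_eq_add_neg]
  · congr 1; funext x; simp [sub_eq_add_neg]

/-- A class function whose inner products with the `star χ` are those of `φ` with the `χ`
agrees with `φ` up to a constant on the non-identity elements of `K`. -/
theorem const_of_star (hS : ∀ χ, χ ∈ S ↔ IsIrrCharacter N χ ∧ ¬ K ≤ charKer χ)
    (hstar : IsLinearIsometryOn (zspan S) star)
    (hext : ∀ α ∈ zspanOn S ({1}ᶜ : Set N), star α = indFun N α) (hne : S.Nonempty) {ψ : G → ℂ}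
    (hψ : IsClassFunction G ψ) {φ : N → ℂ} (hφ : IsClassFunction N φ)
    (h : ∀ χ ∈ S, classInner ψ (star χ) = classInner φ χ) :
    ∃ d : ℂ, ∀ k ∈ K, k ≠ 1 → ψ k - φ k = d := by
  obtain ⟨ξ, hξ⟩ := hne
  refine ⟨_, fun k hk hk1 => const_of_classInner (f := (fun x : N => ψ x) - φ) ((hψ.res N).sub hφ)
    (c := classInner ((fun x : N => ψ x) - φ) ξ / ξ 1) (fun χ h1 h2 => ?_) hk hk1⟩
  have hχ := (hS χ).2 ⟨h1, h2⟩
  have h3 := congrArg (classInner ψ) (star_comb (fun χ h => ((hS χ).1 h).1.isCharacter) hstar hext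
    hχ hξ)
  obtain ⟨a, ha⟩ := h1.isCharacter.exists_nat_degree
  obtain ⟨b, hb0, hb⟩ := ((hS ξ).1 hξ).1.exists_nat_degree_pos
  rw [classInner_indFun_right N _ hψ] at h3
  simp only [classInner_sub_right, classInner_smul_right, h _ hχ, h _ hξ, ha, hb,
    map_natCast] at h3
  have : (b : ℂ) ≠ 0 := by exact_mod_cast hb0.ne'
  rw [classInner_sub_left, classInner_sub_left, ha, hb]
  field_simp
  linear_combination -h3

theorem star_eq_iff_not_const [K.Normal]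
    (hF : ∀ g : N, g ∉ K → ∀ n ∈ K, n * g = g * n → n = 1)
    (hS : ∀ χ, χ ∈ S ↔ IsIrrCharacter N χ ∧ ¬ K ≤ charKer χ) (htwo : ∃ χ ∈ S, ∃ ξ ∈ S, χ ≠ ξ)
    (hstar : IsLinearIsometryOn (zspan S) star)
    (hext : ∀ α ∈ zspanOn S ({1}ᶜ : Set N), star α = indFun N α) {ψ : G → ℂ}
    (hψ : IsIrrCharacter G ψ) : (∃ χ ∈ S, ψ = star χ ∨ ψ = -star χ) ↔
      ¬ ∃ d : ℂ, ∀ k ∈ K, k ≠ 1 → ψ k = d := by
  have hz : ∀ χ ∈ S, χ ∈ zspan S := fun χ h => Submodule.subset_span h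
  obtain ⟨χ₁, h₁, χ₂, h₂, h₁₂⟩ := htwo
  constructor
  · rintro ⟨χ, hχ, h⟩ ⟨d, hd⟩
    obtain ⟨e, he⟩ := const_of_star hS hstar hext ⟨χ, hχ⟩
      (hstar.2.2.2 _ (hz χ hχ)).isClassFunction ((hS χ).1 hχ).1.isClassFunction
      fun ξ hξ => hstar.2.2.1 _ (hz χ hχ) _ (hz ξ hξ)
    obtain ⟨c, hc⟩ : ∃ c : ℂ, ∀ k ∈ K, k ≠ 1 → χ k = c := by
      rcases h with rfl | rfl
      · exact ⟨d - e, fun k hk hk1 => by rw [← hd k hk hk1, ← he k hk hk1]; ring⟩
      · exact ⟨-d - e, fun k hk hk1 => by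
          rw [← hd k hk hk1, ← he k hk hk1, Pi.neg_apply]; ring⟩
    obtain ⟨ξ, hξ, hne⟩ : ∃ ξ ∈ S, χ ≠ ξ := by
      by_cases h : χ = χ₁
      · exact ⟨χ₂, h₂, h ▸ h₁₂⟩
      · exact ⟨χ₁, h₁, h⟩
    have h3 := classInner_of_const hF hc ((hS χ).1 hχ).1 ((hS χ).1 hχ).2
    have h4 := classInner_of_const hF hc ((hS ξ).1 hξ).1 ((hS ξ).1 hξ).2
    rw [((hS χ).1 hχ).1.classInner_of_ne ((hS ξ).1 hξ).1 hne, mul_zero, eq_comm,
      mul_eq_zero, or_iff_left ((hS ξ).1 hξ).1.apply_one_ne_zero] at h4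
    rw [h4, zero_mul, ((hS χ).1 hχ).1.classInner_self, mul_one] at h3
    exact card_ne_zero N h3
  · intro h
    by_contra h'
    push Not at h'
    obtain ⟨d, hd⟩ := const_of_star hS hstar hext ⟨χ₁, h₁⟩ hψ.isClassFunction
      isClassFunction_zero fun χ hχ => by
        rw [classInner_zero_left]
        rcases (hstar.2.2.2 _ (hz χ hχ)).irr_or_neg_irr ((hstar.2.2.1 _ (hz χ hχ) _ (hz χ hχ)).trans
          ((hS χ).1 hχ).1.classInner_self) with h3 | h3
        · exact hψ.classInner_of_ne h3 (h' χ hχ).1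
        · rw [← neg_eq_zero, ← classInner_neg_right]
          exact hψ.classInner_of_ne h3 (h' χ hχ).2
    exact h ⟨d, fun k hk hk1 => by simpa using hd k hk hk1⟩

theorem exists_int_star_sub [K.Normal]
    (hF : ∀ g : N, g ∉ K → ∀ n ∈ K, n * g = g * n → n = 1)
    (hS : ∀ χ, χ ∈ S ↔ IsIrrCharacter N χ ∧ ¬ K ≤ charKer χ) (hne : S.Nonempty)
    (hstar : IsLinearIsometryOn (zspan S) star)
    (hext : ∀ α ∈ zspanOn S ({1}ᶜ : Set N), star α = indFun N α)
    (hind : ∀ θ : N → ℂ, IsClassFunction N θ → (∀ x, x ∉ K → θ x = 0) → θ 1 = 0 →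
      ∀ x : N, indFun N θ x = θ x) :
    ∃ m : ℤ, ∀ χ ∈ S, ∀ k ∈ K, k ≠ 1 → star χ k - χ k = m * χ 1 / K.index := by
  classical
  have hz : ∀ χ ∈ S, χ ∈ zspan S := fun χ h => Submodule.subset_span h
  have hd : ∀ χ ∈ S, ∃ d : ℤ, ∀ k ∈ K, k ≠ 1 → star χ k - χ k = d := fun χ hχ => by
    obtain ⟨h1, h2⟩ := (hS χ).1 hχ
    have hg := hstar.2.2.2 _ (hz χ hχ)
    obtain ⟨e, he⟩ := const_of_star hS hstar hext hne hg.isClassFunction h1.isClassFunction
      fun ξ hξ => hstar.2.2.1 _ (hz χ hχ) _ (hz ξ hξ)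
    have hf := (hg.res N).sub h1.isGeneralizedCharacter
    have h3 := classInner_of_const (f := (fun x : N => star χ x) - χ) hF he h1 h2
    obtain ⟨a, ha⟩ := (isGeneralizedCharacter_iff_classInner.1 hf).2 χ h1
    obtain ⟨b, hb⟩ := hf.exists_int_degree
    obtain ⟨c, hc⟩ := Deg.deg_dvd_card h1
    rw [ha, hb, hc, Nat.cast_mul, Deg.cast_deg_irr h1, mul_assoc, mul_comm,
      mul_left_inj' h1.apply_one_ne_zero] at h3
    exact ⟨b - c * a, fun k hk hk1 => by rw [he k hk hk1]; push_cast; linear_combination h3⟩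
  choose! d hd using hd
  obtain ⟨ξ, hξ⟩ := hne
  obtain ⟨hξ1, hξ2⟩ := (hS ξ).1 hξ
  obtain ⟨k, hk, hk1⟩ : ∃ k ∈ K, k ≠ 1 := by
    by_contra h
    push Not at h
    exact hξ2 fun x hx => h x hx ▸ one_mem _
  have he : (K.index : ℂ) ≠ 0 := by exact_mod_cast K.index_ne_zero_of_finite
  have key : ∀ χ ∈ S, ξ 1 * d χ = χ 1 * d ξ := fun χ hχ => by
    obtain ⟨h1, h2⟩ := (hS χ).1 hχ
    have h3 := congrFun (star_comb (fun χ h => ((hS χ).1 h).1.isCharacter) hstar hext hχ hξ) k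
    rw [hind _ ((h1.isClassFunction.smul _).sub (hξ1.isClassFunction.smul _)) (fun x hx => by
      simp [apply_eq_zero_of_fpf h1 h2 (hF x hx), apply_eq_zero_of_fpf hξ1 hξ2 (hF x hx)])
      (by simp [mul_comm])] at h3
    simp only [Pi.sub_apply, Pi.smul_apply, smul_eq_mul] at h3
    rw [← hd χ hχ k hk hk1, ← hd ξ hξ k hk hk1]
    linear_combination h3
  obtain ⟨c, hc⟩ := Deg.deg_dvd_card hξ1
  have h3 := sum_irr_not_ker_degree_sq K
  have h4 : ξ 1 * ((∑ χ : IrrCharacter N with ¬ K ≤ charKer χ.1, charDegree χ.1 * d χ.1 : ℤ) : ℂ) =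
      (Nat.card N - K.index) * d ξ := by
    rw [← h3, Finset.sum_mul, Int.cast_sum, Finset.mul_sum]
    refine Finset.sum_congr (by congr) fun χ hχ => ?_
    have := key χ.1 ((hS _).2 ⟨χ.2, (Finset.mem_filter.1 hχ).2⟩)
    push_cast
    rw [Deg.cast_deg_irr χ.2]
    linear_combination χ.1 1 * this
  refine ⟨c * d ξ - ∑ χ : IrrCharacter N with ¬ K ≤ charKer χ.1, charDegree χ.1 * d χ.1,
    fun χ hχ x hx hx1 => ?_⟩
  rw [hc, Nat.cast_mul, Deg.cast_deg_irr hξ1] at h4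
  rw [hd χ hχ x hx hx1, Int.cast_sub, eq_div_iff he]
  refine mul_left_cancel₀ hξ1.apply_one_ne_zero ?_
  rw [Int.cast_mul, Int.cast_natCast]
  linear_combination K.index * key χ hχ + χ 1 * h4

end

end Cfsg.Lib.Char
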